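import Mathlib
import Cfsg.Agent.Lib.Helper30.Trans4
import Cfsg.Agent.H31.T2
import Cfsg.Agent.Lib.Helper30.CoprimeIface
import Cfsg.Agent.H31.X.MaxLocal
import Cfsg.Agent.H31.X.BenderOdd
import Cfsg.Agent.S0064

set_option autoImplicit false
set_option linter.unusedSectionVars false

/-!
# Bender–Glauberman Theorem 8.1, part (a), and the common core of both parts (helper31)
-/

namespace Cfsg.Agent.H31.BG8

open Cfsg Subgroup Cfsg.Agent.Lib.Helper30 Cfsg.Agent.H31.X.H37.Bender Cfsg.Agent.H31.T2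

universe u

variable {G : Type u} [Group G]

/-- A minimal simple group of odd order is not a `p`-group. -/
theorem not_isPGroup_top [Finite G] (hG : IsMinSimpleOddOrder G) {p : ℕ} [Fact p.Prime]
    {T : Subgroup G} (hT : IsPGroup p T) : T ≠ ⊤ := by
  intro h
  have hs : IsSimpleGroup G := hG.2.1
  have hGp : IsPGroup p G := by
    intro g
    obtain ⟨k, hk⟩ := hT ⟨g, h ▸ Subgroup.mem_top g⟩
    exact ⟨k, by simpa using congrArg Subtype.val hk⟩
  have hnil : Group.IsNilpotent G := hGp.isNilpotent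
  have hsolv : Group.IsSolvable G := inferInstance
  have hc := (IsSimpleGroup.comm_iff_isSolvable (G := G)).mpr hsolv
  exact hG.2.2.1 ⟨⟨fun a b => hc a b⟩⟩

/-- A maximal subgroup is maximal among local subgroups. -/
theorem localMax_of_coatom [Finite G] (hG : IsMinSimpleOddOrder G) {M : Subgroup G}
    (hM : IsCoatom M) : ∀ L : Subgroup G, IsLocalSubgroup L → M ≤ L → L = M := by
  rintro L ⟨p, T, hp, hT, hT0, rfl⟩ hML
  haveI : Fact p.Prime := ⟨hp⟩
  have hTtop : T ≠ ⊤ := not_isPGroup_top hG hT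
  have hN : normalizer (T : Set G) ≠ ⊤ := minSimple_normalizer_ne_top hG hT0 hTtop
  by_contra hne
  exact hN (hM.2 _ (lt_of_le_of_ne hML (Ne.symm hne)))

/-- If a coatom normalizes a nontrivial proper subgroup, it is its normalizer. -/
theorem normalizer_eq_of_coatom' [Finite G] (hG : IsMinSimpleOddOrder G) {M : Subgroup G}
    (hM : IsCoatom M) {W : Subgroup G} (hW0 : W ≠ ⊥) (hWtop : W ≠ ⊤)
    (hMW : M ≤ normalizer (W : Set G)) : normalizer (W : Set G) = M := by
  have hN : normalizer (W : Set G) ≠ ⊤ := minSimple_normalizer_ne_top hG hW0 hWtop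
  by_contra hne
  exact hN (hM.2 _ (lt_of_le_of_ne hMW (Ne.symm hne)))

/-- In a solvable group, `C_M(F(M)) ≤ F(M)`. -/
theorem inf_centralizer_FOf_le [Finite G] {M : Subgroup G} (hs : Group.IsSolvable M) :
    M ⊓ centralizer (FOf M : Set G) ≤ FOf M := by
  intro y hy
  have hE : EOf M = ⊥ := EOf_eq_bot_of_solvable hs
  apply mem_FOf_of_centralizes hy.1
  · intro e he
    rw [hE, Subgroup.mem_bot] at he
    subst he; simp
  · intro f hf
    exact (Subgroup.mem_centralizer_iff.mp hy.2 f hf)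

/-- A subgroup containing a Sylow subgroup of `Y` for every prime dividing `|Y|` contains `Y`. -/
theorem le_of_sylow_le [Finite G] {Y Z : Subgroup G}
    (h : ∀ (q : ℕ) [Fact q.Prime], q ∣ Nat.card Y →
      ∃ Q : Sylow q Y, (Q : Subgroup Y).map Y.subtype ≤ Z) : Y ≤ Z := by
  have hK : Z.subgroupOf Y = ⊤ := by
    rw [← Subgroup.index_eq_one]
    by_contra hne
    obtain ⟨q, hq, hqd⟩ := Nat.exists_prime_and_dvd hne
    haveI : Fact q.Prime := ⟨hq⟩
    have hqY : q ∣ Nat.card Y := dvd_trans hqd (Subgroup.index_dvd_card _)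
    obtain ⟨Q, hQ⟩ := h q hqY
    have hle : (Q : Subgroup Y) ≤ Z.subgroupOf Y := by
      intro x hx
      rw [Subgroup.mem_subgroupOf]
      exact hQ ⟨x, hx, rfl⟩
    exact Q.not_dvd_index (dvd_trans hqd (Subgroup.index_dvd_of_le hle))
  rw [Subgroup.subgroupOf_eq_top] at hK
  exact hK

theorem coprime_of_isPGroup [Finite G] {q : ℕ} [Fact q.Prime] {Q : Subgroup G} (hQ : IsPGroup q Q)
    {n : ℕ} (hqn : ¬ q ∣ n) : (Nat.card Q).Coprime n := by
  obtain ⟨k, hk⟩ := IsPGroup.iff_card.mp hQ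
  rw [hk]
  exact Nat.Coprime.pow_left k ((Nat.Prime.coprime_iff_not_dvd Fact.out).mpr hqn)

/-- An elementary abelian subgroup of order `> p ^ k` witnesses `p`-rank `> k`. -/
theorem not_pRankLE_of_le {p k : ℕ} {B Z : Subgroup G} (hBZ : B ≤ Z)
    (hB : IsElementaryAbelian p B) (hcard : p ^ k < Nat.card B) : ¬ PRankLE p k ↥Z := by
  intro h
  have hc : Nat.card (B.subgroupOf Z) = Nat.card B :=
    Nat.card_congr (Subgroup.subgroupOfEquivOfLe hBZ).toEquiv
  have h1 := h (B.subgroupOf Z) ?_ ?_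
  · omega
  · haveI := hB.1
    refine ⟨⟨fun a b => ?_⟩⟩
    have ha : ((a : Z) : G) ∈ B := Subgroup.mem_subgroupOf.mp a.2
    have hb : ((b : Z) : G) ∈ B := Subgroup.mem_subgroupOf.mp b.2
    have := congrArg Subtype.val (hB.1.is_comm.comm ⟨_, ha⟩ ⟨_, hb⟩)
    exact Subtype.ext (Subtype.ext this)
  · intro a ha
    have ha' : (a : G) ∈ B := Subgroup.mem_subgroupOf.mp ha
    exact Subtype.ext (by simpa using hB.2 _ ha')

/-- Every prime dividing `|F(M)|` divides the order of a self-centralizing subgroup of `F(M)`. -/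
theorem pi_le [Finite G] {M A : Subgroup G} (hAF : A ≤ FOf M)
    (hCA : FOf M ⊓ centralizer (A : Set G) ≤ A) :
    ∀ r : ℕ, r.Prime → r ∣ Nat.card (FOf M) → r ∣ Nat.card A := by
  intro r hr hrF
  haveI : Fact r.Prime := ⟨hr⟩
  have hZr0 : ZOf r M ≠ ⊥ := ZOf_ne_bot (pCoreOf_ne_bot_of_dvd (by rwa [card_FOf] at hrF))
  have hZrA : ZOf r M ≤ A := Cfsg.Agent.H31.X.H37.MaxLocal.ZOf_le_of_self_centralizing M A hAF hCA r
  have hZp : IsPGroup r (ZOf r M) := isPGroup_ZOf r M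
  obtain ⟨k, hk⟩ := IsPGroup.iff_card.mp hZp
  have hk0 : k ≠ 0 := by
    rintro rfl
    exact hZr0 (Subgroup.eq_bot_of_card_eq _ (by simpa using hk))
  have : r ∣ Nat.card (ZOf r M) := hk ▸ dvd_pow_self r hk0
  exact dvd_trans this (Subgroup.card_dvd_of_le hZrA)

/-- The common core of both parts of B&G Theorem 8.1. -/
theorem inv_trivial [Finite G] (hG : IsMinSimpleOddOrder G) {M : Subgroup G} (hM : IsCoatom M)
    {A : Subgroup G} (hAF : A ≤ FOf M) (hCA : FOf M ⊓ centralizer (A : Set G) ≤ A)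
    (hTH : TransitivityHypothesis A)
    (hZ : ¬ RankLE 2 ↥(A ⊓ centralizer (A : Set G))) :
    ∀ Y ∈ invSubgroups ⊤ A (primesNotDvd (Nat.card (FOf M))), Y = ⊥ := by
  have hs : IsSimpleGroup G := hG.2.1
  have hπ := pi_le hAF hCA
  have hMtop : M ≠ ⊤ := hM.1
  have hMsolv : Group.IsSolvable M := hG.2.2.2 M hMtop
  have hFM : FOf M ≤ M := FOf_le M
  have hAM : A ≤ M := hAF.trans hFM
  have hAsolv : Group.IsSolvable A := Cfsg.Agent.H31.X.H37.MaxLocal.isSolvable_of_le_FOf hAF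
  -- Step A
  have hinvM : ∀ Y : Subgroup G, Y ≤ M → A ≤ normalizer (Y : Set G) →
      (Nat.card Y).Coprime (Nat.card (FOf M)) → Y = ⊥ := by
    intro Y hYM hAY hcop
    exact Cfsg.Agent.H31.X.H37.MaxLocal.eq_bot_of_invariant_coprime M A M hAF hCA hMsolv
      (hAM.trans le_normalizer) (inf_le_left.trans le_normalizer) Y hYM
      (hYM.trans le_sup_left) hAY hcop
  -- Step B
  have hA0 : A ≠ ⊥ := hTH.1
  have hFcard : Nat.card (FOf M) ≠ 1 := by
    intro h1
    have : FOf M = ⊥ := Subgroup.eq_bot_of_card_eq _ h1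
    exact hA0 (le_bot_iff.mp (this ▸ hAF))
  obtain ⟨r, hr, hrF⟩ := Nat.exists_prime_and_dvd hFcard
  haveI : Fact r.Prime := ⟨hr⟩
  have hZr0 : ZOf r M ≠ ⊥ := ZOf_ne_bot (pCoreOf_ne_bot_of_dvd (by rwa [card_FOf] at hrF))
  have hZrA : ZOf r M ≤ A := Cfsg.Agent.H31.X.H37.MaxLocal.ZOf_le_of_self_centralizing M A hAF hCA r
  have hCM : centralizer (A : Set G) ≤ M :=
    (Subgroup.centralizer_le hZrA).trans
      (centralizer_le_of_coatom hM hZr0 (ZOf_le r M) (le_normalizer_ZOf r M))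
  -- Step C
  have hcopF : ∀ Y : Subgroup G, IsPi (primesNotDvd (Nat.card A)) Y →
      (Nat.card Y).Coprime (Nat.card (FOf M)) := by
    intro Y hY
    apply Nat.coprime_of_dvd
    intro k hk hkY hkF
    exact (hY k hk hkY).2 (hπ k hk hkF)
  have hK : piCoreOf (primesNotDvd (Nat.card A)) (centralizer (A : Set G)) = ⊥ := by
    apply hinvM
    · exact (piCoreOf_le _ _).trans hCM
    · exact le_normalizer.trans (normalizer_le_normalizer_K _ A)
    · exact hcopF _ (piCoreOf_isPi _ _)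
  -- Step D
  have hq_triv : ∀ q : ℕ, q.Prime → ¬ q ∣ Nat.card (FOf M) →
      ∀ R ∈ invSubgroups ⊤ A {q}, R = ⊥ := by
    intro q hq hqF R hR
    haveI : Fact q.Prime := ⟨hq⟩
    have hqA : ¬ q ∣ Nat.card A := fun h => hqF (dvd_trans h (Subgroup.card_dvd_of_le hAF))
    have htr := trans_of_rank_three hG hTH hZ hq hqA
    have huniq : ∀ Q₁ ∈ maxInvSubgroups ⊤ A {q}, ∀ Q₂ ∈ maxInvSubgroups ⊤ A {q}, Q₂ = Q₁ := by
      intro Q₁ h₁ Q₂ h₂
      obtain ⟨k, hk, rfl⟩ := htr Q₁ h₁ Q₂ h₂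
      rw [hK, Subgroup.mem_bot] at hk
      rw [hk, map_conj_one]
    have hFtop : FOf M ≠ ⊤ := fun h => hMtop (top_le_iff.mp (h ▸ hFM))
    have hnilF : Group.IsNilpotent (FOf M) := by
      have hnil : Group.IsNilpotent ↥(fittingSubgroup ↥M) := Cfsg.Agent.H27.fitting_nilpotent
      exact nilpotent_of_surjective _
        (MonoidHom.subgroupMap_surjective M.subtype (fittingSubgroup ↥M))
    have hsn : (A.subgroupOf (FOf M)).IsSubnormal := (Cfsg.Agent.S0064.result.mp hnilF) _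
    have h75 := thm75 hG A hTH q hq hqA (FOf M) hFtop hπ hAF hsn htr
    have hsub := h75.2.2.1
    obtain ⟨Q, hQmax, -⟩ := exists_le_maxInvSubgroups (A := FOf M) (R := ⊥) (π := {q})
      ⟨le_top, isPi_bot _,
        le_of_le_of_eq le_top (Subgroup.normalizer_eq_top_iff.mpr inferInstance).symm⟩
    have hQA : Q ∈ maxInvSubgroups ⊤ A {q} := hsub hQmax
    have hQq : IsPGroup q Q := isPGroup_of_isPi_singleton hQmax.1.2.1
    have hMQ : M ≤ normalizer (Q : Set G) := by
      intro m hm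
      rw [mem_normalizer_iff_map_conj]
      have hmF : m ∈ normalizer (FOf M : Set G) := le_normalizer_FOf M hm
      exact huniq Q hQA _ (hsub (map_conj_mem_maxInvSubgroups hmF hQmax))
    have hQbot : Q = ⊥ := by
      by_contra hQ0
      have hQtop : Q ≠ ⊤ := ne_top_of_isPGroup_of_not_dvd hA0 hqA hQq
      have hNM : normalizer (Q : Set G) = M := normalizer_eq_of_coatom' hG hM hQ0 hQtop hMQ
      have hQM : Q ≤ M := hNM ▸ le_normalizer
      exact hQ0 (hinvM Q hQM hQA.1.2.2 (coprime_of_isPGroup hQq hqF))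
    obtain ⟨Q', hQ', hRQ'⟩ := exists_le_maxInvSubgroups hR
    have : Q' = Q := huniq Q hQA Q' hQ'
    rw [this, hQbot] at hRQ'
    exact le_bot_iff.mp hRQ'
  -- Step E
  intro Y hY
  by_contra hY0
  have hcard : Nat.card Y ≠ 1 := fun h => hY0 (Subgroup.eq_bot_of_card_eq _ h)
  obtain ⟨q, hq, hqY⟩ := Nat.exists_prime_and_dvd hcard
  haveI : Fact q.Prime := ⟨hq⟩
  have hqF : ¬ q ∣ Nat.card (FOf M) := (hY.2.1 q hq hqY).2
  have hcop : (Nat.card A).Coprime (Nat.card Y) := by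
    apply Nat.coprime_of_dvd
    intro k hk hkA hkY
    exact (hY.2.1 k hk hkY).2 (dvd_trans hkA (Subgroup.card_dvd_of_le hAF))
  obtain ⟨Q, hQ⟩ := coprime_exists_invariant_sylow A Y hY.2.2 hcop (Or.inl hAsolv) q
  have hQ0 : (Q : Subgroup Y).map Y.subtype = ⊥ :=
    hq_triv q hq hqF _ ⟨le_top, isPi_singleton_of_isPGroup (Q.isPGroup'.map _), hQ⟩
  have hQ1 : (Q : Subgroup Y) = ⊥ := by
    rwa [Subgroup.map_eq_bot_iff_of_injective _ (Subgroup.subtype_injective _)] at hQ0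
  exact Q.ne_bot_of_dvd_card hqY hQ1

/-- The transitivity hypothesis for a self-centralizing subgroup of `F(M)` when `F(M)` is not a
`p`-group. -/
theorem transHyp_of_two_primes [Finite G] (hG : IsMinSimpleOddOrder G) {M : Subgroup G}
    (hM : IsCoatom M) (hF2 : 2 ≤ (Nat.card (FOf M)).primeFactors.card)
    {A : Subgroup G} (hAF : A ≤ FOf M) (hCA : FOf M ⊓ centralizer (A : Set G) ≤ A)
    (hA0 : A ≠ ⊥) : TransitivityHypothesis A := by
  have hMtop : M ≠ ⊤ := hM.1
  have hMsolv : Group.IsSolvable M := hG.2.2.2 M hMtop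
  have hFM : FOf M ≤ M := FOf_le M
  have hAM : A ≤ M := hAF.trans hFM
  have hAsolv : Group.IsSolvable A := Cfsg.Agent.H31.X.H37.MaxLocal.isSolvable_of_le_FOf hAF
  have hπ := pi_le hAF hCA
  have hπeq : primesNotDvd (Nat.card A) = primesNotDvd (Nat.card (FOf M)) := by
    ext r
    constructor
    · rintro ⟨hr, hrA⟩; exact ⟨hr, fun h => hrA (hπ r hr h)⟩
    · rintro ⟨hr, hrF⟩; exact ⟨hr, fun h => hrF (dvd_trans h (Subgroup.card_dvd_of_le hAF))⟩
  have hHmax := localMax_of_coatom hG hM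
  have hCF : M ⊓ centralizer (FOf M : Set G) ≤ A := by
    intro y hy
    apply hCA
    exact ⟨inf_centralizer_FOf_le hMsolv hy, Subgroup.centralizer_le hAF hy.2⟩
  refine ⟨hA0, fun h => hMtop (top_le_iff.mp (h ▸ hAM)), ?_⟩
  intro X hX hAX
  have hXsolv : Group.IsSolvable X := hG.2.2.2 X hX
  apply le_antisymm
  · apply sSup_le
    intro Y hY
    apply le_of_sylow_le
    intro q _ hqY
    have hq : q.Prime := Fact.out
    have hqA : ¬ q ∣ Nat.card A := (hY.2.1 q hq hqY).2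
    have hqF : ¬ q ∣ Nat.card (FOf M) := fun h => hqA (hπ q hq h)
    have hcop : (Nat.card A).Coprime (Nat.card Y) := (IsPi.coprime hY.2.1).symm
    obtain ⟨Q, hQ⟩ := coprime_exists_invariant_sylow A Y hY.2.2 hcop (Or.inl hAsolv) q
    refine ⟨Q, ?_⟩
    have hQX : (Q : Subgroup Y).map Y.subtype ≤ X := (Subgroup.map_subtype_le _).trans hY.1
    have := Cfsg.Agent.H31.X.H37.MaxLocal.le_piCoreOf_sup M hHmax hF2 A hAF hCA X hXsolv
      (hAX.trans le_normalizer) (hCF.trans (hAX.trans le_normalizer)) q hqF _ hQX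
      (Q.isPGroup'.map _) hQ
    rwa [sup_eq_left.mpr hAX, ← hπeq] at this
  · apply le_sSup
    exact ⟨piCoreOf_le _ _, piCoreOf_isPi _ _, hAX.trans (le_normalizer_piCoreOf _ _)⟩

/-- B&G Theorem 8.1(a). -/
theorem bg81a [Finite G] (hG : IsMinSimpleOddOrder G) {M : Subgroup G} (hM : IsCoatom M)
    {p : ℕ} [Fact p.Prime] {A₀ : Subgroup G} (hA₀ : A₀ ≤ FOf M)
    (hA₀e : IsElementaryAbelian p A₀) (hA₀3 : p ^ 3 ≤ Nat.card A₀)
    (hnp : ¬ IsPGroup p ↥(FOf M)) :
    InUniqueMaximal (FOf M ⊓ centralizer (A₀ : Set G)) := by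
  have hp : p.Prime := Fact.out
  have hA₀c : A₀ ≤ centralizer (A₀ : Set G) := by
    haveI := hA₀e.1
    exact Subgroup.le_centralizer A₀
  have hAF : FOf M ⊓ centralizer (A₀ : Set G) ≤ FOf M := inf_le_left
  have hA₀A : A₀ ≤ FOf M ⊓ centralizer (A₀ : Set G) := le_inf hA₀ hA₀c
  have hCA : FOf M ⊓ centralizer ((FOf M ⊓ centralizer (A₀ : Set G) : Subgroup G) : Set G)
      ≤ FOf M ⊓ centralizer (A₀ : Set G) :=
    le_inf inf_le_left (inf_le_right.trans (Subgroup.centralizer_le hA₀A))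
  have hA₀card : 1 < Nat.card A₀ :=
    lt_of_lt_of_le (Nat.one_lt_pow (by norm_num) hp.one_lt) hA₀3
  have hA₀0 : A₀ ≠ ⊥ := by
    rintro h
    rw [h, Subgroup.card_bot] at hA₀card
    exact lt_irrefl _ hA₀card
  have hA0 : FOf M ⊓ centralizer (A₀ : Set G) ≠ ⊥ := fun h => hA₀0 (le_bot_iff.mp (h ▸ hA₀A))
  have hpF : p ∣ Nat.card (FOf M) := dvd_card_of_exponent_prime hA₀ hA₀e.2 hA₀card
  have hF2 : 2 ≤ (Nat.card (FOf M)).primeFactors.card := by
    by_contra hlt
    apply hnp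
    have hall : ∀ {d : ℕ}, d.Prime → d ∣ Nat.card (FOf M) → d = p := by
      intro d hd hdF
      by_contra hne
      apply hlt
      have hsub : ({p, d} : Finset ℕ) ⊆ (Nat.card (FOf M)).primeFactors := by
        intro x hx
        rw [Finset.mem_insert, Finset.mem_singleton] at hx
        rcases hx with rfl | rfl
        · exact Nat.mem_primeFactors.mpr ⟨hp, hpF, Nat.card_pos.ne'⟩
        · exact Nat.mem_primeFactors.mpr ⟨hd, hdF, Nat.card_pos.ne'⟩
      have := Finset.card_le_card hsub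
      rwa [Finset.card_pair (Ne.symm hne)] at this
    exact IsPGroup.of_card (Nat.eq_prime_pow_of_unique_prime_dvd Nat.card_pos.ne' hall)
  have hTH := transHyp_of_two_primes hG hM hF2 hAF hCA hA0
  have hZ : ¬ RankLE 2 ↥((FOf M ⊓ centralizer (A₀ : Set G)) ⊓
      centralizer ((FOf M ⊓ centralizer (A₀ : Set G) : Subgroup G) : Set G)) := by
    intro h
    refine not_pRankLE_of_le (B := A₀) (le_inf hA₀A ?_) hA₀e ?_ (h p hp)
    · intro x hx
      rw [Subgroup.mem_centralizer_iff]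
      intro y hy
      exact (Subgroup.mem_centralizer_iff.mp hy.2 x hx).symm
    · exact lt_of_lt_of_le (Nat.pow_lt_pow_right hp.one_lt (by norm_num)) hA₀3
  have hinv := inv_trivial hG hM hAF hCA hTH hZ
  have hs : IsSimpleGroup G := hG.2.1
  have huniq := Cfsg.Agent.H31.X.H37.Bender.unique_max_of_center hG.2.2.2 hM hF2
    (M := FOf M ⊓ centralizer (A₀ : Set G))
    (le_inf inf_le_left (inf_le_right.trans (Subgroup.centralizer_le hA₀)))
    (fun Y hY hn => hinv Y ⟨le_top, fun p hp hpd => ⟨hp, hY p hp hpd⟩, hn⟩)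
  exact ⟨M, ⟨hM, hAF.trans (FOf_le M)⟩, fun L hL => huniq L hL.1 hL.2⟩

end Cfsg.Agent.H31.BG8
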