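import Mathlib
import Cfsg.Agent.H31.BG8a
import Cfsg.Agent.S1396
import Cfsg.Agent.S1457
import Cfsg.Agent.S1458
import Cfsg.Agent.H58.GTe

set_option autoImplicit false
set_option linter.unusedSectionVars false

/-!
# Bender–Glauberman Theorem 8.1, part (b) (helper31)
-/

namespace Cfsg.Agent.H31.BG8

open Cfsg Subgroup Cfsg.Agent.Lib.Helper30 Cfsg.Agent.H31.X.H37.Bender Cfsg.Agent.H58 Cfsg.Agent.H31.T2

universe u

variable {G : Type u} [Group G]

/-- If `F(M)` is a `p`-group and `M` is solvable then `O_{p'}(M) = 1`. -/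
theorem pPrimeCore_eq_bot_of_FOf [Finite G] {M : Subgroup G} (hMsolv : Group.IsSolvable M)
    {p : ℕ} [Fact p.Prime] (hF : IsPGroup p ↥(FOf M)) : pPrimeCore p ↥M = ⊥ := by
  have hN : (pPrimeCore p ↥M).map M.subtype = ⊥ := by
    apply Cfsg.Agent.H31.X.H37.MaxLocal.eq_bot_of_invariant_coprime M (FOf M) M le_rfl inf_le_left hMsolv
      ((FOf_le M).trans le_normalizer) (inf_le_left.trans le_normalizer) _
      (Subgroup.map_subtype_le _) ((Subgroup.map_subtype_le _).trans le_sup_left)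
      ((FOf_le M).trans (le_normalizer_map_subtype M (pPrimeCore p ↥M)))
    rw [Subgroup.card_subtype]
    obtain ⟨k, hk⟩ := IsPGroup.iff_card.mp hF
    rw [hk]
    exact Nat.Coprime.pow_right k (Cfsg.Agent.H37.card_pPrimeCore_coprime p)
  rwa [Subgroup.map_eq_bot_iff_of_injective _ (Subgroup.subtype_injective _)] at hN

/-- A Sylow subgroup of `H` whose `G`-normalizer lies in `H` is a Sylow subgroup of `G`. -/
theorem sylow_of_normalizer_le [Finite G] {p : ℕ} [Fact p.Prime] {H : Subgroup G} (S : Sylow p H)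
    (hN : normalizer (((S : Subgroup H).map H.subtype : Subgroup G) : Set G) ≤ H) :
    ∃ T : Sylow p G, (T : Subgroup G) = (S : Subgroup H).map H.subtype := by
  have hSGp : IsPGroup p ((S : Subgroup H).map H.subtype) := S.isPGroup'.map _
  obtain ⟨T, hT⟩ := hSGp.exists_le_sylow
  refine ⟨T, ?_⟩
  by_contra hne
  have hlt : (S : Subgroup H).map H.subtype < (T : Subgroup G) := lt_of_le_of_ne hT (Ne.symm hne)
  obtain ⟨x, hxT, hxN, hxS⟩ := exists_mem_normalizer_not_mem T.isPGroup' hlt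
  have hDH : (T : Subgroup G) ⊓ normalizer (((S : Subgroup H).map H.subtype : Subgroup G) : Set G)
      ≤ H := inf_le_right.trans hN
  have hle : (S : Subgroup H) ≤ ((T : Subgroup G) ⊓
      normalizer (((S : Subgroup H).map H.subtype : Subgroup G) : Set G)).subgroupOf H := by
    intro y hy
    rw [Subgroup.mem_subgroupOf]
    exact ⟨hT ⟨y, hy, rfl⟩, le_normalizer ⟨y, hy, rfl⟩⟩
  have hDp' : IsPGroup p (((T : Subgroup G) ⊓
      normalizer (((S : Subgroup H).map H.subtype : Subgroup G) : Set G)).subgroupOf H) :=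
    (T.isPGroup'.to_le inf_le_left).comap_subtype
  have heq := S.is_maximal' hDp' hle
  apply hxS
  have hxD : x ∈ (T : Subgroup G) ⊓
      normalizer (((S : Subgroup H).map H.subtype : Subgroup G) : Set G) := ⟨hxT, hxN⟩
  have : (⟨x, hDH hxD⟩ : H) ∈ (S : Subgroup H) := by
    rw [← heq, Subgroup.mem_subgroupOf]; exact hxD
  exact ⟨_, this, rfl⟩

/-- The `ZJ`-lemma: in a maximal subgroup `H` with `O_{p'}(H) = 1`, `Z(J(S))` is normal for a
Sylow `p`-subgroup `S ≠ 1`, and `S` is a Sylow subgroup of `G`. -/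
theorem zj_lemma [Finite G] (hG : IsMinSimpleOddOrder G) {H : Subgroup G} (hH : IsCoatom H)
    {p : ℕ} [Fact p.Prime] (hO : pPrimeCore p ↥H = ⊥) (S : Sylow p H)
    (hS0 : (S : Subgroup H) ≠ ⊥) :
    H ≤ normalizer ((cJ p ((S : Subgroup H).map H.subtype) : Subgroup G) : Set G) ∧
    cJ p ((S : Subgroup H).map H.subtype) ≠ ⊥ ∧
    cJ p ((S : Subgroup H).map H.subtype) ≠ ⊤ ∧
    ∃ T : Sylow p G, (T : Subgroup G) = (S : Subgroup H).map H.subtype := by
  have hHtop : H ≠ ⊤ := hH.1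
  haveI hHsolv : Group.IsSolvable H := hG.2.2.2 H hHtop
  have hodd : Odd (Nat.card H) := hG.1.of_dvd_nat (Subgroup.card_subgroup_dvd_card H)
  have hn := Cfsg.Agent.S1458.result (G := ↥H) hodd p S
  rw [hO, sup_bot_eq, centerThompsonOf_eq_cJ] at hn
  have hSGp : IsPGroup p ((S : Subgroup H).map H.subtype) := S.isPGroup'.map _
  have hSG0 : (S : Subgroup H).map H.subtype ≠ ⊥ := by
    rw [Ne, Subgroup.map_eq_bot_iff_of_injective _ (Subgroup.subtype_injective _)]; exact hS0
  have hmap : (cJ p (S : Subgroup H)).map H.subtype = cJ p ((S : Subgroup H).map H.subtype) :=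
    cJ_map_hom H.subtype (fun x _ hx => by simpa using hx)
  have hHW : H ≤ normalizer ((cJ p ((S : Subgroup H).map H.subtype) : Subgroup G) : Set G) := by
    rw [← hmap]
    haveI := hn
    exact le_normalizer_map_subtype H (cJ p (S : Subgroup H))
  have hW0 : cJ p ((S : Subgroup H).map H.subtype) ≠ ⊥ := cJ_ne_bot (Or.inr rfl) hSGp hSG0
  have hWH : cJ p ((S : Subgroup H).map H.subtype) ≤ H :=
    (cJ_le p _).trans (Subgroup.map_subtype_le _)
  have hWtop : cJ p ((S : Subgroup H).map H.subtype) ≠ ⊤ :=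
    fun h => hHtop (top_le_iff.mp (h ▸ hWH))
  have hNW := normalizer_eq_of_coatom' hG hH hW0 hWtop hHW
  have hNS : normalizer (((S : Subgroup H).map H.subtype : Subgroup G) : Set G) ≤ H :=
    (normalizer_le_normalizer_cJ p _).trans hNW.le
  exact ⟨hHW, hW0, hWtop, sylow_of_normalizer_le S hNS⟩

/-- `O_{p',p}(H) = O_p(H)` when `O_{p'}(H) = 1`. -/
theorem pPrimePCore_le_pCore {H : Type*} [Group H] [Finite H] {p : ℕ} [Fact p.Prime]
    (hO : pPrimeCore p H = ⊥) : pPrimePCore p H ≤ pCore p H := by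
  apply le_sSup
  refine ⟨?_, ?_⟩
  · unfold pPrimePCore; exact Subgroup.Normal.comap inferInstance _
  · intro x
    have hx : QuotientGroup.mk' (pPrimeCore p H) (x : H) ∈ pCore p (H ⧸ pPrimeCore p H) := x.2
    obtain ⟨k, hk⟩ := (Cfsg.Agent.H1.pCore_isPGroup (G := H ⧸ pPrimeCore p H) p) ⟨_, hx⟩
    refine ⟨k, Subtype.ext ?_⟩
    have h1 : QuotientGroup.mk' (pPrimeCore p H) ((x : H) ^ p ^ k) = 1 := by
      rw [map_pow]; exact congrArg Subtype.val hk
    have h2 : (x : H) ^ p ^ k ∈ pPrimeCore p H := by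
      rwa [QuotientGroup.mk'_apply, QuotientGroup.eq_one_iff] at h1
    rw [hO, Subgroup.mem_bot] at h2
    simpa using h2

/-- The final argument of B&G Theorem 8.1(b): if every maximal subgroup containing the nontrivial
`p`-subgroup `A` has trivial `p'`-core, then `A` lies in a unique maximal subgroup. -/
theorem unique_max_of_cores [Finite G] (hG : IsMinSimpleOddOrder G) {p : ℕ} [Fact p.Prime]
    {A : Subgroup G} (hA0 : A ≠ ⊥) (hAp : IsPGroup p A)
    (hO : ∀ H : Subgroup G, IsCoatom H → A ≤ H → pPrimeCore p ↥H = ⊥)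
    {M : Subgroup G} (hM : IsCoatom M) (hAM : A ≤ M) :
    ∀ H : Subgroup G, IsCoatom H → A ≤ H → H = M := by
  intro H₀ hH₀ hAH₀
  by_contra hne₀
  have hA𝒮 : A ∈ {R : Subgroup G | IsPGroup p R ∧ A ≤ R ∧ R ≤ M ∧
      ∃ H : Subgroup G, IsCoatom H ∧ H ≠ M ∧ R ≤ H} :=
    ⟨hAp, le_rfl, hAM, H₀, hH₀, hne₀, hAH₀⟩
  obtain ⟨R, hAR, hRmax⟩ := (Set.toFinite {R : Subgroup G | IsPGroup p R ∧ A ≤ R ∧ R ≤ M ∧
      ∃ H : Subgroup G, IsCoatom H ∧ H ≠ M ∧ R ≤ H}).exists_le_maximal hA𝒮
  obtain ⟨hRp, -, hRM, H, hH, hHM, hRH⟩ := hRmax.1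
  have hmax : ∀ D : Subgroup G, IsPGroup p D → D ≤ M →
      (∃ H : Subgroup G, IsCoatom H ∧ H ≠ M ∧ D ≤ H) → R ≤ D → D = R :=
    fun D hDp hDM hDH hRD => le_antisymm (hRmax.2 ⟨hDp, hAR.trans hRD, hDM, hDH⟩ hRD) hRD
  have hR0 : R ≠ ⊥ := fun h => hA0 (le_bot_iff.mp (h ▸ hAR))
  have hRtop : R ≠ ⊤ := not_isPGroup_top hG hRp
  -- a Sylow subgroup of `H` containing `R`
  obtain ⟨S, hS⟩ := (hRp.comap_subtype (K := H)).exists_le_sylow
  have hRSG : R ≤ (S : Subgroup H).map H.subtype := by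
    intro x hx
    exact ⟨⟨x, hRH hx⟩, hS (Subgroup.mem_subgroupOf.mpr hx), rfl⟩
  have hS0 : (S : Subgroup H) ≠ ⊥ := by
    intro h
    rw [h, Subgroup.map_bot] at hRSG
    exact hR0 (le_bot_iff.mp hRSG)
  obtain ⟨hHW, hW0, hWtop, T, hT⟩ := zj_lemma hG hH (hO H hH (hAR.trans hRH)) S hS0
  -- a Sylow subgroup of `M` containing `R`
  obtain ⟨P', hP'⟩ := (hRp.comap_subtype (K := M)).exists_le_sylow
  have hRPG : R ≤ (P' : Subgroup M).map M.subtype := by
    intro x hx
    exact ⟨⟨x, hRM hx⟩, hP' (Subgroup.mem_subgroupOf.mpr hx), rfl⟩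
  have hP'0 : (P' : Subgroup M) ≠ ⊥ := by
    intro h
    rw [h, Subgroup.map_bot] at hRPG
    exact hR0 (le_bot_iff.mp hRPG)
  obtain ⟨hMW, -, -, T', hT'⟩ := zj_lemma hG hM (hO M hM hAM) P' hP'0
  have hSGp : IsPGroup p ((S : Subgroup H).map H.subtype) := S.isPGroup'.map _
  have hPGp : IsPGroup p ((P' : Subgroup M).map M.subtype) := P'.isPGroup'.map _
  by_cases hRS : R = (S : Subgroup H).map H.subtype
  · have hTR : (T : Subgroup G) = R := hT.trans hRS.symm
    have h1 : (P' : Subgroup M).map M.subtype = (T : Subgroup G) :=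
      T.is_maximal' hPGp (hTR.le.trans hRPG)
    rw [← hRS] at hHW hW0 hWtop
    rw [h1, hTR] at hMW
    have e1 := normalizer_eq_of_coatom' hG hH hW0 hWtop hHW
    have e2 := normalizer_eq_of_coatom' hG hM hW0 hWtop hMW
    exact hHM (e1.symm.trans e2)
  · have hlt : R < (S : Subgroup H).map H.subtype := lt_of_le_of_ne hRSG hRS
    have hD : R < (S : Subgroup H).map H.subtype ⊓ normalizer (R : Set G) :=
      lt_inf_normalizer hSGp hlt
    have hNtop : normalizer (R : Set G) ≠ ⊤ := minSimple_normalizer_ne_top hG hR0 hRtop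
    obtain ⟨H₂, hH₂, hNH₂⟩ :=
      (eq_top_or_exists_le_coatom (normalizer (R : Set G))).resolve_left hNtop
    by_cases hH₂M : H₂ = M
    · have := hmax _ (hSGp.to_le inf_le_left) (hH₂M ▸ (inf_le_right.trans hNH₂))
        ⟨H, hH, hHM, inf_le_left.trans (Subgroup.map_subtype_le _)⟩ hD.le
      exact hD.ne' this
    · have hD'eq := hmax _ (hPGp.to_le inf_le_left)
        (inf_le_left.trans (Subgroup.map_subtype_le _))
        ⟨H₂, hH₂, hH₂M, inf_le_right.trans hNH₂⟩ (le_inf hRPG le_normalizer)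
      have hRPeq : R = (P' : Subgroup M).map M.subtype := by
        by_contra hne
        have := lt_inf_normalizer hPGp (lt_of_le_of_ne hRPG hne)
        exact this.ne' hD'eq
      have hT'R : (T' : Subgroup G) = R := hT'.trans hRPeq.symm
      have h1 : (S : Subgroup H).map H.subtype = (T' : Subgroup G) :=
        T'.is_maximal' hSGp (hT'R.le.trans hRSG)
      exact hRS (h1.trans hT'R).symm

/-- B&G Theorem 8.1(b). -/
theorem bg81b [Finite G] (hG : IsMinSimpleOddOrder G) {M : Subgroup G} (hM : IsCoatom M)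
    {p : ℕ} [Fact p.Prime] (hpF : p ∣ Nat.card (FOf M)) (hF : IsPGroup p ↥(FOf M))
    (P : Sylow p M) :
    ¬ p ∣ ((P : Subgroup M).map M.subtype).index ∧
    ∀ A : Subgroup G, IsSCN ((P : Subgroup M).map M.subtype) A → ¬ PRankLE p 2 ↥A →
      A ≤ FOf M ∧ InUniqueMaximal A := by
  have hp : p.Prime := Fact.out
  have hMtop : M ≠ ⊤ := hM.1
  haveI hMsolv : Group.IsSolvable M := hG.2.2.2 M hMtop
  have hOM : pPrimeCore p ↥M = ⊥ := pPrimeCore_eq_bot_of_FOf hMsolv hF
  have hpM : p ∣ Nat.card M := dvd_trans hpF (Subgroup.card_dvd_of_le (FOf_le M))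
  have hP0 : (P : Subgroup M) ≠ ⊥ := P.ne_bot_of_dvd_card hpM
  obtain ⟨-, -, -, T, hT⟩ := zj_lemma hG hM hOM P hP0
  have hPGp : IsPGroup p ((P : Subgroup M).map M.subtype) := P.isPGroup'.map _
  refine ⟨hT ▸ T.not_dvd_index, ?_⟩
  intro A hSCN hr
  have hAp : IsPGroup p A := hPGp.to_le hSCN.1
  have hAcent : A ≤ centralizer (A : Set G) := by
    intro x hx
    have hx' : x ∈ (P : Subgroup M).map M.subtype ⊓ centralizer (A : Set G) := by
      rw [hSCN.2.2]; exact hx
    exact hx'.2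
  have hAcomm : IsMulCommutative A := Subgroup.le_centralizer_iff_isMulCommutative.mp hAcent
  have hAM : A ≤ M := hSCN.1.trans (Subgroup.map_subtype_le _)
  -- `A ≤ F(M)`
  have hAF : A ≤ FOf M := by
    have hodd : Odd (Nat.card M) := hG.1.of_dvd_nat (Subgroup.card_subgroup_dvd_card M)
    have hA'P : A.subgroupOf M ≤ (P : Subgroup M) := by
      intro x hx
      obtain ⟨y, hy, hyx⟩ := hSCN.1 (Subgroup.mem_subgroupOf.mp hx)
      have : y = x := Subtype.ext hyx
      exact this ▸ hy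
    have hA'c : IsMulCommutative (A.subgroupOf M) := by
      refine ⟨⟨fun a b => ?_⟩⟩
      have ha : ((a : M) : G) ∈ A := Subgroup.mem_subgroupOf.mp a.2
      have hb : ((b : M) : G) ∈ A := Subgroup.mem_subgroupOf.mp b.2
      have := Subgroup.mem_centralizer_iff.mp (hAcent hb) _ ha
      exact Subtype.ext (Subtype.ext this)
    have hA'n : (P : Subgroup M) ≤ normalizer ((A.subgroupOf M : Subgroup M) : Set M) := by
      have := Cfsg.Agent.H31.X.H37.MaxLocal.subgroupOf_le_normalizer M hSCN.2.1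
      rwa [show ((P : Subgroup M).map M.subtype).subgroupOf M = P from
        Subgroup.comap_map_eq_self_of_injective (Subgroup.subtype_injective _) _] at this
    have h1 := Cfsg.Agent.S1457.result (G := ↥M) hodd p P (A.subgroupOf M) hA'P hA'c hA'n
    have h2 : A.subgroupOf M ≤ pCore p M := h1.trans (pPrimePCore_le_pCore hOM)
    intro x hx
    apply pCoreOf_le_FOf p M
    exact (Subgroup.mem_map (f := M.subtype) (K := pCore p ↥M)).mpr
      ⟨⟨x, hAM hx⟩, h2 (Subgroup.mem_subgroupOf.mpr hx), rfl⟩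
  -- `F(M) ≤ P`
  have hFP : FOf M ≤ (P : Subgroup M).map M.subtype := by
    apply Subgroup.map_mono
    have hFp' : IsPGroup p (fittingSubgroup ↥M) := by
      obtain ⟨k, hk⟩ := IsPGroup.iff_card.mp hF
      exact IsPGroup.of_card (by rw [← card_FOf, hk])
    haveI : (fittingSubgroup ↥M).Normal := Cfsg.Agent.H27.fitting_normal _
    exact Cfsg.Agent.H1.normal_pgroup_le_sylow p _ hFp' P
  have hCA : FOf M ⊓ centralizer (A : Set G) ≤ A := by
    intro x hx
    rw [← hSCN.2.2]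
    exact ⟨hFP hx.1, hx.2⟩
  -- transitivity hypothesis
  have hpG : p ∣ Nat.card G := dvd_trans hpM (Subgroup.card_subgroup_dvd_card M)
  have hr1 : ¬ PRankLE p 1 ↥A := by
    intro h
    apply hr
    intro B hBc hBp
    exact (h B hBc hBp).trans (Nat.pow_le_pow_right hp.pos (by norm_num))
  have hTH : TransitivityHypothesis A :=
    Cfsg.Agent.S1396.result hG p hpG A hAp hAcomm (Or.inr ⟨T, hT ▸ hSCN, hr1⟩)
  have hZ : ¬ RankLE 2 ↥(A ⊓ centralizer (A : Set G)) := by
    intro h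
    obtain ⟨B, hBA, hBc, hBp, hBcard⟩ := exists_elementary_of_not_pRankLE hr
    refine not_pRankLE_of_le (B := B) (le_inf hBA (hBA.trans hAcent)) ⟨?_, hBp⟩ hBcard (h p hp)
    exact ⟨⟨fun a b => Subtype.ext (hBc a a.2 b b.2)⟩⟩
  have hinv := inv_trivial hG hM hAF hCA hTH hZ
  have hA0 : A ≠ ⊥ := hTH.1
  -- every maximal subgroup containing `A` has trivial `p'`-core
  have hO : ∀ H : Subgroup G, IsCoatom H → A ≤ H → pPrimeCore p ↥H = ⊥ := by
    intro H hH hAH
    have h0 : (pPrimeCore p ↥H).map H.subtype = ⊥ := by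
      apply hinv
      refine ⟨le_top, ?_, hAH.trans (le_normalizer_map_subtype H (pPrimeCore p ↥H))⟩
      intro q hq hqd
      rw [Subgroup.card_subtype] at hqd
      refine ⟨hq, fun hqF => ?_⟩
      obtain ⟨k, hk⟩ := IsPGroup.iff_card.mp hF
      rw [hk] at hqF
      have hqp : q = p := (Nat.prime_dvd_prime_iff_eq hq hp).mp (hq.dvd_of_dvd_pow hqF)
      subst hqp
      have hcop := Cfsg.Agent.H37.card_pPrimeCore_coprime (G := ↥H) q
      have h1 := Nat.dvd_gcd hqd (dvd_refl q)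
      rw [Nat.Coprime] at hcop
      rw [hcop] at h1
      exact hq.ne_one (Nat.dvd_one.mp h1)
    rwa [Subgroup.map_eq_bot_iff_of_injective _ (Subgroup.subtype_injective _)] at h0
  have huniq := unique_max_of_cores hG hA0 hAp hO hM hAM
  exact ⟨hAF, M, ⟨hM, hAM⟩, fun L hL => huniq L hL.1 hL.2⟩

end Cfsg.Agent.H31.BG8
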