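import Mathlib
import Cfsg.Agent.H31.BG8b
import Cfsg.Agent.S0126
import Cfsg.Agent.S1451
import Cfsg.Agent.S1452
import Cfsg.Agent.Lib.Helper30.Generation
import Cfsg.Agent.H27.BenderMax

set_option autoImplicit false
set_option linter.unusedSectionVars false

/-!
# Bender–Glauberman Lemma 9.1 (helper31)
-/

namespace Cfsg.Agent.H31.BG9

open Cfsg Subgroup Cfsg.Agent.Lib.Helper30 Cfsg.Agent.H31.X.H37.Bender Cfsg.Agent.H58
  Cfsg.Agent.H31.T2 Cfsg.Agent.H31.BG8

open scoped commutatorElement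

universe u

variable {G : Type u} [Group G]

/-- In a finite solvable group, a `p'`-subgroup normalized by a Sylow `p`-subgroup lies in
`O_{p'}`. -/
theorem sylow_inv_le_core {H : Type*} [Group H] [Finite H] [Group.IsSolvable H] (p : ℕ)
    [Fact p.Prime] (P : Sylow p H) (Y : Subgroup H) (hY : (Nat.card Y).Coprime p)
    (hPY : (P : Subgroup H) ≤ normalizer (Y : Set H)) : Y ≤ pPrimeCore p H := by
  have hφ := QuotientGroup.mk'_surjective (pPrimeCore p H)
  have hcent := Cfsg.Agent.H1.centralizer_pCore_le (G := H ⧸ pPrimeCore p H) p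
    (Cfsg.Agent.H1.pPrimeCore_quotient_eq_bot p)
  have h1 : pCore p (H ⧸ pPrimeCore p H) ≤
      (P : Subgroup H).map (QuotientGroup.mk' (pPrimeCore p H)) :=
    Cfsg.Agent.H1.pCore_le_sylow p (P.mapSurjective hφ)
  have hOp : IsPGroup p (pCore p (H ⧸ pPrimeCore p H)) := Cfsg.Agent.H1.pCore_isPGroup p
  have hYb : (Nat.card (Y.map (QuotientGroup.mk' (pPrimeCore p H)))).Coprime p :=
    Nat.Coprime.coprime_dvd_left (Subgroup.card_map_dvd _ _) hY
  have hdisj : ∀ x, x ∈ pCore p (H ⧸ pPrimeCore p H) →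
      x ∈ Y.map (QuotientGroup.mk' (pPrimeCore p H)) → x = 1 := by
    intro x hx hxY
    obtain ⟨k, hk⟩ := hOp ⟨x, hx⟩
    have hk' : x ^ p ^ k = 1 := congrArg Subtype.val hk
    have h2 : orderOf x ∣ p ^ k := orderOf_dvd_of_pow_eq_one hk'
    have h3 : orderOf x ∣ Nat.card (Y.map (QuotientGroup.mk' (pPrimeCore p H))) := by
      have := orderOf_dvd_natCard (⟨x, hxY⟩ : Y.map (QuotientGroup.mk' (pPrimeCore p H)))
      rwa [Subgroup.orderOf_mk] at this
    have h4 := Nat.dvd_gcd h3 h2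
    have h5 : Nat.gcd (Nat.card (Y.map (QuotientGroup.mk' (pPrimeCore p H)))) (p ^ k) = 1 :=
      Nat.Coprime.pow_right k hYb
    rw [h5] at h4
    exact orderOf_eq_one_iff.mp (Nat.dvd_one.mp h4)
  intro y hy
  have hyb : QuotientGroup.mk' (pPrimeCore p H) y ∈
      Y.map (QuotientGroup.mk' (pPrimeCore p H)) := ⟨y, hy, rfl⟩
  have hc : QuotientGroup.mk' (pPrimeCore p H) y ∈
      centralizer (pCore p (H ⧸ pPrimeCore p H) : Set (H ⧸ pPrimeCore p H)) := by
    rw [Subgroup.mem_centralizer_iff]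
    intro o ho
    obtain ⟨x, hxP, rfl⟩ := h1 ho
    have hc1 : QuotientGroup.mk' (pPrimeCore p H) x * QuotientGroup.mk' (pPrimeCore p H) y *
        (QuotientGroup.mk' (pPrimeCore p H) x)⁻¹ * (QuotientGroup.mk' (pPrimeCore p H) y)⁻¹ ∈
        pCore p (H ⧸ pPrimeCore p H) := by
      have hn : (pCore p (H ⧸ pPrimeCore p H)).Normal := inferInstance
      have := hn.conj_mem _ (inv_mem ho) (QuotientGroup.mk' (pPrimeCore p H) y)
      have e : QuotientGroup.mk' (pPrimeCore p H) x * QuotientGroup.mk' (pPrimeCore p H) y *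
          (QuotientGroup.mk' (pPrimeCore p H) x)⁻¹ * (QuotientGroup.mk' (pPrimeCore p H) y)⁻¹ =
          QuotientGroup.mk' (pPrimeCore p H) x * (QuotientGroup.mk' (pPrimeCore p H) y *
          (QuotientGroup.mk' (pPrimeCore p H) x)⁻¹ *
          (QuotientGroup.mk' (pPrimeCore p H) y)⁻¹) := by group
      rw [e]; exact mul_mem ho this
    have hc2 : QuotientGroup.mk' (pPrimeCore p H) x * QuotientGroup.mk' (pPrimeCore p H) y *
        (QuotientGroup.mk' (pPrimeCore p H) x)⁻¹ * (QuotientGroup.mk' (pPrimeCore p H) y)⁻¹ ∈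
        Y.map (QuotientGroup.mk' (pPrimeCore p H)) := by
      have hxy : x * y * x⁻¹ ∈ Y := (Subgroup.mem_normalizer_iff.mp (hPY hxP) y).mp hy
      refine mul_mem ?_ (inv_mem hyb)
      exact ⟨x * y * x⁻¹, hxy, by simp⟩
    have h0 := hdisj _ hc1 hc2
    calc QuotientGroup.mk' (pPrimeCore p H) x * QuotientGroup.mk' (pPrimeCore p H) y
        = (QuotientGroup.mk' (pPrimeCore p H) x * QuotientGroup.mk' (pPrimeCore p H) y *
          (QuotientGroup.mk' (pPrimeCore p H) x)⁻¹ *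
          (QuotientGroup.mk' (pPrimeCore p H) y)⁻¹) *
          (QuotientGroup.mk' (pPrimeCore p H) y * QuotientGroup.mk' (pPrimeCore p H) x) := by
          group
      _ = QuotientGroup.mk' (pPrimeCore p H) y * QuotientGroup.mk' (pPrimeCore p H) x := by
          rw [h0, one_mul]
  have hyO := hcent hc
  have h0 := hdisj _ hyO hyb
  exact (QuotientGroup.eq_one_iff y).mp h0

theorem fitting_le_sylow_sup_core {H : Type*} [Group H] [Finite H] (p : ℕ) [Fact p.Prime]
    (S : Sylow p H) : fittingSubgroup H ≤ (S : Subgroup H) ⊔ pPrimeCore p H :=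
  (Cfsg.Agent.H27.fitting_le_pCore_sup_pPrimeCore p).trans
    (sup_le_sup_right (Cfsg.Agent.H1.pCore_le_sylow p S) _)

/-- Frattini argument when `H' ≤ F(H)`. -/
theorem frattini_of_comm_le {H : Type*} [Group H] [Finite H] (p : ℕ) [Fact p.Prime]
    (S : Sylow p H) (hcomm : commutator H ≤ fittingSubgroup H) :
    ∀ h : H, ∃ x ∈ (S : Subgroup H) ⊔ pPrimeCore p H,
      ∃ n ∈ normalizer ((S : Subgroup H) : Set H), h = x * n := by
  have hFN : fittingSubgroup H ≤ (S : Subgroup H) ⊔ pPrimeCore p H :=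
    fitting_le_sylow_sup_core p S
  have hNn : ((S : Subgroup H) ⊔ pPrimeCore p H).Normal := by
    constructor
    intro x hx g
    have e : g * x * g⁻¹ = ⁅g, x⁆ * x := by simp [commutatorElement_def]
    rw [e]
    refine mul_mem (hFN (hcomm ?_)) hx
    rw [_root_.commutator_def]
    exact Subgroup.commutator_mem_commutator (Subgroup.mem_top g) (Subgroup.mem_top x)
  have hSN : (S : Subgroup H) ≤ (S : Subgroup H) ⊔ pPrimeCore p H := le_sup_left
  have h := Sylow.normalizer_sup_eq_top (S.subtype hSN)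
  have hmap : ((S.subtype hSN : Sylow p ↥((S : Subgroup H) ⊔ pPrimeCore p H)) :
      Subgroup ↥((S : Subgroup H) ⊔ pPrimeCore p H)).map
        ((S : Subgroup H) ⊔ pPrimeCore p H).subtype = S := by
    rw [Sylow.coe_subtype, Subgroup.subgroupOf_map_subtype, inf_eq_left.mpr hSN]
  rw [hmap] at h
  intro g
  have hg : g ∈ (((S : Subgroup H) ⊔ pPrimeCore p H) ⊔
      normalizer ((S : Subgroup H) : Set H) : Subgroup H) := by
    rw [sup_comm, h]; exact Subgroup.mem_top g
  rw [← SetLike.mem_coe, Subgroup.normal_mul] at hg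
  obtain ⟨x, hx, n, hn, rfl⟩ := Set.mem_mul.mp hg
  exact ⟨x, hx, n, hn, rfl⟩

theorem not_isCyclic_of_not_pRankLE {Q : Type*} [Group Q] [Finite Q] {q : ℕ} (hq : q.Prime)
    (hr : ¬ PRankLE q 1 Q) : ¬ IsCyclic Q := by
  intro hc
  apply hr
  intro A hAc hAe
  haveI : IsCyclic A := Subgroup.isCyclic A
  obtain ⟨g, hg⟩ := IsCyclic.exists_generator (α := A)
  have h1 : orderOf g = Nat.card A := orderOf_eq_card_of_forall_mem_zpowers hg
  have h2 : g ^ q = 1 := Subtype.ext (by simpa using hAe g g.2)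
  have h3 : orderOf g ∣ q := orderOf_dvd_of_pow_eq_one h2
  rw [pow_one, ← h1]
  exact Nat.le_of_dvd hq.pos h3

theorem isElementaryAbelian_map {G₁ G₂ : Type*} [Group G₁] [Group G₂] {q : ℕ} (f : G₁ →* G₂)
    {E : Subgroup G₁} (hE : IsElementaryAbelian q E) : IsElementaryAbelian q (E.map f) := by
  refine ⟨⟨⟨?_⟩⟩, ?_⟩
  · rintro ⟨_, ⟨a, ha, rfl⟩⟩ ⟨_, ⟨b, hb, rfl⟩⟩
    have := congrArg Subtype.val (hE.1.is_comm.comm ⟨a, ha⟩ ⟨b, hb⟩)
    apply Subtype.ext
    show f a * f b = f b * f a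
    rw [← map_mul, ← map_mul]; exact congrArg f this
  · rintro _ ⟨a, ha, rfl⟩
    rw [← map_pow, hE.2 a ha, map_one]

theorem pow_succ_le_card_of_lt [Finite G] {q k : ℕ} [Fact q.Prime] {E : Subgroup G}
    (hE : IsPGroup q E) (h : q ^ k < Nat.card E) : q ^ (k + 1) ≤ Nat.card E := by
  have hq : q.Prime := Fact.out
  obtain ⟨n, hn⟩ := IsPGroup.iff_card.mp hE
  rw [hn] at h ⊢
  have : k < n := (Nat.pow_lt_pow_iff_right hq.one_lt).mp h
  exact Nat.pow_le_pow_right hq.pos this

/-- `SCN_3(Q)` is nonempty for a `q`-group `Q` of rank at least 3, `q` odd. -/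
theorem exists_scn3 [Finite G] {q : ℕ} [Fact q.Prime] (hq2 : q ≠ 2) {Q : Subgroup G}
    (hQ : IsPGroup q Q) (hr : ¬ PRankLE q 2 ↥Q) :
    ∃ A : Subgroup G, IsSCN Q A ∧ ¬ PRankLE q 2 ↥A := by
  have hq : q.Prime := Fact.out
  have hr1 : ¬ PRankLE q 1 ↥Q := fun h => hr (fun B hBc hBp =>
    (h B hBc hBp).trans (Nat.pow_le_pow_right hq.pos (by norm_num)))
  have hnc : ¬ IsCyclic ↥Q := not_isCyclic_of_not_pRankLE hq hr1
  obtain ⟨E, hEn, hEe, hE2⟩ := Cfsg.Agent.S0126.result hq2 hQ hnc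
  haveI := hEn
  obtain ⟨A, -, hAn, hAc, hAr⟩ := Cfsg.Agent.S1452.result q hq2 hQ hr E hEe hE2
  refine ⟨A.map Q.subtype, ⟨Subgroup.map_subtype_le _, ?_, ?_⟩, ?_⟩
  · haveI := hAn
    exact le_normalizer_map_subtype Q A
  · apply le_antisymm
    · rintro x ⟨hxQ, hxC⟩
      have hx' : (⟨x, hxQ⟩ : Q) ∈ centralizer (A : Set Q) := by
        rw [Subgroup.mem_centralizer_iff]
        intro a ha
        have := Subgroup.mem_centralizer_iff.mp hxC (a : G) ⟨a, ha, rfl⟩
        exact Subtype.ext this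
      rw [hAc] at hx'
      exact ⟨_, hx', rfl⟩
    · rintro _ ⟨a, ha, rfl⟩
      refine Subgroup.mem_inf.mpr ⟨a.2, ?_⟩
      rw [Subgroup.mem_centralizer_iff]
      rintro _ ⟨b, hb, rfl⟩
      have ha' : a ∈ centralizer (A : Set Q) := by rw [hAc]; exact ha
      have := Subgroup.mem_centralizer_iff.mp ha' b hb
      exact congrArg Subtype.val this
  · obtain ⟨B, hBA, hBc, hBp, hBcard⟩ := exists_elementary_of_not_pRankLE hAr
    have hBe : IsElementaryAbelian q B :=
      ⟨⟨⟨fun a b => Subtype.ext (hBc a a.2 b b.2)⟩⟩, hBp⟩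
    refine not_pRankLE_of_le (B := B.map Q.subtype) (Subgroup.map_mono hBA)
      (isElementaryAbelian_map _ hBe) ?_
    rwa [Subgroup.card_subtype]

/-- B&G Lemma 9.1, in the form (b). -/
theorem bg91 [Finite G] (hG : IsMinSimpleOddOrder G) {M : Subgroup G} (hM : IsCoatom M)
    {p : ℕ} [Fact p.Prime] {B : Subgroup G} (hBM : B ≤ M) (hBe : IsElementaryAbelian p B)
    (hBnc : ¬ IsCyclic B)
    (hb : ∀ Y : Subgroup G, (Nat.card Y).Coprime p → B ≤ normalizer (Y : Set G) → Y ≤ M) :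
    ∀ H : Subgroup G, IsCoatom H → B ≤ H → H = M := by
  have hp : p.Prime := Fact.out
  have hs : IsSimpleGroup G := hG.2.1
  have hMtop : M ≠ ⊤ := hM.1
  haveI hMsolv : Group.IsSolvable M := hG.2.2.2 M hMtop
  have hBp : IsPGroup p B := isPGroup_of_exponent hBe.2
  have hB0 : B ≠ ⊥ := by
    rintro rfl
    exact hBnc inferInstance
  -- normalizers of Sylow subgroups of `M` containing `B` lie in `M`
  have hNP : ∀ P : Sylow p M, B ≤ (P : Subgroup M).map M.subtype →
      normalizer (((P : Subgroup M).map M.subtype : Subgroup G) : Set G) ≤ M := by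
    intro P hBP
    have hP0 : (P : Subgroup M) ≠ ⊥ := by
      intro h
      rw [h, Subgroup.map_bot] at hBP
      exact hB0 (le_bot_iff.mp hBP)
    by_cases hO : pPrimeCore p ↥M = ⊥
    · obtain ⟨hMW, hW0, hWtop, -⟩ := zj_lemma hG hM hO P hP0
      have hNW := normalizer_eq_of_coatom' hG hM hW0 hWtop hMW
      exact (normalizer_le_normalizer_cJ p _).trans hNW.le
    · obtain ⟨OG, hOGdef⟩ : ∃ OG : Subgroup G, OG = (pPrimeCore p ↥M).map M.subtype := ⟨_, rfl⟩
      have hOG0 : OG ≠ ⊥ := by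
        rwa [hOGdef, Ne, Subgroup.map_eq_bot_iff_of_injective _ (Subgroup.subtype_injective _)]
      have hOGM : OG ≤ M := by rw [hOGdef]; exact Subgroup.map_subtype_le _
      have hOGtop : OG ≠ ⊤ := fun h => hMtop (top_le_iff.mp (h ▸ hOGM))
      have hMO : M ≤ normalizer (OG : Set G) := by
        rw [hOGdef]; exact le_normalizer_map_subtype M (pPrimeCore p ↥M)
      have hOGcop : (Nat.card OG).Coprime p := by
        rw [hOGdef, Subgroup.card_subtype]
        exact Cfsg.Agent.H37.card_pPrimeCore_coprime p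
      have hNO := normalizer_eq_of_coatom' hG hM hOG0 hOGtop hMO
      refine le_trans ?_ hNO.le
      intro g hg
      rw [mem_normalizer_iff_map_conj]
      have hcard : Nat.card (OG.map (MulAut.conj g).toMonoidHom) = Nat.card OG :=
        card_map_conj g _
      have hcop : (Nat.card (OG.map (MulAut.conj g).toMonoidHom)).Coprime p := by
        rw [hcard]; exact hOGcop
      have hPY : (P : Subgroup M).map M.subtype ≤
          normalizer ((OG.map (MulAut.conj g).toMonoidHom : Subgroup G) : Set G) :=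
        le_normalizer_map_conj hg ((Subgroup.map_subtype_le _).trans hMO)
      have hYM : OG.map (MulAut.conj g).toMonoidHom ≤ M := hb _ hcop (hBP.trans hPY)
      have hle : (OG.map (MulAut.conj g).toMonoidHom).subgroupOf M ≤ pPrimeCore p ↥M := by
        apply sylow_inv_le_core p P
        · rw [Nat.card_congr (Subgroup.subgroupOfEquivOfLe hYM).toEquiv]; exact hcop
        · have := Cfsg.Agent.H31.X.H37.MaxLocal.subgroupOf_le_normalizer M hPY
          rwa [show ((P : Subgroup M).map M.subtype).subgroupOf M = P from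
            Subgroup.comap_map_eq_self_of_injective (Subgroup.subtype_injective _) _] at this
      have hle' : OG.map (MulAut.conj g).toMonoidHom ≤ OG := by
        intro y hy
        rw [hOGdef]
        exact ⟨⟨y, hYM hy⟩, hle (Subgroup.mem_subgroupOf.mpr hy), rfl⟩
      exact Subgroup.eq_of_le_of_card_ge hle' hcard.ge
  intro H₀ hH₀ hBH₀
  by_contra hne₀
  have hB𝒮 : B ∈ {R : Subgroup G | IsPGroup p R ∧ B ≤ R ∧ R ≤ M ∧
      ∃ H : Subgroup G, IsCoatom H ∧ H ≠ M ∧ R ≤ H} :=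
    ⟨hBp, le_rfl, hBM, H₀, hH₀, hne₀, hBH₀⟩
  obtain ⟨R, hBR, hRmax⟩ := (Set.toFinite {R : Subgroup G | IsPGroup p R ∧ B ≤ R ∧ R ≤ M ∧
      ∃ H : Subgroup G, IsCoatom H ∧ H ≠ M ∧ R ≤ H}).exists_le_maximal hB𝒮
  obtain ⟨hRp, -, hRM, H, hH, hHM, hRH⟩ := hRmax.1
  have hmax : ∀ D : Subgroup G, IsPGroup p D → D ≤ M →
      (∃ H : Subgroup G, IsCoatom H ∧ H ≠ M ∧ D ≤ H) → R ≤ D → D = R :=
    fun D hDp hDM hDH hRD => le_antisymm (hRmax.2 ⟨hDp, hBR.trans hRD, hDM, hDH⟩ hRD) hRD
  have hR0 : R ≠ ⊥ := fun h => hB0 (le_bot_iff.mp (h ▸ hBR))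
  have hRtop : R ≠ ⊤ := not_isPGroup_top hG hRp
  have hHtop : H ≠ ⊤ := hH.1
  haveI hHsolv : Group.IsSolvable H := hG.2.2.2 H hHtop
  -- a Sylow subgroup of `M` containing `R`
  obtain ⟨P', hP'⟩ := (hRp.comap_subtype (K := M)).exists_le_sylow
  have hRPG : R ≤ (P' : Subgroup M).map M.subtype := by
    intro x hx
    exact ⟨⟨x, hRM hx⟩, hP' (Subgroup.mem_subgroupOf.mpr hx), rfl⟩
  have hPGp : IsPGroup p ((P' : Subgroup M).map M.subtype) := P'.isPGroup'.map _
  have hNPG := hNP P' (hBR.trans hRPG)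
  -- Step 1
  have hNR : normalizer (R : Set G) ≤ M := by
    have hNtop : normalizer (R : Set G) ≠ ⊤ := minSimple_normalizer_ne_top hG hR0 hRtop
    obtain ⟨D, hD, hND⟩ :=
      (eq_top_or_exists_le_coatom (normalizer (R : Set G))).resolve_left hNtop
    by_cases hDM : D = M
    · exact hDM ▸ hND
    · have hD'eq := hmax _ (hPGp.to_le inf_le_left)
        (inf_le_left.trans (Subgroup.map_subtype_le _))
        ⟨D, hD, hDM, inf_le_right.trans hND⟩ (le_inf hRPG le_normalizer)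
      have hRPeq : R = (P' : Subgroup M).map M.subtype := by
        by_contra hne
        have := lt_inf_normalizer hPGp (lt_of_le_of_ne hRPG hne)
        exact this.ne' hD'eq
      rw [hRPeq]; exact hNPG
  -- Step 2
  obtain ⟨S, hS⟩ := (hRp.comap_subtype (K := H)).exists_le_sylow
  have hRSG : R ≤ (S : Subgroup H).map H.subtype := by
    intro x hx
    exact ⟨⟨x, hRH hx⟩, hS (Subgroup.mem_subgroupOf.mpr hx), rfl⟩
  have hSGp : IsPGroup p ((S : Subgroup H).map H.subtype) := S.isPGroup'.map _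
  have hSR : (S : Subgroup H).map H.subtype = R := by
    by_contra hne
    have hlt : R < (S : Subgroup H).map H.subtype := lt_of_le_of_ne hRSG (Ne.symm hne)
    have hD := lt_inf_normalizer hSGp hlt
    have := hmax _ (hSGp.to_le inf_le_left) (inf_le_right.trans hNR)
      ⟨H, hH, hHM, inf_le_left.trans (Subgroup.map_subtype_le _)⟩ hD.le
    exact hD.ne' this
  -- Step 3
  have hKM : (pPrimeCore p ↥H).map H.subtype ≤ M := by
    apply hb
    · rw [Subgroup.card_subtype]; exact Cfsg.Agent.H37.card_pPrimeCore_coprime p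
    · exact (hBR.trans hRH).trans (le_normalizer_map_subtype H (pPrimeCore p ↥H))
  -- Step 4
  have hSK : ((S : Subgroup H) ⊔ pPrimeCore p ↥H).map H.subtype ≤ M := by
    rw [Subgroup.map_sup, hSR]
    exact sup_le hRM hKM
  have hFM : FOf H ≤ M := (Subgroup.map_mono (fitting_le_sylow_sup_core p S)).trans hSK
  -- Step 5
  have hodd : Odd (Nat.card H) := hG.1.of_dvd_nat (Subgroup.card_subgroup_dvd_card H)
  by_cases hrk : RankLE 2 (fittingSubgroup ↥H)
  · have hnil := (Cfsg.Agent.S1451.result (G := ↥H) hodd (Or.inr hrk)).1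
    have hcomm : commutator ↥H ≤ fittingSubgroup ↥H := le_sSup ⟨inferInstance, hnil⟩
    have hfr := frattini_of_comm_le p S hcomm
    apply hHM
    have hHleM : H ≤ M := by
      intro h hh
      obtain ⟨x, hx, n, hn, hxn⟩ := hfr ⟨h, hh⟩
      have h1 : (x : G) ∈ M := hSK ⟨x, hx, rfl⟩
      have h2 : (n : G) ∈ M := by
        apply hNR
        rw [← hSR]
        exact Subgroup.le_normalizer_map H.subtype ⟨n, hn, rfl⟩
      have e : h = (x : G) * (n : G) := by
        have := congrArg Subtype.val hxn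
        simpa using this
      rw [e]; exact M.mul_mem h1 h2
    by_contra hne
    exact hMtop (hH.2 _ (lt_of_le_of_ne hHleM hne))
  · unfold RankLE at hrk
    push Not at hrk
    obtain ⟨q, hq, hqr⟩ := hrk
    haveI : Fact q.Prime := ⟨hq⟩
    unfold PRankLE at hqr
    push Not at hqr
    obtain ⟨E, hEc, hEp, hEcard⟩ := hqr
    obtain ⟨A₀, hA₀def⟩ : ∃ A₀ : Subgroup G,
      A₀ = (E.map (fittingSubgroup ↥H).subtype).map H.subtype := ⟨_, rfl⟩
    have hA₀F : A₀ ≤ FOf H := by
      rw [hA₀def]; exact Subgroup.map_mono (Subgroup.map_subtype_le _)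
    have hA₀card : Nat.card A₀ = Nat.card E := by
      rw [hA₀def, Subgroup.card_subtype, Subgroup.card_subtype]
    have hA₀e : IsElementaryAbelian q A₀ := by
      rw [hA₀def]
      exact isElementaryAbelian_map _ (isElementaryAbelian_map _ ⟨hEc, hEp⟩)
    have hA₀lt : q ^ 2 < Nat.card A₀ := by rw [hA₀card]; exact hEcard
    have hA₀3 : q ^ 3 ≤ Nat.card A₀ :=
      pow_succ_le_card_of_lt (isPGroup_of_exponent hA₀e.2) hA₀lt
    have hA₀1 : 1 < Nat.card A₀ := lt_of_le_of_lt (Nat.one_le_pow _ _ hq.pos) hA₀lt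
    have hqF : q ∣ Nat.card (FOf H) := dvd_card_of_exponent_prime hA₀F hA₀e.2 hA₀1
    by_cases hFq : IsPGroup q ↥(FOf H)
    · obtain ⟨Q⟩ : Nonempty (Sylow q H) := inferInstance
      obtain ⟨-, hscn⟩ := bg81b hG hH hqF hFq Q
      have hq2 : q ≠ 2 := by
        rintro rfl
        have h2G : 2 ∣ Nat.card G := dvd_trans hqF
          ((Subgroup.card_dvd_of_le (FOf_le H)).trans (Subgroup.card_subgroup_dvd_card H))
        exact (Nat.not_even_iff_odd.mpr hG.1) (even_iff_two_dvd.mpr h2G)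
      have hFQ : FOf H ≤ (Q : Subgroup H).map H.subtype := by
        apply Subgroup.map_mono
        have hFp' : IsPGroup q (fittingSubgroup ↥H) := by
          obtain ⟨k, hk⟩ := IsPGroup.iff_card.mp hFq
          exact IsPGroup.of_card (by rw [← card_FOf, hk])
        haveI : (fittingSubgroup ↥H).Normal := Cfsg.Agent.H27.fitting_normal _
        exact Cfsg.Agent.H1.normal_pgroup_le_sylow q _ hFp' Q
      have hQr : ¬ PRankLE q 2 ↥((Q : Subgroup H).map H.subtype) :=
        not_pRankLE_of_le (hA₀F.trans hFQ) hA₀e hA₀lt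
      obtain ⟨A, hA, hAr⟩ := exists_scn3 hq2 (Q.isPGroup'.map _) hQr
      obtain ⟨hAF, hAu⟩ := hscn A hA hAr
      exact hHM (hAu.unique ⟨hH, hAF.trans (FOf_le H)⟩ ⟨hM, hAF.trans hFM⟩)
    · have hu := bg81a hG hH hA₀F hA₀e hA₀3 hFq
      exact hHM (hu.unique ⟨hH, inf_le_left.trans (FOf_le H)⟩ ⟨hM, inf_le_left.trans hFM⟩)

/-- (a) implies (b) in B&G Lemma 9.1. -/
theorem inv_le_of_centralizers [Finite G] {M : Subgroup G} {p : ℕ} [Fact p.Prime]
    {B : Subgroup G} (hBe : IsElementaryAbelian p B) (hBnc : ¬ IsCyclic B)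
    (ha : ∀ b ∈ B, b ≠ 1 → centralizer ({b} : Set G) ≤ M) :
    ∀ Y : Subgroup G, (Nat.card Y).Coprime p → B ≤ normalizer (Y : Set G) → Y ≤ M := by
  intro Y hY hBY
  haveI := hBe.1
  have hBp : IsPGroup p B := isPGroup_of_exponent hBe.2
  have hcop : (Nat.card B).Coprime (Nat.card Y) := by
    obtain ⟨k, hk⟩ := IsPGroup.iff_card.mp hBp
    rw [hk]
    exact Nat.Coprime.pow_left k hY.symm
  have hgen := genCent_eq hBnc (Nat.card Y) Y rfl hBY hcop
  rw [← hgen]
  exact iSup₂_le fun a ha' => inf_le_right.trans (ha a ha'.1 ha'.2)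

end Cfsg.Agent.H31.BG9
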