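import Mathlib
import Cfsg.Agent.H31.BG9a
import Cfsg.Agent.H3.MaxAbelian

set_option autoImplicit false
set_option linter.unusedSectionVars false

/-!
# Bender–Glauberman Lemmas 9.2, 9.3, 9.4 (helper31)
-/

namespace Cfsg.Agent.H31.BG9

open Cfsg Subgroup Cfsg.Agent.Lib.Helper30 Cfsg.Agent.H31.X.H37.Bender Cfsg.Agent.H58
  Cfsg.Agent.H31.T2 Cfsg.Agent.H31.BG8

universe u

variable {G : Type u} [Group G]

theorem ne_two_of_dvd [Finite G] (hG : IsMinSimpleOddOrder G) {p : ℕ} (h : p ∣ Nat.card G) :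
    p ≠ 2 := by
  rintro rfl
  exact (Nat.not_even_iff_odd.mpr hG.1) (even_iff_two_dvd.mpr h)

theorem isElementaryAbelian_of_le {p : ℕ} {X Y : Subgroup G} (h : X ≤ Y)
    (hY : IsElementaryAbelian p Y) : IsElementaryAbelian p X :=
  ⟨⟨⟨fun a b => Subtype.ext
    (congrArg Subtype.val (hY.1.is_comm.comm ⟨(a : G), h a.2⟩ ⟨(b : G), h b.2⟩) :
      (a : G) * (b : G) = (b : G) * (a : G))⟩⟩,
    fun a ha => hY.2 a (h ha)⟩

theorem FOf_le_sylow [Finite G] {M : Subgroup G} {p : ℕ} [Fact p.Prime]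
    (hF : IsPGroup p ↥(FOf M)) (P : Sylow p M) : FOf M ≤ (P : Subgroup M).map M.subtype := by
  apply Subgroup.map_mono
  have hFp' : IsPGroup p (fittingSubgroup ↥M) := by
    obtain ⟨k, hk⟩ := IsPGroup.iff_card.mp hF
    exact IsPGroup.of_card (by rw [← card_FOf, hk])
  haveI : (fittingSubgroup ↥M).Normal := Cfsg.Agent.H27.fitting_normal _
  exact Cfsg.Agent.H1.normal_pgroup_le_sylow p _ hFp' P

/-- A subgroup lying in a unique maximal subgroup of a minimal simple group is nontrivial. -/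
theorem ne_bot_of_inUniqueMaximal [Finite G] (hG : IsMinSimpleOddOrder G) {L : Subgroup G}
    (hL : InUniqueMaximal L) : L ≠ ⊥ := by
  rintro rfl
  obtain ⟨M, ⟨hM, -⟩, huniq⟩ := hL
  have hall : ∀ X : Subgroup G, X ≠ ⊤ → X ≤ M := by
    intro X hX
    obtain ⟨D, hD, hXD⟩ := (eq_top_or_exists_le_coatom X).resolve_left hX
    have := huniq D ⟨hD, bot_le⟩
    exact this ▸ hXD
  obtain ⟨g, hg⟩ : ∃ g : G, g ∉ M := by
    by_contra h
    push Not at h
    exact hM.1 (eq_top_iff.mpr fun x _ => h x)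
  have htop : Subgroup.zpowers g = ⊤ := by
    by_contra h
    exact hg (hall _ h (Subgroup.mem_zpowers g))
  apply hG.2.2.1
  refine ⟨⟨fun a b => ?_⟩⟩
  have ha : a ∈ Subgroup.zpowers g := htop ▸ Subgroup.mem_top a
  have hb : b ∈ Subgroup.zpowers g := htop ▸ Subgroup.mem_top b
  obtain ⟨i, rfl⟩ := Subgroup.mem_zpowers_iff.mp ha
  obtain ⟨j, rfl⟩ := Subgroup.mem_zpowers_iff.mp hb
  exact (Commute.zpow_zpow_self g i j).eq

/-- B&G Lemma 9.2. -/
theorem bg92 [Finite G] (hG : IsMinSimpleOddOrder G) {L K : Subgroup G}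
    (hL : InUniqueMaximal L) (hK : K ≤ centralizer (L : Set G)) (hKr : ¬ RankLE 1 ↥K) :
    InUniqueMaximal K := by
  have hL0 := ne_bot_of_inUniqueMaximal hG hL
  obtain ⟨M, ⟨hM, hLM⟩, huniq⟩ := hL
  obtain ⟨p, hp, B, hBK, hBc, hBp, hBcard⟩ := exists_elementary_of_not_rankLE hKr
  haveI : Fact p.Prime := ⟨hp⟩
  have hBe : IsElementaryAbelian p B := ⟨⟨⟨fun a b => Subtype.ext (hBc a a.2 b b.2)⟩⟩, hBp⟩
  have hBnc : ¬ IsCyclic B :=
    not_isCyclic_of_not_pRankLE hp (not_pRankLE_of_le (B := B) le_rfl hBe hBcard)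
  have hcent : ∀ b ∈ B, b ≠ 1 → centralizer ({b} : Set G) ≤ M := by
    intro b hb hb1
    have htop : centralizer ({b} : Set G) ≠ ⊤ := minSimple_centralizer_singleton_ne_top hG hb1
    obtain ⟨D, hD, hCD⟩ := (eq_top_or_exists_le_coatom _).resolve_left htop
    have hLD : L ≤ D := by
      refine le_trans ?_ hCD
      intro x hx
      rw [Subgroup.mem_centralizer_iff]
      intro y hy
      rw [Set.mem_singleton_iff] at hy
      rw [hy]
      exact (Subgroup.mem_centralizer_iff.mp (hK (hBK hb)) x hx).symm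
    exact (huniq D ⟨hD, hLD⟩) ▸ hCD
  have hB0 : B ≠ ⊥ := by
    rintro rfl
    exact hBnc inferInstance
  have hBM : B ≤ M := by
    obtain ⟨⟨b, hb⟩, hb1⟩ := Subgroup.ne_bot_iff_exists_ne_one.mp hB0
    have hb1' : b ≠ 1 := fun h => hb1 (Subtype.ext h)
    refine le_trans ?_ (hcent b hb hb1')
    intro x hx
    rw [Subgroup.mem_centralizer_iff]
    intro y hy
    rw [Set.mem_singleton_iff] at hy
    rw [hy]
    exact hBc b hb x hx
  have key := bg91 hG hM hBM hBe hBnc (inv_le_of_centralizers hBe hBnc hcent)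
  have hKtop : K ≠ ⊤ := by
    obtain ⟨⟨l, hl⟩, hl1⟩ := Subgroup.ne_bot_iff_exists_ne_one.mp hL0
    have hl1' : l ≠ 1 := fun h => hl1 (Subtype.ext h)
    intro h
    apply minSimple_centralizer_singleton_ne_top hG hl1'
    rw [eq_top_iff, ← h]
    intro x hx
    rw [Subgroup.mem_centralizer_iff]
    intro y hy
    rw [Set.mem_singleton_iff] at hy
    rw [hy]
    exact Subgroup.mem_centralizer_iff.mp (hK hx) l hl
  obtain ⟨D, hD, hKD⟩ := (eq_top_or_exists_le_coatom K).resolve_left hKtop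
  have hDM : D = M := key D hD (hBK.trans hKD)
  exact ⟨M, ⟨hM, hDM ▸ hKD⟩, fun L' hL' => key L' hL'.1 (hBK.trans hL'.2)⟩

/-- Uniqueness subgroups are preserved by conjugation. -/
theorem inUniqueMaximal_conj (g : G) {A : Subgroup G} (h : InUniqueMaximal A) :
    InUniqueMaximal (A.map (MulAut.conj g).toMonoidHom) := by
  obtain ⟨M, ⟨hM, hAM⟩, huniq⟩ := h
  have hco : ∀ (k : G) {X : Subgroup G}, IsCoatom X →
      IsCoatom (X.map (MulAut.conj k).toMonoidHom) := by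
    intro k X hX
    exact (OrderIso.isCoatom_iff (MulEquiv.mapSubgroup (MulAut.conj k)) X).mpr hX
  refine ⟨M.map (MulAut.conj g).toMonoidHom, ⟨hco g hM, Subgroup.map_mono hAM⟩, ?_⟩
  rintro L ⟨hL, hAL⟩
  have h1 : L.map (MulAut.conj g⁻¹).toMonoidHom = M := by
    apply huniq _ ⟨hco g⁻¹ hL, ?_⟩
    have := Subgroup.map_mono (f := (MulAut.conj g⁻¹).toMonoidHom) hAL
    rwa [map_conj_map_conj, inv_mul_cancel, map_conj_one] at this
  rw [← h1, map_conj_map_conj, mul_inv_cancel, map_conj_one]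

theorem card_le_mul_inf {R : Type*} [Group R] [Finite R] (C X : Subgroup R) {n : ℕ}
    (h : Nat.card R ≤ n * Nat.card C) : Nat.card X ≤ n * Nat.card (X ⊓ C : Subgroup R) := by
  have h1 : Nat.card (X ⊓ C : Subgroup R) * (X ⊓ C).relIndex X = Nat.card X := by
    have := Subgroup.relIndex_mul_relIndex (⊥ : Subgroup R) (X ⊓ C) X bot_le inf_le_left
    simpa [Subgroup.relIndex_bot_left] using this
  have h2 : (X ⊓ C).relIndex X = C.relIndex X := Subgroup.inf_relIndex_left X C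
  have h3 : C.relIndex X ≤ C.index := by
    have := Subgroup.relIndex_le_of_le_right (H := C) (le_top : X ≤ ⊤)
      (by rw [Subgroup.relIndex_top_right]; exact Subgroup.index_ne_zero_of_finite)
    rwa [Subgroup.relIndex_top_right] at this
  have h4 : C.index ≤ n := by
    have h5 : Nat.card C * C.index = Nat.card R := Subgroup.card_mul_index C
    have hpos : 0 < Nat.card C := Nat.card_pos
    rw [← h5, mul_comm n] at h
    exact Nat.le_of_mul_le_mul_left h hpos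
  calc Nat.card X = Nat.card (X ⊓ C : Subgroup R) * C.relIndex X := by rw [← h2, h1]
    _ ≤ Nat.card (X ⊓ C : Subgroup R) * n := Nat.mul_le_mul_left _ (h3.trans h4)
    _ = n * Nat.card (X ⊓ C : Subgroup R) := mul_comm _ _

/-- A noncyclic `p`-subgroup `P` (`p` odd) contains a `P`-invariant elementary abelian subgroup
`D` of order `p ^ 2`, and `|X : C_X(D)| ≤ p` for every `X ≤ P`. -/
theorem exists_D [Finite G] {p : ℕ} [Fact p.Prime] (hp2 : p ≠ 2) {P : Subgroup G}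
    (hP : IsPGroup p P) (hnc : ¬ IsCyclic P) :
    ∃ D : Subgroup G, D ≤ P ∧ IsElementaryAbelian p D ∧ Nat.card D = p ^ 2 ∧
      ∀ X : Subgroup G, X ≤ P →
        Nat.card X ≤ p * Nat.card (X ⊓ centralizer (D : Set G) : Subgroup G) := by
  obtain ⟨D', hDn, hDe, hDcard⟩ := Cfsg.Agent.S0126.result hp2 hP hnc
  haveI := hDn
  obtain ⟨N, hNn, hND, hNcard, hbound⟩ :=
    Cfsg.Agent.H3.exists_normal_chain_centralizer hP D' 2 hDcard 2 le_rfl
  have hNeq : N = D' := Subgroup.eq_of_le_of_card_ge hND (by rw [hNcard, hDcard])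
  rw [hNeq] at hbound
  have hb : Nat.card ↥P ≤ p * Nat.card (centralizer (D' : Set ↥P)) := by
    have e : p ^ (2 * (2 - 1) / 2) = p := by norm_num
    rwa [e] at hbound
  refine ⟨D'.map P.subtype, Subgroup.map_subtype_le _, isElementaryAbelian_map _ hDe,
    by rw [Subgroup.card_subtype, hDcard], ?_⟩
  intro X hXP
  have h1 := card_le_mul_inf (centralizer (D' : Set ↥P)) (X.subgroupOf P) hb
  have h2 : Nat.card (X.subgroupOf P) = Nat.card X :=
    Nat.card_congr (Subgroup.subgroupOfEquivOfLe hXP).toEquiv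
  have h3 : Nat.card (X.subgroupOf P ⊓ centralizer (D' : Set ↥P) : Subgroup ↥P) ≤
      Nat.card (X ⊓ centralizer ((D'.map P.subtype : Subgroup G) : Set G) : Subgroup G) := by
    rw [← Subgroup.card_subtype P (X.subgroupOf P ⊓ centralizer (D' : Set ↥P))]
    apply Subgroup.card_le_of_le
    rintro _ ⟨z, hz, rfl⟩
    refine Subgroup.mem_inf.mpr ⟨Subgroup.mem_subgroupOf.mp hz.1, ?_⟩
    rw [Subgroup.mem_centralizer_iff]
    rintro _ ⟨d, hd, rfl⟩
    exact congrArg Subtype.val (Subgroup.mem_centralizer_iff.mp hz.2 d hd)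
  rw [h2] at h1
  exact h1.trans (Nat.mul_le_mul_left _ h3)

/-- B&G Lemma 9.3. -/
theorem bg93 [Finite G] (hG : IsMinSimpleOddOrder G) {p : ℕ} [Fact p.Prime] {A B : Subgroup G}
    (hAp : IsPGroup p A) (hAc : IsMulCommutative A) (hA3 : ¬ PRankLE p 2 ↥A)
    (hAU : InUniqueMaximal A) (hBp : IsPGroup p B) (hBnc : ¬ IsCyclic B)
    (hB3 : ¬ PRankLE p 2 ↥(centralizer (B : Set G))) : InUniqueMaximal B := by
  have hp : p.Prime := Fact.out
  have hp12 : p ^ 1 < p ^ 2 := Nat.pow_lt_pow_right hp.one_lt (by norm_num)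
  obtain ⟨A₃, hA₃A, hA₃c, hA₃p, hA₃card⟩ := exists_elementary_of_not_pRankLE hA3
  obtain ⟨E, hEB, hEc, hEp, hEcard⟩ := exists_elementary_of_not_pRankLE hB3
  have hA₃e : IsElementaryAbelian p A₃ :=
    ⟨⟨⟨fun a b => Subtype.ext (hA₃c a a.2 b b.2)⟩⟩, hA₃p⟩
  have hEe : IsElementaryAbelian p E := ⟨⟨⟨fun a b => Subtype.ext (hEc a a.2 b b.2)⟩⟩, hEp⟩
  have hp2 : p ≠ 2 := by
    apply ne_two_of_dvd hG
    have h1 : 1 < Nat.card A₃ := lt_of_le_of_lt (Nat.one_le_pow _ _ hp.pos) hA₃card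
    have h2 : p ∣ Nat.card (⊤ : Subgroup G) :=
      dvd_card_of_exponent_prime (le_top : A₃ ≤ ⊤) hA₃p h1
    rwa [Subgroup.card_top] at h2
  have hEpg : IsPGroup p E := isPGroup_of_exponent hEp
  have hBE : IsPGroup p (B ⊔ E : Subgroup G) :=
    IsPGroup.to_sup_of_normal_left' hBp hEpg (hEB.trans (Subgroup.centralizer_le_normalizer _))
  obtain ⟨P, hP⟩ := hBE.exists_le_sylow
  have hBP : B ≤ P := le_sup_left.trans hP
  have hEP : E ≤ P := le_sup_right.trans hP
  obtain ⟨Q, hQ⟩ := hAp.exists_le_sylow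
  obtain ⟨g, hg⟩ := MulAction.exists_smul_eq G Q P
  obtain ⟨A', hA'def⟩ : ∃ A' : Subgroup G, A' = A.map (MulAut.conj g).toMonoidHom := ⟨_, rfl⟩
  have hA'P : A' ≤ P := by
    have e : ((g • Q : Sylow p G) : Subgroup G) =
        (Q : Subgroup G).map (MulAut.conj g).toMonoidHom := by
      rw [Sylow.smul_def, Sylow.pointwise_smul_def]; rfl
    rw [hA'def, ← hg, e]
    exact Subgroup.map_mono hQ
  have hA'U : InUniqueMaximal A' := hA'def ▸ inUniqueMaximal_conj g hAU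
  obtain ⟨A₄, hA₄def⟩ : ∃ A₄ : Subgroup G, A₄ = A₃.map (MulAut.conj g).toMonoidHom := ⟨_, rfl⟩
  have hA₄e : IsElementaryAbelian p A₄ := hA₄def ▸ isElementaryAbelian_map _ hA₃e
  have hA₄card : p ^ 2 < Nat.card A₄ := by rw [hA₄def, card_map_conj]; exact hA₃card
  have hA₄A' : A₄ ≤ A' := by rw [hA₄def, hA'def]; exact Subgroup.map_mono hA₃A
  have hA'comm : A' ≤ centralizer (A' : Set G) := by
    rw [hA'def]
    rintro _ ⟨a, ha, rfl⟩
    rw [Subgroup.mem_centralizer_iff]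
    rintro _ ⟨b, hb, rfl⟩
    have := congrArg Subtype.val (hAc.is_comm.comm ⟨b, hb⟩ ⟨a, ha⟩)
    show (MulAut.conj g) b * (MulAut.conj g) a = (MulAut.conj g) a * (MulAut.conj g) b
    rw [← map_mul, ← map_mul]; exact congrArg _ this
  have hPnc : ¬ IsCyclic (P : Subgroup G) := by
    apply not_isCyclic_of_not_pRankLE hp
    exact not_pRankLE_of_le (B := A₄) (hA₄A'.trans hA'P) hA₄e (lt_trans hp12 hA₄card)
  obtain ⟨D, hDP, hDe, hDcard, hDX⟩ := exists_D hp2 P.isPGroup' hPnc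
  have hstep : ∀ X : Subgroup G, X ≤ P → p ^ 2 < Nat.card X →
      p < Nat.card (X ⊓ centralizer (D : Set G) : Subgroup G) := by
    intro X hXP hXc
    have h1 := hDX X hXP
    by_contra hle
    push Not at hle
    have h2 : Nat.card X ≤ p * p := h1.trans (Nat.mul_le_mul_left _ hle)
    rw [pow_two] at hXc
    omega
  have hrank : ∀ X : Subgroup G, IsElementaryAbelian p X → p < Nat.card X →
      ¬ RankLE 1 ↥X := by
    intro X hXe hXc h
    exact not_pRankLE_of_le (B := X) le_rfl hXe (by rwa [pow_one]) (h p hp)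
  have hA₁e : IsElementaryAbelian p (A₄ ⊓ centralizer (D : Set G) : Subgroup G) :=
    isElementaryAbelian_of_le inf_le_left hA₄e
  have hA₁U : InUniqueMaximal (A₄ ⊓ centralizer (D : Set G) : Subgroup G) :=
    bg92 hG hA'U ((inf_le_left.trans hA₄A').trans hA'comm)
      (hrank _ hA₁e (hstep A₄ (hA₄A'.trans hA'P) hA₄card))
  have hDU : InUniqueMaximal D := by
    refine bg92 hG hA₁U ?_ (hrank D hDe (by rw [hDcard]; rwa [pow_one] at hp12))
    intro d hd
    rw [Subgroup.mem_centralizer_iff]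
    intro y hy
    exact (Subgroup.mem_centralizer_iff.mp hy.2 d hd).symm
  have hE₁e : IsElementaryAbelian p (E ⊓ centralizer (D : Set G) : Subgroup G) :=
    isElementaryAbelian_of_le inf_le_left hEe
  have hE₁U : InUniqueMaximal (E ⊓ centralizer (D : Set G) : Subgroup G) :=
    bg92 hG hDU inf_le_right (hrank _ hE₁e (hstep E hEP hEcard))
  refine bg92 hG hE₁U ?_ ?_
  · intro b hb
    rw [Subgroup.mem_centralizer_iff]
    intro y hy
    exact (Subgroup.mem_centralizer_iff.mp (hEB hy.1) b hb).symm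
  · intro h
    obtain ⟨A₅, -, hA₅e, hA₅card⟩ := Cfsg.Agent.S0126.result hp2 hBp hBnc
    have h1 := h p hp A₅ hA₅e.1 hA₅e.2
    rw [hA₅card] at h1
    exact absurd h1 (not_le.mpr hp12)

/-- B&G Theorem 9.4. -/
theorem bg94 [Finite G] (hG : IsMinSimpleOddOrder G) {M : Subgroup G} (hM : IsCoatom M)
    {p : ℕ} [Fact p.Prime] (hF : ¬ PRankLE p 2 ↥(FOf M)) {A : Subgroup G}
    (hAp : IsPGroup p A) (hAc : IsMulCommutative A) (hA3 : ¬ PRankLE p 2 ↥A) :
    InUniqueMaximal A := by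
  have hp : p.Prime := Fact.out
  have hp12 : p ^ 1 < p ^ 2 := Nat.pow_lt_pow_right hp.one_lt (by norm_num)
  obtain ⟨E₀, hE₀F, hE₀c, hE₀p, hE₀card⟩ := exists_elementary_of_not_pRankLE hF
  have hE₀e : IsElementaryAbelian p E₀ :=
    ⟨⟨⟨fun a b => Subtype.ext (hE₀c a a.2 b b.2)⟩⟩, hE₀p⟩
  have hE₀pg : IsPGroup p E₀ := isPGroup_of_exponent hE₀p
  have hE₀3 : p ^ 3 ≤ Nat.card E₀ := pow_succ_le_card_of_lt hE₀pg hE₀card
  have hE₀1 : 1 < Nat.card E₀ := lt_of_le_of_lt (Nat.one_le_pow _ _ hp.pos) hE₀card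
  have hpF : p ∣ Nat.card (FOf M) := dvd_card_of_exponent_prime hE₀F hE₀p hE₀1
  have hpG : p ∣ Nat.card G := dvd_trans hpF
    ((Subgroup.card_dvd_of_le (FOf_le M)).trans (Subgroup.card_subgroup_dvd_card M))
  have hp2 : p ≠ 2 := ne_two_of_dvd hG hpG
  have hAcent : A ≤ centralizer (A : Set G) :=
    Subgroup.le_centralizer_iff_isMulCommutative.mpr hAc
  obtain ⟨A₃, hA₃A, hA₃c, hA₃p, hA₃card⟩ := exists_elementary_of_not_pRankLE hA3
  have hA₃e : IsElementaryAbelian p A₃ :=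
    ⟨⟨⟨fun a b => Subtype.ext (hA₃c a a.2 b b.2)⟩⟩, hA₃p⟩
  have hAnc : ¬ IsCyclic A :=
    not_isCyclic_of_not_pRankLE hp
      (not_pRankLE_of_le (B := A₃) hA₃A hA₃e (lt_trans hp12 hA₃card))
  have hCA3 : ¬ PRankLE p 2 ↥(centralizer (A : Set G)) :=
    not_pRankLE_of_le (B := A₃) (hA₃A.trans hAcent) hA₃e hA₃card
  obtain ⟨Astar, hSp, hSc, hS3, hSU⟩ : ∃ Astar : Subgroup G, IsPGroup p Astar ∧
      IsMulCommutative Astar ∧ ¬ PRankLE p 2 ↥Astar ∧ InUniqueMaximal Astar := by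
    by_cases hFp : IsPGroup p ↥(FOf M)
    · obtain ⟨P⟩ : Nonempty (Sylow p M) := inferInstance
      obtain ⟨-, hscn⟩ := bg81b hG hM hpF hFp P
      have hPr : ¬ PRankLE p 2 ↥((P : Subgroup M).map M.subtype) :=
        not_pRankLE_of_le (hE₀F.trans (FOf_le_sylow hFp P)) hE₀e hE₀card
      obtain ⟨A', hA', hA'r⟩ := exists_scn3 hp2 (P.isPGroup'.map _) hPr
      obtain ⟨-, hA'U⟩ := hscn A' hA' hA'r
      refine ⟨A', (P.isPGroup'.map _).to_le hA'.1, ?_, hA'r, hA'U⟩
      rw [← Subgroup.le_centralizer_iff_isMulCommutative]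
      intro x hx
      have hx' : x ∈ (P : Subgroup M).map M.subtype ⊓ centralizer (A' : Set G) := by
        rw [hA'.2.2]; exact hx
      exact hx'.2
    · have hu := bg81a hG hM hE₀F hE₀e hE₀3 hFp
      refine ⟨E₀, hE₀pg, hE₀e.1, not_pRankLE_of_le le_rfl hE₀e hE₀card, ?_⟩
      refine bg92 hG hu ?_ ?_
      · intro x hx
        rw [Subgroup.mem_centralizer_iff]
        intro y hy
        exact (Subgroup.mem_centralizer_iff.mp hy.2 x hx).symm
      · intro h
        exact not_pRankLE_of_le (B := E₀) le_rfl hE₀e (lt_trans hp12 hE₀card) (h p hp)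
  exact bg93 hG hSp hSc hS3 hSU hAp hAnc hCA3

end Cfsg.Agent.H31.BG9
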