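import Cfsg.Agent.H31.CN2
import Cfsg.Agent.H31.Cores
import Cfsg.Prelude.Def_Local

set_option autoImplicit false
open Cfsg

namespace Cfsg.Agent.H31

/-- In a finite group of `p`-length one with Sylow `p`-subgroup `S`, there is a normal subgroup
`K` of order prime to `p` with `N_G(S) K = G`. -/
theorem exists_normal_pprime_of_plength_one {G : Type*} [Group G] [Finite G] (p : ℕ)
    [hp : Fact p.Prime] (hpl : PLengthLE p 1 G) (S : Sylow p G) :
    ∃ K : Subgroup G, K.Normal ∧ (Nat.card K).Coprime p ∧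
      Subgroup.normalizer ((S : Subgroup G) : Set G) ⊔ K = ⊤ := by
  set U₁ : Subgroup G := (upperPSeries p G 1).1 with hU₁
  set U₂ : Subgroup G := (upperPSeries p G 2).1 with hU₂
  haveI hU₁n : U₁.Normal := upperPSeries_normal p G 1
  haveI hU₂n : U₂.Normal := upperPSeries_normal p G 2
  have e1 : U₁ = (pPrimeCore p (G ⧸ (⊥ : Subgroup G))).comap (QuotientGroup.mk' ⊥) := rfl
  have e2 : U₂ = (pCore p (G ⧸ U₁)).comap (QuotientGroup.mk' U₁) := rfl
  have e3 : (upperPSeries p G 3).1 = (pPrimeCore p (G ⧸ U₂)).comap (QuotientGroup.mk' U₂) := rfl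
  have hF1 : (Nat.card U₁).Coprime p := by
    have h1 : Nat.card U₁ ∣ Nat.card (pPrimeCore p (G ⧸ (⊥ : Subgroup G))) := by
      rw [e1]
      apply Subgroup.card_comap_dvd_of_injective
      intro a b hab
      have h2 : a⁻¹ * b ∈ (⊥ : Subgroup G) := QuotientGroup.eq.mp hab
      exact inv_mul_eq_one.mp (Subgroup.mem_bot.mp h2)
    exact Nat.Coprime.coprime_dvd_left h1 (card_pPrimeCore_coprime p)
  have hF2 : ∀ x ∈ U₂, ∃ k : ℕ, x ^ (p ^ k) ∈ U₁ := by
    intro x hx
    rw [e2, Subgroup.mem_comap] at hx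
    obtain ⟨k, hk⟩ := (isPGroup_pCore (G := G ⧸ U₁) p) ⟨_, hx⟩
    refine ⟨k, ?_⟩
    have hk' : ((QuotientGroup.mk' U₁) x) ^ (p ^ k) = 1 := congrArg Subtype.val hk
    rw [← QuotientGroup.eq_one_iff]
    exact hk'
  have hF3 : ¬ p ∣ U₂.index := by
    have htop : pPrimeCore p (G ⧸ U₂) = ⊤ := by
      have h3 : (pPrimeCore p (G ⧸ U₂)).comap (QuotientGroup.mk' U₂) = ⊤ := by
        rw [← e3]; exact hpl
      rw [eq_top_iff]
      intro y _
      obtain ⟨x, rfl⟩ := QuotientGroup.mk'_surjective U₂ y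
      have : x ∈ (pPrimeCore p (G ⧸ U₂)).comap (QuotientGroup.mk' U₂) := by
        rw [h3]; exact Subgroup.mem_top x
      exact this
    have hc := card_pPrimeCore_coprime (G := G ⧸ U₂) p
    rw [htop, Subgroup.card_top] at hc
    intro hdvd
    rw [Subgroup.index_eq_card] at hdvd
    exact (Nat.Prime.coprime_iff_not_dvd hp.out).mp hc.symm hdvd
  have hSU₂ : (S : Subgroup G) ≤ U₂ := by
    intro s hs
    exact mem_of_isEl_of_normalizer hp.out U₂ s (isEl_of_isPGroup S.2 hs)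
      (by rw [Subgroup.normalizer_eq_top]; exact Subgroup.mem_top s) hF3
  have hU₂le : U₂ ≤ U₁ ⊔ (S : Subgroup G) := by
    rw [← Subgroup.relIndex_eq_one]
    have h1 : (U₁ ⊔ (S : Subgroup G)).relIndex U₂ ∣ U₁.relIndex U₂ :=
      Subgroup.relIndex_dvd_of_le_left U₂ le_sup_left
    have h2 : ∃ k, U₁.relIndex U₂ = p ^ k := by
      have hpg : IsPGroup p (↥U₂ ⧸ U₁.subgroupOf U₂) := by
        intro q
        obtain ⟨x, rfl⟩ := QuotientGroup.mk_surjective q
        obtain ⟨k, hk⟩ := hF2 x x.2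
        refine ⟨k, ?_⟩
        rw [← QuotientGroup.mk_pow, QuotientGroup.eq_one_iff, Subgroup.mem_subgroupOf]
        exact hk
      obtain ⟨k, hk⟩ := IsPGroup.iff_card.mp hpg
      exact ⟨k, hk⟩
    have h3 : ¬ p ∣ (U₁ ⊔ (S : Subgroup G)).relIndex U₂ := by
      intro hd
      have h4 : (U₁ ⊔ (S : Subgroup G)).relIndex U₂ ∣ (S : Subgroup G).relIndex U₂ :=
        Subgroup.relIndex_dvd_of_le_left U₂ le_sup_right
      have h5 : (S : Subgroup G).relIndex U₂ ∣ (S : Subgroup G).index :=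
        Dvd.intro _ (Subgroup.relIndex_mul_index hSU₂)
      exact S.not_dvd_index (hd.trans (h4.trans h5))
    obtain ⟨k, hk⟩ := h2
    rw [hk] at h1
    obtain ⟨j, hj, hjj⟩ := (Nat.dvd_prime_pow hp.out).mp h1
    rcases Nat.eq_zero_or_pos j with h0 | h0
    · rw [hjj, h0, pow_zero]
    · exfalso; apply h3; rw [hjj]; exact dvd_pow_self p h0.ne'
  have hfr := Sylow.normalizer_sup_eq_top (S.subtype hSU₂)
  have hmap : ((S.subtype hSU₂ : Sylow p U₂) : Subgroup U₂).map U₂.subtype = (S : Subgroup G) := by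
    rw [Sylow.coe_subtype, Subgroup.map_subgroupOf_eq_of_le hSU₂]
  rw [hmap] at hfr
  refine ⟨U₁, hU₁n, hF1, ?_⟩
  rw [eq_top_iff, ← hfr]
  apply sup_le le_sup_left
  exact hU₂le.trans (sup_le le_sup_right (le_sup_of_le_left Subgroup.le_normalizer))

end Cfsg.Agent.H31
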