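import Mathlib
import Cfsg.Agent.H99.ElSTR

/-!
# Common tools for S5958-R6A / R6B (helper99's team project): an endomorphism `T` with `T ^ r = 1`
permuting the summands of a decomposition (helper31)
-/

set_option autoImplicit false

namespace Cfsg.Agent.H31.Dec

variable {F : Type*} [Field F] {V : Type*} [AddCommGroup V] [Module F V] [FiniteDimensional F V]

/-- the trace map `1 + T + ... + T ^ (r - 1)` -/
noncomputable def phi (T : Module.End F V) (r : ℕ) : Module.End F V :=
  ∑ i ∈ Finset.range r, T ^ i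

theorem phi_apply (T : Module.End F V) (r : ℕ) (v : V) :
    phi T r v = ∑ i ∈ Finset.range r, (T ^ i) v := by
  unfold phi
  rw [LinearMap.sum_apply]

theorem mul_phi (T : Module.End F V) (r : ℕ) (hT : T ^ r = 1) : T * phi T r = phi T r := by
  unfold phi
  rw [Finset.mul_sum]
  have h1 : ∀ i, T * T ^ i = T ^ (i + 1) := fun i => (pow_succ' T i).symm
  simp only [h1]
  rcases r with _ | n
  · simp
  · rw [Finset.sum_range_succ (fun i => T ^ (i + 1)), Finset.sum_range_succ' (fun i => T ^ i), hT,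
      pow_zero]

theorem phi_mul (T : Module.End F V) (r : ℕ) (hT : T ^ r = 1) : phi T r * T = phi T r := by
  unfold phi
  rw [Finset.sum_mul]
  have h1 : ∀ i, T ^ i * T = T ^ (i + 1) := fun i => (pow_succ T i).symm
  simp only [h1]
  rcases r with _ | n
  · simp
  · rw [Finset.sum_range_succ (fun i => T ^ (i + 1)), Finset.sum_range_succ' (fun i => T ^ i), hT,
      pow_zero]

theorem phi_mul_pow (T : Module.End F V) (r : ℕ) (hT : T ^ r = 1) (i : ℕ) :
    phi T r * T ^ i = phi T r := by
  induction i with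
  | zero => rw [pow_zero, mul_one]
  | succ n ih => rw [pow_succ', ← mul_assoc, phi_mul T r hT, ih]

theorem phi_pow_apply (T : Module.End F V) (r : ℕ) (hT : T ^ r = 1) (i : ℕ) (v : V) :
    phi T r ((T ^ i) v) = phi T r v := by
  rw [← Module.End.mul_apply, phi_mul_pow T r hT]

theorem phi_mem_ker (T : Module.End F V) (r : ℕ) (hT : T ^ r = 1) (v : V) :
    phi T r v ∈ LinearMap.ker (T - 1) := by
  rw [Cfsg.Agent.H99.El.mem_ker_sub_one, ← Module.End.mul_apply, mul_phi T r hT]

theorem pow_apply_of_fixed (T : Module.End F V) (v : V) (hv : T v = v) (i : ℕ) :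
    (T ^ i) v = v := by
  induction i with
  | zero => rw [pow_zero, Module.End.one_apply]
  | succ n ih => rw [pow_succ, Module.End.mul_apply, hv, ih]

theorem phi_apply_of_fixed (T : Module.End F V) (r : ℕ) (v : V) (hv : T v = v) :
    phi T r v = (r : F) • v := by
  rw [phi_apply, Finset.sum_congr rfl (fun i _ => pow_apply_of_fixed T v hv i), Finset.sum_const,
    Finset.card_range, Nat.cast_smul_eq_nsmul]

theorem map_pow_eq {ι : Type*} (T : Module.End F V) (D : ι → Submodule F V) (σ : Equiv.Perm ι)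
    (hσ : ∀ j, (D j).map T = D (σ j)) (i : ℕ) (j : ι) :
    (D j).map (T ^ i) = D ((σ ^ i) j) := by
  induction i with
  | zero => rw [pow_zero, Module.End.one_eq_id, Submodule.map_id, pow_zero, Equiv.Perm.one_apply]
  | succ n ih =>
    rw [pow_succ' T, Module.End.mul_eq_comp, Submodule.map_comp, ih, hσ, pow_succ' σ,
      Equiv.Perm.mul_apply]

theorem pow_apply_mem {ι : Type*} (T : Module.End F V) (D : ι → Submodule F V) (σ : Equiv.Perm ι)
    (hσ : ∀ j, (D j).map T = D (σ j)) (i : ℕ) (j : ι) (d : V) (hd : d ∈ D j) :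
    (T ^ i) d ∈ D ((σ ^ i) j) := by
  rw [← map_pow_eq T D σ hσ i j]
  exact Submodule.mem_map_of_mem hd

theorem sigma_pow_r {ι : Type*} (T : Module.End F V) (r : ℕ) (hT : T ^ r = 1)
    (D : ι → Submodule F V) (σ : Equiv.Perm ι) (hσ : ∀ j, (D j).map T = D (σ j))
    (hinj : Function.Injective D) (j : ι) : (σ ^ r) j = j := by
  apply hinj
  rw [← map_pow_eq T D σ hσ r j, hT, Module.End.one_eq_id, Submodule.map_id]

theorem sigma_pow_ne {ι : Type*} (σ : Equiv.Perm ι) (r : ℕ) (hr : r.Prime) (j : ι)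
    (hσr : (σ ^ r) j = j) (hj : σ j ≠ j) (i : ℕ) (hi0 : 0 < i) (hir : i < r) :
    (σ ^ i) j ≠ j := by
  intro h
  have h1 : Function.IsPeriodicPt σ i j := by
    unfold Function.IsPeriodicPt Function.IsFixedPt
    rw [Equiv.Perm.iterate_eq_pow]
    exact h
  have h2 : Function.IsPeriodicPt σ r j := by
    unfold Function.IsPeriodicPt Function.IsFixedPt
    rw [Equiv.Perm.iterate_eq_pow]
    exact hσr
  have h3 := h1.gcd h2
  have hcop : Nat.gcd i r = 1 := by
    have h4 : Nat.Coprime r i :=
      (Nat.Prime.coprime_iff_not_dvd hr).mpr (Nat.not_dvd_of_pos_of_lt hi0 hir)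
    exact h4.symm
  rw [hcop] at h3
  exact hj h3

theorem sigma_pow_inj {ι : Type*} (σ : Equiv.Perm ι) (r : ℕ) (hr : r.Prime) (j : ι)
    (hσr : (σ ^ r) j = j) (hj : σ j ≠ j) (i k : ℕ) (hi : i < r) (hk : k < r)
    (h : (σ ^ i) j = (σ ^ k) j) : i = k := by
  wlog hik : i ≤ k generalizing i k
  · exact (this k i hk hi h.symm (by omega)).symm
  by_contra hne
  have hlt : i < k := lt_of_le_of_ne hik hne
  have h1 : (σ ^ (k - i)) j = j := by
    have h2 : σ ^ k = σ ^ i * σ ^ (k - i) := by
      rw [← pow_add]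
      congr 1
      omega
    rw [h2, Equiv.Perm.mul_apply] at h
    exact ((σ ^ i).injective h).symm
  exact sigma_pow_ne σ r hr j hσr hj (k - i) (by omega) (by omega) h1

theorem finrank_biSup_indep {ι : Type*} [DecidableEq ι] (N : ι → Submodule F V)
    (hN : iSupIndep N) (s : Finset ι) :
    Module.finrank F ↥(⨆ h ∈ s, N h) = ∑ h ∈ s, Module.finrank F (N h) := by
  induction s using Finset.induction_on with
  | empty => simp
  | insert a s ha ih =>
    rw [Finset.iSup_insert, Finset.sum_insert ha, ← ih]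
    have hdisj : N a ⊓ (⨆ h ∈ s, N h) = ⊥ := by
      have h1 := hN a
      rw [disjoint_iff] at h1
      apply le_antisymm _ bot_le
      rw [← h1]
      apply inf_le_inf_left
      apply iSup₂_le
      intro j hj
      have hja : j ≠ a := by rintro rfl; exact ha hj
      exact le_iSup₂ (f := fun j (_ : j ≠ a) => N j) j hja
    have h2 := Submodule.finrank_sup_add_finrank_inf_eq (N a) (⨆ h ∈ s, N h)
    rw [hdisj] at h2
    simpa using h2

/-- `ord_r(q) ∣ r - 1` -/
theorem orderOf_card_dvd [Fintype F] (r : ℕ) (hr : r.Prime) (hrF : (r : F) ≠ 0) :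
    orderOf (Fintype.card F : ZMod r) ∣ r - 1 := by
  have : Fact r.Prime := ⟨hr⟩
  have hpos := Cfsg.Agent.H99.El.orderOf_card_pos (F := F) r hr hrF
  have hne : (Fintype.card F : ZMod r) ≠ 0 := by
    intro h0
    have h1 := pow_orderOf_eq_one (Fintype.card F : ZMod r)
    rw [h0] at hpos
    rw [h0, zero_pow hpos.ne'] at h1
    exact zero_ne_one h1
  exact orderOf_dvd_of_pow_eq_one (ZMod.pow_card_sub_one_eq_one hne)

end Cfsg.Agent.H31.Dec
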