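import Mathlib
import Cfsg.Agent.H31.BG9b
import Cfsg.Agent.H3.AbelianSylow

set_option autoImplicit false
set_option linter.unusedSectionVars false

/-!
# Pieces for Bender–Glauberman Lemma 9.5 (helper31, for helper38's team project S1402-BG95)

* `bg91'`: B&G Lemma 9.1(b) for an arbitrary nontrivial `p`-subgroup `B`;
* `bg95_small`: CASE I of helper38's proof of Lemma 9.5 (all maximal subgroups over `A` have
  Fitting subgroup of rank at most 2).
-/

namespace Cfsg.Agent.H31.BG9

open Cfsg Subgroup Cfsg.Agent.Lib.Helper30 Cfsg.Agent.H31.X.H37.Bender Cfsg.Agent.H58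
  Cfsg.Agent.H31.T2 Cfsg.Agent.H31.BG8

open scoped commutatorElement

universe u

variable {G : Type u} [Group G]

/-- B&G Lemma 9.1, form (b), for an arbitrary nontrivial `p`-subgroup `B` (same proof). -/
theorem bg91' [Finite G] (hG : IsMinSimpleOddOrder G) {M : Subgroup G} (hM : IsCoatom M)
    {p : ℕ} [Fact p.Prime] {B : Subgroup G} (hBM : B ≤ M) (hBp : IsPGroup p B) (hB0 : B ≠ ⊥)
    (hb : ∀ Y : Subgroup G, (Nat.card Y).Coprime p → B ≤ normalizer (Y : Set G) → Y ≤ M) :
    ∀ H : Subgroup G, IsCoatom H → B ≤ H → H = M := by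
  have hp : p.Prime := Fact.out
  have hs : IsSimpleGroup G := hG.2.1
  have hMtop : M ≠ ⊤ := hM.1
  haveI hMsolv : Group.IsSolvable M := hG.2.2.2 M hMtop
  -- normalizers of Sylow subgroups of `M` containing `B` lie in `M`
  have hNP : ∀ P : Sylow p M, B ≤ (P : Subgroup M).map M.subtype →
      normalizer (((P : Subgroup M).map M.subtype : Subgroup G) : Set G) ≤ M := by
    intro P hBP
    have hP0 : (P : Subgroup M) ≠ ⊥ := by
      intro h
      rw [h, Subgroup.map_bot] at hBP
      exact hB0 (le_bot_iff.mp hBP)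
    by_cases hO : pPrimeCore p ↥M = ⊥
    · obtain ⟨hMW, hW0, hWtop, -⟩ := zj_lemma hG hM hO P hP0
      have hNW := normalizer_eq_of_coatom' hG hM hW0 hWtop hMW
      exact (normalizer_le_normalizer_cJ p _).trans hNW.le
    · obtain ⟨OG, hOGdef⟩ : ∃ OG : Subgroup G, OG = (pPrimeCore p ↥M).map M.subtype := ⟨_, rfl⟩
      have hOG0 : OG ≠ ⊥ := by
        rwa [hOGdef, Ne, Subgroup.map_eq_bot_iff_of_injective _ (Subgroup.subtype_injective _)]
      have hOGM : OG ≤ M := by rw [hOGdef]; exact Subgroup.map_subtype_le _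
      have hOGtop : OG ≠ ⊤ := fun h => hMtop (top_le_iff.mp (h ▸ hOGM))
      have hMO : M ≤ normalizer (OG : Set G) := by
        rw [hOGdef]; exact le_normalizer_map_subtype M (pPrimeCore p ↥M)
      have hOGcop : (Nat.card OG).Coprime p := by
        rw [hOGdef, Subgroup.card_subtype]
        exact Cfsg.Agent.H37.card_pPrimeCore_coprime p
      have hNO := normalizer_eq_of_coatom' hG hM hOG0 hOGtop hMO
      refine le_trans ?_ hNO.le
      intro g hg
      rw [mem_normalizer_iff_map_conj]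
      have hcard : Nat.card (OG.map (MulAut.conj g).toMonoidHom) = Nat.card OG :=
        card_map_conj g _
      have hcop : (Nat.card (OG.map (MulAut.conj g).toMonoidHom)).Coprime p := by
        rw [hcard]; exact hOGcop
      have hPY : (P : Subgroup M).map M.subtype ≤
          normalizer ((OG.map (MulAut.conj g).toMonoidHom : Subgroup G) : Set G) :=
        le_normalizer_map_conj hg ((Subgroup.map_subtype_le _).trans hMO)
      have hYM : OG.map (MulAut.conj g).toMonoidHom ≤ M := hb _ hcop (hBP.trans hPY)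
      have hle : (OG.map (MulAut.conj g).toMonoidHom).subgroupOf M ≤ pPrimeCore p ↥M := by
        apply sylow_inv_le_core p P
        · rw [Nat.card_congr (Subgroup.subgroupOfEquivOfLe hYM).toEquiv]; exact hcop
        · have := Cfsg.Agent.H31.X.H37.MaxLocal.subgroupOf_le_normalizer M hPY
          rwa [show ((P : Subgroup M).map M.subtype).subgroupOf M = P from
            Subgroup.comap_map_eq_self_of_injective (Subgroup.subtype_injective _) _] at this
      have hle' : OG.map (MulAut.conj g).toMonoidHom ≤ OG := by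
        intro y hy
        rw [hOGdef]
        exact ⟨⟨y, hYM hy⟩, hle (Subgroup.mem_subgroupOf.mpr hy), rfl⟩
      exact Subgroup.eq_of_le_of_card_ge hle' hcard.ge
  intro H₀ hH₀ hBH₀
  by_contra hne₀
  have hB𝒮 : B ∈ {R : Subgroup G | IsPGroup p R ∧ B ≤ R ∧ R ≤ M ∧
      ∃ H : Subgroup G, IsCoatom H ∧ H ≠ M ∧ R ≤ H} :=
    ⟨hBp, le_rfl, hBM, H₀, hH₀, hne₀, hBH₀⟩
  obtain ⟨R, hBR, hRmax⟩ := (Set.toFinite {R : Subgroup G | IsPGroup p R ∧ B ≤ R ∧ R ≤ M ∧
      ∃ H : Subgroup G, IsCoatom H ∧ H ≠ M ∧ R ≤ H}).exists_le_maximal hB𝒮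
  obtain ⟨hRp, -, hRM, H, hH, hHM, hRH⟩ := hRmax.1
  have hmax : ∀ D : Subgroup G, IsPGroup p D → D ≤ M →
      (∃ H : Subgroup G, IsCoatom H ∧ H ≠ M ∧ D ≤ H) → R ≤ D → D = R :=
    fun D hDp hDM hDH hRD => le_antisymm (hRmax.2 ⟨hDp, hBR.trans hRD, hDM, hDH⟩ hRD) hRD
  have hR0 : R ≠ ⊥ := fun h => hB0 (le_bot_iff.mp (h ▸ hBR))
  have hRtop : R ≠ ⊤ := not_isPGroup_top hG hRp
  have hHtop : H ≠ ⊤ := hH.1
  haveI hHsolv : Group.IsSolvable H := hG.2.2.2 H hHtop
  -- a Sylow subgroup of `M` containing `R`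
  obtain ⟨P', hP'⟩ := (hRp.comap_subtype (K := M)).exists_le_sylow
  have hRPG : R ≤ (P' : Subgroup M).map M.subtype := by
    intro x hx
    exact ⟨⟨x, hRM hx⟩, hP' (Subgroup.mem_subgroupOf.mpr hx), rfl⟩
  have hPGp : IsPGroup p ((P' : Subgroup M).map M.subtype) := P'.isPGroup'.map _
  have hNPG := hNP P' (hBR.trans hRPG)
  -- Step 1
  have hNR : normalizer (R : Set G) ≤ M := by
    have hNtop : normalizer (R : Set G) ≠ ⊤ := minSimple_normalizer_ne_top hG hR0 hRtop
    obtain ⟨D, hD, hND⟩ :=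
      (eq_top_or_exists_le_coatom (normalizer (R : Set G))).resolve_left hNtop
    by_cases hDM : D = M
    · exact hDM ▸ hND
    · have hD'eq := hmax _ (hPGp.to_le inf_le_left)
        (inf_le_left.trans (Subgroup.map_subtype_le _))
        ⟨D, hD, hDM, inf_le_right.trans hND⟩ (le_inf hRPG le_normalizer)
      have hRPeq : R = (P' : Subgroup M).map M.subtype := by
        by_contra hne
        have := lt_inf_normalizer hPGp (lt_of_le_of_ne hRPG hne)
        exact this.ne' hD'eq
      rw [hRPeq]; exact hNPG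
  -- Step 2
  obtain ⟨S, hS⟩ := (hRp.comap_subtype (K := H)).exists_le_sylow
  have hRSG : R ≤ (S : Subgroup H).map H.subtype := by
    intro x hx
    exact ⟨⟨x, hRH hx⟩, hS (Subgroup.mem_subgroupOf.mpr hx), rfl⟩
  have hSGp : IsPGroup p ((S : Subgroup H).map H.subtype) := S.isPGroup'.map _
  have hSR : (S : Subgroup H).map H.subtype = R := by
    by_contra hne
    have hlt : R < (S : Subgroup H).map H.subtype := lt_of_le_of_ne hRSG (Ne.symm hne)
    have hD := lt_inf_normalizer hSGp hlt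
    have := hmax _ (hSGp.to_le inf_le_left) (inf_le_right.trans hNR)
      ⟨H, hH, hHM, inf_le_left.trans (Subgroup.map_subtype_le _)⟩ hD.le
    exact hD.ne' this
  -- Step 3
  have hKM : (pPrimeCore p ↥H).map H.subtype ≤ M := by
    apply hb
    · rw [Subgroup.card_subtype]; exact Cfsg.Agent.H37.card_pPrimeCore_coprime p
    · exact (hBR.trans hRH).trans (le_normalizer_map_subtype H (pPrimeCore p ↥H))
  -- Step 4
  have hSK : ((S : Subgroup H) ⊔ pPrimeCore p ↥H).map H.subtype ≤ M := by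
    rw [Subgroup.map_sup, hSR]
    exact sup_le hRM hKM
  have hFM : FOf H ≤ M := (Subgroup.map_mono (fitting_le_sylow_sup_core p S)).trans hSK
  -- Step 5
  have hodd : Odd (Nat.card H) := hG.1.of_dvd_nat (Subgroup.card_subgroup_dvd_card H)
  by_cases hrk : RankLE 2 (fittingSubgroup ↥H)
  · have hnil := (Cfsg.Agent.S1451.result (G := ↥H) hodd (Or.inr hrk)).1
    have hcomm : commutator ↥H ≤ fittingSubgroup ↥H := le_sSup ⟨inferInstance, hnil⟩
    have hfr := frattini_of_comm_le p S hcomm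
    apply hHM
    have hHleM : H ≤ M := by
      intro h hh
      obtain ⟨x, hx, n, hn, hxn⟩ := hfr ⟨h, hh⟩
      have h1 : (x : G) ∈ M := hSK ⟨x, hx, rfl⟩
      have h2 : (n : G) ∈ M := by
        apply hNR
        rw [← hSR]
        exact Subgroup.le_normalizer_map H.subtype ⟨n, hn, rfl⟩
      have e : h = (x : G) * (n : G) := by
        have := congrArg Subtype.val hxn
        simpa using this
      rw [e]; exact M.mul_mem h1 h2
    by_contra hne
    exact hMtop (hH.2 _ (lt_of_le_of_ne hHleM hne))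
  · unfold RankLE at hrk
    push Not at hrk
    obtain ⟨q, hq, hqr⟩ := hrk
    haveI : Fact q.Prime := ⟨hq⟩
    unfold PRankLE at hqr
    push Not at hqr
    obtain ⟨E, hEc, hEp, hEcard⟩ := hqr
    obtain ⟨A₀, hA₀def⟩ : ∃ A₀ : Subgroup G,
      A₀ = (E.map (fittingSubgroup ↥H).subtype).map H.subtype := ⟨_, rfl⟩
    have hA₀F : A₀ ≤ FOf H := by
      rw [hA₀def]; exact Subgroup.map_mono (Subgroup.map_subtype_le _)
    have hA₀card : Nat.card A₀ = Nat.card E := by
      rw [hA₀def, Subgroup.card_subtype, Subgroup.card_subtype]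
    have hA₀e : IsElementaryAbelian q A₀ := by
      rw [hA₀def]
      exact isElementaryAbelian_map _ (isElementaryAbelian_map _ ⟨hEc, hEp⟩)
    have hA₀lt : q ^ 2 < Nat.card A₀ := by rw [hA₀card]; exact hEcard
    have hA₀3 : q ^ 3 ≤ Nat.card A₀ :=
      pow_succ_le_card_of_lt (isPGroup_of_exponent hA₀e.2) hA₀lt
    have hA₀1 : 1 < Nat.card A₀ := lt_of_le_of_lt (Nat.one_le_pow _ _ hq.pos) hA₀lt
    have hqF : q ∣ Nat.card (FOf H) := dvd_card_of_exponent_prime hA₀F hA₀e.2 hA₀1
    by_cases hFq : IsPGroup q ↥(FOf H)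
    · obtain ⟨Q⟩ : Nonempty (Sylow q H) := inferInstance
      obtain ⟨-, hscn⟩ := bg81b hG hH hqF hFq Q
      have hq2 : q ≠ 2 := by
        rintro rfl
        have h2G : 2 ∣ Nat.card G := dvd_trans hqF
          ((Subgroup.card_dvd_of_le (FOf_le H)).trans (Subgroup.card_subgroup_dvd_card H))
        exact (Nat.not_even_iff_odd.mpr hG.1) (even_iff_two_dvd.mpr h2G)
      have hFQ : FOf H ≤ (Q : Subgroup H).map H.subtype := by
        apply Subgroup.map_mono
        have hFp' : IsPGroup q (fittingSubgroup ↥H) := by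
          obtain ⟨k, hk⟩ := IsPGroup.iff_card.mp hFq
          exact IsPGroup.of_card (by rw [← card_FOf, hk])
        haveI : (fittingSubgroup ↥H).Normal := Cfsg.Agent.H27.fitting_normal _
        exact Cfsg.Agent.H1.normal_pgroup_le_sylow q _ hFp' Q
      have hQr : ¬ PRankLE q 2 ↥((Q : Subgroup H).map H.subtype) :=
        not_pRankLE_of_le (hA₀F.trans hFQ) hA₀e hA₀lt
      obtain ⟨A, hA, hAr⟩ := exists_scn3 hq2 (Q.isPGroup'.map _) hQr
      obtain ⟨hAF, hAu⟩ := hscn A hA hAr
      exact hHM (hAu.unique ⟨hH, hAF.trans (FOf_le H)⟩ ⟨hM, hAF.trans hFM⟩)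
    · have hu := bg81a hG hH hA₀F hA₀e hA₀3 hFq
      exact hHM (hu.unique ⟨hH, inf_le_left.trans (FOf_le H)⟩ ⟨hM, inf_le_left.trans hFM⟩)

/-- In a finite group, a `p`-element of the Fitting subgroup commutes with every element of
`O_{p'}`. -/
theorem commute_fitting_pElement {H : Type*} [Group H] [Finite H] (p : ℕ) [Fact p.Prime]
    {d x : H} (hdF : d ∈ fittingSubgroup H) (hd : ∃ k : ℕ, d ^ p ^ k = 1)
    (hx : x ∈ pPrimeCore p H) : d * x = x * d := by
  obtain ⟨u, hu, v, hv, rfl⟩ := Cfsg.Agent.H27.exists_mul_of_mem_sup_of_comm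
    (Cfsg.Agent.H27.pCore_comm_pPrimeCore p) (Cfsg.Agent.H27.fitting_le_pCore_sup_pPrimeCore p hdF)
  have huv : Commute u v := Cfsg.Agent.H27.pCore_comm_pPrimeCore p u hu v hv
  obtain ⟨k, hk⟩ := hd
  obtain ⟨k', hk'⟩ := (Cfsg.Agent.H60.isPGroup_pCore (G := H) p) ⟨u, hu⟩
  have hk'' : u ^ p ^ k' = 1 := by
    have := congrArg Subtype.val hk'
    simpa using this
  have hu1 : u ^ (p ^ k * p ^ k') = 1 := by rw [mul_comm, pow_mul, hk'', one_pow]
  have huv1 : (u * v) ^ (p ^ k * p ^ k') = 1 := by rw [pow_mul, hk, one_pow]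
  have hv1 : v ^ (p ^ k * p ^ k') = 1 := by
    rw [huv.mul_pow, hu1, one_mul] at huv1
    exact huv1
  have hv2 : v ^ Nat.card ↥(pPrimeCore p H) = 1 := by
    have h1 : (⟨v, hv⟩ : ↥(pPrimeCore p H)) ^ Nat.card ↥(pPrimeCore p H) = 1 := pow_card_eq_one'
    have h2 := congrArg Subtype.val h1
    simp only [Subgroup.coe_pow, Subgroup.coe_one] at h2
    exact h2
  have hcop : (p ^ k * p ^ k').Coprime (Nat.card ↥(pPrimeCore p H)) := by
    rw [← pow_add]
    exact Nat.Coprime.pow_left _ (Cfsg.Agent.H37.card_pPrimeCore_coprime (G := H) p).symm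
  have hv3 : v ^ Nat.gcd (p ^ k * p ^ k') (Nat.card ↥(pPrimeCore p H)) = 1 :=
    pow_gcd_eq_one.mpr ⟨hv1, hv2⟩
  rw [hcop, pow_one] at hv3
  rw [hv3, mul_one]
  exact Cfsg.Agent.H27.pCore_comm_pPrimeCore p u hu x hx

/-- The derived group of a minimal simple group is the whole group. -/
theorem commutator_eq_top_of_minSimple (hG : IsMinSimpleOddOrder G) : commutator G = ⊤ := by
  haveI : IsSimpleGroup G := hG.2.1
  rcases (inferInstance : (commutator G).Normal).eq_bot_or_eq_top with h | h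
  · exfalso
    apply hG.2.2.1
    refine ⟨⟨fun a b => ?_⟩⟩
    have h1 : ⁅a, b⁆ ∈ commutator G :=
      Subgroup.commutator_mem_commutator (Subgroup.mem_top a) (Subgroup.mem_top b)
    rw [h, Subgroup.mem_bot, commutatorElement_eq_one_iff_mul_comm] at h1
    exact h1
  · exact h

/-- CASE I of B&G Lemma 9.5 (helper38's proof): if every maximal subgroup containing
`A ∈ SCN_3(P)` has Fitting subgroup of rank at most 2, then `A` lies in a unique maximal
subgroup. -/
theorem bg95_small [Finite G] (hG : IsMinSimpleOddOrder G) (p : ℕ) [Fact p.Prime] (P : Sylow p G)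
    (A : Subgroup G) (hA : IsSCN (P : Subgroup G) A) (hA3 : ¬ PRankLE p 2 ↥A)
    (hsmall : ∀ H : Subgroup G, IsCoatom H → A ≤ H → RankLE 2 (fittingSubgroup ↥H)) :
    InUniqueMaximal A := by
  have hp : p.Prime := Fact.out
  have hs : IsSimpleGroup G := hG.2.1
  obtain ⟨hAP, hPN, hPC⟩ := hA
  have hAp : IsPGroup p A := P.isPGroup'.to_le hAP
  have hAcent : A ≤ centralizer (A : Set G) := by
    intro a ha
    have h1 : a ∈ (P : Subgroup G) ⊓ centralizer (A : Set G) := by rw [hPC]; exact ha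
    exact h1.2
  have hAcomm : IsMulCommutative A :=
    ⟨⟨fun a b => Subtype.ext ((Subgroup.mem_centralizer_iff.mp (hAcent b.2) a a.2))⟩⟩
  obtain ⟨B, hBA, hBc, hBp, hBcard⟩ := exists_elementary_of_not_pRankLE hA3
  have hB1 : 1 < Nat.card B := lt_of_le_of_lt (Nat.one_le_pow _ _ hp.pos) hBcard
  have hpA : p ∣ Nat.card A := dvd_card_of_exponent_prime hBA hBp hB1
  have hpG : p ∣ Nat.card G := hpA.trans (Subgroup.card_subgroup_dvd_card A)
  have hA0 : A ≠ ⊥ := by
    rintro rfl
    rw [Subgroup.card_bot] at hpA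
    exact hp.one_lt.ne' (Nat.dvd_one.1 hpA)
  have hr1 : ¬ PRankLE p 1 ↥A := fun h => hA3 (fun B hBc hBp =>
    (h B hBc hBp).trans (Nat.pow_le_pow_right hp.pos (by norm_num)))
  have hTH : TransitivityHypothesis A :=
    Cfsg.Agent.S1396.result hG p hpG A hAp hAcomm (Or.inr ⟨P, ⟨hAP, hPN, hPC⟩, hr1⟩)
  have hZ : ¬ RankLE 2 ↥(A ⊓ centralizer (A : Set G)) := by
    intro h
    refine not_pRankLE_of_le (B := B) (le_inf hBA (hBA.trans hAcent)) ⟨?_, hBp⟩ hBcard (h p hp)
    exact ⟨⟨fun a b => Subtype.ext (hBc a a.2 b b.2)⟩⟩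
  have hAtop : A ≠ ⊤ := hTH.2.1
  haveI hAsolv : Group.IsSolvable A := hG.2.2.2 A hAtop
  obtain ⟨D, hDdef⟩ : ∃ D : Subgroup G,
    D = A ⊓ ⁅normalizer (A : Set G), normalizer (A : Set G)⁆ := ⟨_, rfl⟩
  have hDA : D ≤ A := by rw [hDdef]; exact inf_le_left
  have hDp : IsPGroup p D := hAp.to_le hDA
  have hDtop : D ≠ ⊤ := fun h => hAtop (top_le_iff.mp (h ▸ hDA))
  -- `D ≠ 1` by transfer
  have hD0 : D ≠ ⊥ := by
    intro hD
    have hPA : (P : Subgroup G) ≤ A := by
      intro x hx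
      have h0 : x ∈ (P : Subgroup G) ⊓ centralizer (A : Set G) := by
        refine Subgroup.mem_inf.mpr ⟨hx, ?_⟩
        rw [Subgroup.mem_centralizer_iff]
        intro a ha
        have h1 : ⁅x, a⁆ ∈ D := by
          rw [hDdef]
          refine ⟨?_, Subgroup.commutator_mem_commutator (hPN hx) (le_normalizer ha)⟩
          rw [commutatorElement_def]
          exact A.mul_mem ((Subgroup.mem_normalizer_iff.mp (hPN hx) a).mp ha) (A.inv_mem ha)
        rw [hD, Subgroup.mem_bot, commutatorElement_eq_one_iff_mul_comm] at h1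
        exact h1.symm
      rw [hPC] at h0
      exact h0
    have hPeq : (P : Subgroup G) = A := le_antisymm hPA hAP
    have hPcomm : IsMulCommutative (P : Subgroup G) := hPeq ▸ hAcomm
    have h1 := Cfsg.Agent.H3.focal_le_commutator_normalizer P hPcomm
    have h2 := Subgroup.commutator_inf_eq_focalSubgroup P
    rw [← h2, commutator_eq_top_of_minSimple hG, top_inf_eq, hPeq] at h1
    have h3 : A ≤ D := by rw [hDdef]; exact le_inf le_rfl h1
    exact hA0 (le_bot_iff.mp (hD ▸ h3))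
  have hsn : (A.subgroupOf A).IsSubnormal := by
    rw [Subgroup.subgroupOf_self]
    exact Subgroup.IsSubnormal.top
  -- every maximal `A`-invariant `q`-subgroup centralizes `D`
  have key : ∀ q : ℕ, q.Prime → q ≠ p → ∀ Q ∈ maxInvSubgroups ⊤ A {q},
      Q ≤ centralizer (D : Set G) := by
    intro q hq hqp Q hQ
    haveI : Fact q.Prime := ⟨hq⟩
    by_cases hQ0 : Q = ⊥
    · rw [hQ0]; exact bot_le
    have hqA : ¬ q ∣ Nat.card A := by
      intro h
      obtain ⟨k, hk⟩ := IsPGroup.iff_card.mp hAp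
      rw [hk] at h
      exact hqp ((Nat.prime_dvd_prime_iff_eq hq hp).mp (hq.dvd_of_dvd_pow h))
    have htr := trans_of_rank_three hG hTH hZ hq hqA
    have h75 := thm75 hG A hTH q hq hqA A hAtop (fun r _ h => h) le_rfl hsn htr
    have hDQ : D ≤ ⁅normalizer (Q : Set G), normalizer (Q : Set G)⁆ := by
      rw [hDdef]; exact (h75.2.2.2 Q hQ).1
    have hQq : IsPGroup q Q := isPGroup_of_isPi_singleton hQ.1.2.1
    have hQtop : Q ≠ ⊤ := not_isPGroup_top hG hQq
    have hNtop : normalizer (Q : Set G) ≠ ⊤ := minSimple_normalizer_ne_top hG hQ0 hQtop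
    obtain ⟨H, hH, hNH⟩ :=
      (eq_top_or_exists_le_coatom (normalizer (Q : Set G))).resolve_left hNtop
    have hAN : A ≤ normalizer (Q : Set G) := hQ.1.2.2
    have hAH : A ≤ H := hAN.trans hNH
    have hQH : Q ≤ H := le_normalizer.trans hNH
    have hHtop : H ≠ ⊤ := hH.1
    haveI hHsolv : Group.IsSolvable H := hG.2.2.2 H hHtop
    have hodd : Odd (Nat.card H) := hG.1.of_dvd_nat (Subgroup.card_subgroup_dvd_card H)
    have hrk := hsmall H hH hAH
    have hnil := (Cfsg.Agent.S1451.result (G := ↥H) hodd (Or.inr hrk)).1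
    have hcomm : commutator ↥H ≤ fittingSubgroup ↥H := le_sSup ⟨inferInstance, hnil⟩
    have hDH' : D ≤ (commutator ↥H).map H.subtype := by
      refine hDQ.trans ((Subgroup.commutator_mono hNH hNH).trans ?_)
      rw [Subgroup.commutator_le]
      intro g₁ h₁ g₂ h₂
      exact ⟨⁅(⟨g₁, h₁⟩ : H), ⟨g₂, h₂⟩⁆,
        Subgroup.commutator_mem_commutator (Subgroup.mem_top _) (Subgroup.mem_top _), rfl⟩
    have hQcore : Q ≤ piCoreOf (primesNotDvd (Nat.card A)) H := by
      rw [← hTH.2.2 H hHtop hAH]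
      apply le_sSup
      refine ⟨hQH, ?_, hAN⟩
      intro r hr hrQ
      have h1 := hQ.1.2.1 r hr hrQ
      rw [Set.mem_singleton_iff] at h1
      subst h1
      exact ⟨hr, hqA⟩
    have hcore : piCore (primesNotDvd (Nat.card A)) ↥H ≤ pPrimeCore p ↥H := by
      apply sSup_le
      rintro N ⟨hNn, hNπ⟩
      apply le_sSup
      refine ⟨hNn, ?_⟩
      rw [Nat.coprime_comm, Nat.Prime.coprime_iff_not_dvd hp]
      intro hpN
      exact (hNπ p hp hpN).2 hpA
    intro x hxQ
    rw [Subgroup.mem_centralizer_iff]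
    intro d hd
    obtain ⟨x', hx', rfl⟩ := hQcore hxQ
    obtain ⟨d', hd', rfl⟩ := hDH' hd
    have hdk : ∃ k : ℕ, d' ^ p ^ k = 1 := by
      obtain ⟨k, hk⟩ := hDp ⟨H.subtype d', hd⟩
      refine ⟨k, ?_⟩
      have h1 := congrArg Subtype.val hk
      apply Subtype.ext
      simpa using h1
    have h2 := commute_fitting_pElement p (hcomm hd') hdk (hcore hx')
    have h3 := congrArg H.subtype h2
    simpa using h3
  -- every `A`-invariant `p'`-subgroup centralizes `D`
  have hinvC : ∀ Y : Subgroup G, (Nat.card Y).Coprime p → A ≤ normalizer (Y : Set G) →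
      Y ≤ centralizer (D : Set G) := by
    intro Y hY hAY
    apply le_of_sylow_le
    intro q _ hqY
    have hq : q.Prime := Fact.out
    have hqp : q ≠ p := by
      rintro rfl
      exact hq.one_lt.ne' (Nat.Coprime.eq_one_of_dvd hY.symm hqY)
    have hcop : (Nat.card A).Coprime (Nat.card Y) := by
      obtain ⟨k, hk⟩ := IsPGroup.iff_card.mp hAp
      rw [hk]
      exact Nat.Coprime.pow_left k hY.symm
    obtain ⟨Yq, hYq⟩ := coprime_exists_invariant_sylow A Y hAY hcop (Or.inl hAsolv) q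
    have hR : (Yq : Subgroup Y).map Y.subtype ∈ invSubgroups ⊤ A {q} := by
      refine ⟨le_top, ?_, hYq⟩
      intro r hr hrd
      rw [Subgroup.card_subtype] at hrd
      obtain ⟨k, hk⟩ := IsPGroup.iff_card.mp Yq.isPGroup'
      rw [hk] at hrd
      exact (Nat.prime_dvd_prime_iff_eq hr hq).mp (hr.dvd_of_dvd_pow hrd)
    obtain ⟨Q, hQ, hRQ⟩ := exists_le_maxInvSubgroups hR
    exact ⟨Yq, hRQ.trans (key q hq hqp Q hQ)⟩
  -- the maximal subgroup
  have hNDtop : normalizer (D : Set G) ≠ ⊤ := minSimple_normalizer_ne_top hG hD0 hDtop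
  obtain ⟨M, hM, hNM⟩ :=
    (eq_top_or_exists_le_coatom (normalizer (D : Set G))).resolve_left hNDtop
  have hCM : centralizer (D : Set G) ≤ M := (Subgroup.centralizer_le_normalizer _).trans hNM
  have hAM : A ≤ M := by
    refine le_trans ?_ hCM
    exact hAcent.trans (Subgroup.centralizer_le hDA)
  have huniq := bg91' hG hM hAM hAp hA0 (fun Y hY hAY => (hinvC Y hY hAY).trans hCM)
  exact ⟨M, ⟨hM, hAM⟩, fun L hL => huniq L hL.1 hL.2⟩

end Cfsg.Agent.H31.BG9
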