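import Mathlib
import Cfsg.Agent.H29.BG117Defs
import Cfsg.Agent.H51.BG10E
import Cfsg.Agent.H89.BG10H
import Cfsg.Agent.Lib.Helper30.Omega
import Cfsg.Agent.H31.BG8a

set_option autoImplicit false

/-!
# B&G 11.7, piece T1 (helper31, for helper29): a normal `t`-subgroup of `M` centralizing `M_σ`
and not centralized by `A` makes `M` exceptional for `t`, with a normal subgroup of order `t`,
and `p < t`.
-/

namespace Cfsg.Agent.H31.BG117

open Cfsg Subgroup Cfsg.Agent.H58.BG10 Cfsg.Agent.H63.BG11 Cfsg.Agent.H29.BG117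

universe u

variable {G : Type u} [Group G]

theorem excT1 [Finite G] (hG : IsMinSimpleOddOrder G) (h1403 : St1403 G) (h1408 : St1408 G)
    (h1409 : St1409 G) (hSig : StSigNe G) (hD : StClaimD G) (hΩ : StExcOmega G) :
    StExcT1 G := by
  intro M A A₀ p _ hE t _ htσ htp T hTM hMT hT hTσ hTA
  have hpp : p.Prime := Fact.out
  have htt : t.Prime := Fact.out
  have hM := hE.coatom
  have hT1 : T ≠ ⊥ := by
    rintro rfl
    exact hTA bot_le
  obtain ⟨Z, hZdef⟩ : ∃ Z : Subgroup G, Z = Cfsg.Agent.H51.BG10.omegaZ t T := ⟨_, rfl⟩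
  have hZne : Z ≠ ⊥ := by rw [hZdef]; exact Cfsg.Agent.H51.BG10.omegaZ_ne_bot hT hT1
  have hZT : Z ≤ T := by rw [hZdef]; exact Cfsg.Agent.H51.BG10.omegaZ_le t T
  have hZM : Z ≤ M := hZT.trans hTM
  have hZel : IsElementaryAbelian t Z := by
    rw [hZdef]; exact Cfsg.Agent.H51.BG10.omegaZ_elementary t T
  have hMZ : M ≤ normalizer (Z : Set G) := by
    rw [hZdef]; exact hMT.trans (Cfsg.Agent.H51.BG10.normalizer_le_normalizer_omegaZ t T)
  have hZtop : Z ≠ ⊤ := by
    intro h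
    exact hM.1 (top_le_iff.mp (h ▸ hZM))
  have hNZ : normalizer (Z : Set G) ≤ M := by
    have h1 := Cfsg.Agent.H51.BG10.normalizer_ne_top_of_ne hG hZne hZtop
    by_contra hcon
    exact h1 (hM.2 _ (lt_of_le_of_ne hMZ (fun h => hcon (h ▸ le_rfl))))
  have hCZ : centralizer (Z : Set G) ≤ M := (Subgroup.centralizer_le_normalizer _).trans hNZ
  have hσZ : sigmaCore M ≤ centralizer (Z : Set G) := by
    intro x hx
    rw [Subgroup.mem_centralizer_iff]
    intro z hz
    have h1 := hTσ (hZT hz)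
    rw [Subgroup.mem_centralizer_iff] at h1
    exact (h1 x hx).symm
  have hrk2 : PRankLE t 2 M := by
    by_contra h
    exact htσ (Cfsg.Agent.H89.BG10.alpha_subset_sigma hG h1403 hM ⟨htt, h⟩)
  have hZp : IsPGroup t Z := hT.to_le hZT
  have hZcomm : ∀ a ∈ Z, ∀ b ∈ Z, a * b = b * a := fun a ha b hb =>
    congrArg Subtype.val (hZel.1.is_comm.comm ⟨a, ha⟩ ⟨b, hb⟩)
  have hZcard : Nat.card Z = t := by
    obtain ⟨k, hk⟩ := IsPGroup.iff_card.mp hZp
    rcases Nat.lt_or_ge k 2 with hk2 | hk2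
    · interval_cases k
      · exfalso
        rw [pow_zero] at hk
        exact hZne (Subgroup.card_eq_one.mp hk)
      · rw [hk, pow_one]
    · exfalso
      have hdvd : t ^ 2 ∣ Nat.card Z := by rw [hk]; exact pow_dvd_pow t hk2
      obtain ⟨B₀', hB₀'⟩ := Sylow.exists_subgroup_card_pow_prime t hdvd
      obtain ⟨B₀, hB₀def⟩ : ∃ B₀ : Subgroup G, B₀ = B₀'.map Z.subtype := ⟨_, rfl⟩
      have hB₀Z : B₀ ≤ Z := by rw [hB₀def]; exact Subgroup.map_subtype_le _
      have hB₀card : Nat.card B₀ = t ^ 2 := by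
        rw [hB₀def, Subgroup.card_map_of_injective Z.subtype_injective]; exact hB₀'
      have hB₀el : IsElementaryAbelian t B₀ :=
        ⟨⟨⟨fun a b => Subtype.ext (hZcomm a (hB₀Z a.2) b (hB₀Z b.2))⟩⟩,
          fun a ha => hZel.2 a (hB₀Z ha)⟩
      have hrk1 : ¬ PRankLE t 1 M :=
        Cfsg.Agent.H31.BG8.not_pRankLE_of_le (hB₀Z.trans hZM) hB₀el
          (by rw [hB₀card]; exact Nat.pow_lt_pow_right htt.one_lt (by norm_num))
      have hZB₀ : Z = B₀ :=
        (h1408 M hM t htσ hrk2 hrk1).2 B₀ (hB₀Z.trans hZM) hB₀el hB₀card Z hZel hB₀Z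
      have hZc2 : Nat.card Z = t ^ 2 := by rw [hZB₀]; exact hB₀card
      have h0 := hD M hM t htσ Z hZM hZel hZc2 hCZ
      exact hSig M hM (by rw [← h0]; exact (inf_eq_left.mpr hσZ).symm)
  obtain ⟨-, -, B, hBel, hBcard, hZB⟩ := h1409 M hM t htσ Z hZcard hNZ
  have hBcomm : ∀ a ∈ B, ∀ b ∈ B, a * b = b * a := fun a ha b hb =>
    congrArg Subtype.val (hBel.1.is_comm.comm ⟨a, ha⟩ ⟨b, hb⟩)
  have hBM : B ≤ M := by
    intro b hb
    apply hCZ
    rw [Subgroup.mem_centralizer_iff]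
    intro z hz
    exact hBcomm z (hZB hz) b hb
  have hExc : Exc M B Z t := ⟨hM, htσ, hBM, hBel, hBcard, hZB, hZcard, hNZ⟩
  refine ⟨?_, B, Z, hExc, hMZ⟩
  -- `p < t`
  have hBp : IsPGroup t B := IsPGroup.of_card hBcard
  obtain ⟨P, -⟩ := (hBp.comap_subtype (K := M)).exists_le_sylow
  obtain ⟨hPcomm, -⟩ := hΩ M B Z t hExc P
  have hTP : ∀ x, x ∈ T → ∀ hx : x ∈ M, (⟨x, hx⟩ : M) ∈ (P : Subgroup M) := by
    haveI : (T.subgroupOf M).Normal := (Subgroup.normal_subgroupOf_iff_le_normalizer hTM).mpr hMT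
    have hTp' : IsPGroup t (T.subgroupOf M) := hT.comap_subtype
    have h1 := hTp'.le_sylow_of_normal P
    intro x hx hxM
    exact h1 (Subgroup.mem_subgroupOf.mpr hx)
  have hTcomm : ∀ s ∈ T, ∀ x ∈ T, s * x = x * s := by
    intro s hs x hx
    have h := hPcomm.is_comm.comm ⟨⟨s, hTM hs⟩, hTP s hs _⟩ ⟨⟨x, hTM hx⟩, hTP x hx _⟩
    have h2 := congrArg (fun y : (P : Subgroup M) => ((y : M) : G)) h
    simpa using h2
  have ht2 : t ≠ 2 := by
    intro h2eq
    have h2 : 2 ∣ Nat.card G := by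
      have h3 := Subgroup.card_subgroup_dvd_card Z
      rw [hZcard, h2eq] at h3
      exact h3
    exact (Nat.not_even_iff_odd.mpr hG.1) (even_iff_two_dvd.mpr h2)
  have hAT : A ≤ normalizer (T : Set G) := hE.le.trans hMT
  have hcop : (Nat.card A).Coprime t := by
    rw [hE.card]
    exact Nat.Coprime.pow_left 2 ((Nat.coprime_primes hpp htt).mpr (Ne.symm htp))
  obtain ⟨x, hxT, hxo, hxA⟩ : ∃ x ∈ T, orderOf x = t ∧ ¬ A ≤ centralizer ({x} : Set G) := by
    by_contra hcon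
    push Not at hcon
    exact hTA (Subgroup.le_centralizer_iff.mp
      (Cfsg.Agent.Lib.Helper30.centralizer_of_omega ht2 hT hAT hcop hcon))
  have hxZ : x ∈ Z := by
    rw [hZdef]
    refine ⟨hxT, fun s hs => hTcomm s hs x hxT, ?_⟩
    rw [← hxo]; exact pow_orderOf_eq_one x
  obtain ⟨a, haA, hax⟩ : ∃ a ∈ A, a * x ≠ x * a := by
    by_contra hcon
    push Not at hcon
    apply hxA
    intro a ha
    rw [Subgroup.mem_centralizer_iff]
    intro y hy
    rw [Set.mem_singleton_iff] at hy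
    rw [hy]
    exact (hcon a ha).symm
  have haN : a ∈ normalizer (Z : Set G) := hMZ (hE.le haA)
  obtain ⟨φ, hφdef⟩ : ∃ φ : MulAut Z, φ = Cfsg.Agent.Lib.Helper30.conjAut Z a haN := ⟨_, rfl⟩
  have hφ1 : φ ≠ 1 := by
    intro h
    have h1 := congrArg (fun f : MulAut Z => ((f ⟨x, hxZ⟩ : Z) : G)) h
    rw [hφdef] at h1
    simp only [Cfsg.Agent.Lib.Helper30.conjAut_apply, MulAut.one_apply] at h1
    apply hax
    calc a * x = (a * x * a⁻¹) * a := by group
      _ = x * a := by rw [h1]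
  have hφp : φ ^ p = 1 := by
    have hap : a ^ p = 1 := hE.elem.2 a haA
    have h1 : orderOf φ ∣ orderOf a := by
      rw [hφdef]; exact Cfsg.Agent.Lib.Helper30.orderOf_conjAut_dvd Z a haN
    have h2 : orderOf a ∣ p := orderOf_dvd_of_pow_eq_one hap
    exact orderOf_dvd_iff_pow_eq_one.mp (h1.trans h2)
  have hφo : orderOf φ = p := orderOf_eq_prime hφp hφ1
  haveI : IsCyclic Z := isCyclic_of_prime_card hZcard
  have hcardAut : Nat.card (MulAut Z) = t - 1 := by
    rw [IsCyclic.card_mulAut Z, hZcard, Nat.totient_prime htt]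
  have ht1 : 0 < t - 1 := Nat.sub_pos_of_lt htt.one_lt
  haveI : Finite (MulAut Z) := Nat.finite_of_card_ne_zero (by rw [hcardAut]; exact ht1.ne')
  have hdvd : p ∣ t - 1 := by
    rw [← hφo, ← hcardAut]; exact orderOf_dvd_natCard φ
  have := Nat.le_of_dvd ht1 hdvd
  omega

end Cfsg.Agent.H31.BG117
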