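import Mathlib
import Cfsg.Agent.H29.BG117Defs
import Cfsg.Agent.H51.BG10E
import Cfsg.Agent.H89.BG10H
import Cfsg.Agent.H70.BG10D
import Cfsg.Agent.H76.BG10x
import Cfsg.Agent.Helper55.PPrimeCore
import Cfsg.Agent.Lib.Helper30.CoprimeIface
import Cfsg.Agent.S0026
import Cfsg.Agent.H31.BG8a

set_option autoImplicit false

/-!
# B&G 11.7, piece T2 (helper31, for helper29): `M` exceptional for `p` (with `A`) and for
`t > p` (with a normal `Z` of order `t`): then `t` divides `|C_G(A)|`.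
-/

namespace Cfsg.Agent.H31.BG117

open Cfsg Subgroup Cfsg.Agent.H58.BG10 Cfsg.Agent.H63.BG11 Cfsg.Agent.H29.BG117

universe u

variable {G : Type u} [Group G]

theorem excT2 [Finite G] (hG : IsMinSimpleOddOrder G) (h1403 : St1403 G) (h1405 : St1405 G)
    (h1410 : St1410 G) (hSig : StSigNe G) (hD : StClaimD G) (hΩ : StExcOmega G)
    (hC : StExcComm G) : StExcT2 G := by
  intro M A A₀ p _ hE t _ hpt B Z hB hMZ
  have hpp : p.Prime := Fact.out
  have htt : t.Prime := Fact.out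
  have hM := hE.coatom
  have htp : t ≠ p := Nat.ne_of_gt hpt
  have hZM : Z ≤ M := hB.le₀.trans hB.le
  -- `K = O_{p'}(M)`
  obtain ⟨K, hKdef⟩ : ∃ K : Subgroup G, K = (pPrimeCore p ↥M).map M.subtype := ⟨_, rfl⟩
  have hKM : K ≤ M := by rw [hKdef]; exact Subgroup.map_subtype_le _
  have hMK : M ≤ normalizer (K : Set G) := by
    rw [hKdef]; exact Cfsg.Agent.H70.BG10.le_normalizer_map_subtype M (pPrimeCore p ↥M)
  have hKcop : (Nat.card K).Coprime p := by
    rw [hKdef, Subgroup.card_map_of_injective M.subtype_injective]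
    exact Cfsg.Agent.Helper55.coprime_card_pPrimeCore p ↥M
  have hZK : Z ≤ K := by
    have hn : (Z.subgroupOf M).Normal :=
      (Subgroup.normal_subgroupOf_iff_le_normalizer hZM).mpr hMZ
    have hc : (Nat.card (Z.subgroupOf M)).Coprime p := by
      rw [Nat.card_congr (Subgroup.subgroupOfEquivOfLe hZM).toEquiv, hB.card₀]
      exact (Nat.coprime_primes htt hpp).mpr htp
    have h1 := Cfsg.Agent.Helper55.le_pPrimeCore hn hc
    intro z hz
    rw [hKdef]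
    exact ⟨⟨z, hZM hz⟩, h1 (Subgroup.mem_subgroupOf.mpr hz), rfl⟩
  have hAK : A ≤ normalizer (K : Set G) := hE.le.trans hMK
  have hAcop : (Nat.card A).Coprime (Nat.card K) := by
    rw [hE.card]; exact Nat.Coprime.pow_left 2 hKcop.symm
  have hAsolv : Group.IsSolvable A :=
    isSolvable_of_comm (fun a b => hE.elem.1.is_comm.comm a b)
  have hZt : IsPGroup t Z := IsPGroup.of_card (n := 1) (by rw [hB.card₀, pow_one])
  have hAZ : A ≤ normalizer (Z : Set G) := hE.le.trans hMZ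
  obtain ⟨P, hZP, hAP⟩ := Cfsg.Agent.Lib.Helper30.coprime_invariant_le_sylow A K hAK hAcop
    (Or.inl hAsolv) t Z hZK hZt hAZ
  obtain ⟨T₁, hT₁def⟩ : ∃ T₁ : Subgroup G, T₁ = (P : Subgroup K).map K.subtype := ⟨_, rfl⟩
  rw [← hT₁def] at hZP hAP
  have hT₁K : T₁ ≤ K := by rw [hT₁def]; exact Subgroup.map_subtype_le _
  have hT₁M : T₁ ≤ M := hT₁K.trans hKM
  have hT₁t : IsPGroup t T₁ := by rw [hT₁def]; exact P.isPGroup'.map K.subtype
  -- `t ∤ |M : K|`
  have hpM : p ∣ Nat.card M := by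
    have h1 : Nat.card A ∣ Nat.card M := Subgroup.card_dvd_of_le hE.le
    rw [hE.card] at h1
    exact (dvd_pow_self p two_ne_zero).trans h1
  have hpb : p ∉ beta M := fun h =>
    hE.nsig (Cfsg.Agent.H89.BG10.alpha_subset_sigma hG h1403 hM h.1)
  have hidx : ¬ t ∣ K.relIndex M := by
    intro hd
    rw [hKdef, Cfsg.Agent.H76.BG10.relIndex_map_subtype'] at hd
    have := (Cfsg.Agent.H76.BG10.bg108_p hG h1405 h1410 M hM p hpp hpM hpb).2 t htt hd
    omega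
  -- ranks
  have hrk1M : ¬ PRankLE t 1 M :=
    Cfsg.Agent.H31.BG8.not_pRankLE_of_le hB.le hB.elem
      (by rw [hB.card]; exact Nat.pow_lt_pow_right htt.one_lt (by norm_num))
  have hrk2M : PRankLE t 2 M := by
    by_contra h
    exact hB.nsig (Cfsg.Agent.H89.BG10.alpha_subset_sigma hG h1403 hM ⟨htt, h⟩)
  have hrk1T : ¬ PRankLE t 1 ↥T₁ := by
    rw [hT₁def]; exact Cfsg.Agent.H70.BG10.not_pRankLE_sylow_of_hall hKM hidx P 1 hrk1M
  -- `T₁` is abelian
  obtain ⟨Q, hQ⟩ := (hT₁t.comap_subtype (K := M)).exists_le_sylow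
  obtain ⟨hQcomm, -⟩ := hΩ M B Z t hB Q
  have hT₁comm : ∀ s ∈ T₁, ∀ x ∈ T₁, s * x = x * s := by
    intro s hs x hx
    have hs' : (⟨s, hT₁M hs⟩ : M) ∈ (Q : Subgroup M) :=
      hQ (show (⟨s, hT₁M hs⟩ : M) ∈ T₁.comap M.subtype from hs)
    have hx' : (⟨x, hT₁M hx⟩ : M) ∈ (Q : Subgroup M) :=
      hQ (show (⟨x, hT₁M hx⟩ : M) ∈ T₁.comap M.subtype from hx)
    have h := hQcomm.is_comm.comm ⟨⟨s, hT₁M hs⟩, hs'⟩ ⟨⟨x, hT₁M hx⟩, hx'⟩
    have h2 := congrArg (fun y : (Q : Subgroup M) => ((y : M) : G)) h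
    simpa using h2
  -- `B₂ = Ω₁(T₁)`
  obtain ⟨B₂, hB₂def⟩ : ∃ B₂ : Subgroup G, B₂ = Cfsg.Agent.H51.BG10.omegaZ t T₁ := ⟨_, rfl⟩
  have hB₂T : B₂ ≤ T₁ := by rw [hB₂def]; exact Cfsg.Agent.H51.BG10.omegaZ_le t T₁
  have hB₂M : B₂ ≤ M := hB₂T.trans hT₁M
  have hB₂el : IsElementaryAbelian t B₂ := by
    rw [hB₂def]; exact Cfsg.Agent.H51.BG10.omegaZ_elementary t T₁
  have hAB₂ : A ≤ normalizer (B₂ : Set G) := by
    rw [hB₂def]
    exact hAP.trans (Cfsg.Agent.H51.BG10.normalizer_le_normalizer_omegaZ t T₁)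
  have hZB₂ : Z ≤ B₂ := by
    intro z hz
    rw [hB₂def]
    refine ⟨hZP hz, fun s hs => hT₁comm s hs z (hZP hz), ?_⟩
    have h1 : (⟨z, hz⟩ : Z) ^ t = 1 := by rw [← hB.card₀]; exact pow_card_eq_one'
    have h2 := congrArg Subtype.val h1
    simpa using h2
  have hB₂t : IsPGroup t B₂ := hT₁t.to_le hB₂T
  have hB₂card : Nat.card B₂ = t ^ 2 := by
    obtain ⟨B₁, hB₁T, -, hB₁e, hB₁card⟩ :=
      Cfsg.Agent.H31.T2.exists_elementary_of_not_pRankLE hrk1T
    have hB₁B₂ : B₁ ≤ B₂ := by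
      intro b hb
      rw [hB₂def]
      exact ⟨hB₁T hb, fun s hs => hT₁comm s hs b (hB₁T hb), hB₁e b hb⟩
    have h1 : Nat.card B₁ ≤ Nat.card B₂ := Subgroup.card_le_of_le hB₁B₂
    have h2 : Nat.card B₂ ≤ t ^ 2 := by
      by_contra hcon
      exact Cfsg.Agent.H31.BG8.not_pRankLE_of_le hB₂M hB₂el (not_le.mp hcon) hrk2M
    obtain ⟨k, hk⟩ := IsPGroup.iff_card.mp hB₂t
    rw [hk] at h1 h2 ⊢
    have h3 : 1 < k := by
      have h4 : t ^ 1 < t ^ k := lt_of_lt_of_le hB₁card h1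
      exact (Nat.pow_lt_pow_iff_right htt.one_lt).mp h4
    have h4 : k ≤ 2 := (Nat.pow_le_pow_iff_right htt.one_lt).mp h2
    have h5 : k = 2 := by omega
    rw [h5]
  have hCB₂ : centralizer (B₂ : Set G) ≤ M := by
    intro c hc
    apply hB.norm
    exact Subgroup.centralizer_le_normalizer _ (Subgroup.centralizer_le hZB₂ hc)
  have h0 := hD M hM t hB.nsig B₂ hB₂M hB₂el hB₂card hCB₂
  have hcomm := hC M A A₀ p hE t hB.nsig htp B₂ hB₂M hB₂t hAB₂
  have hdec := Cfsg.Agent.S0026.result A B₂ hAB₂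
    (by rw [hE.card, hB₂card]
        exact Nat.Coprime.pow 2 2 ((Nat.coprime_primes hpp htt).mpr (Ne.symm htp)))
    (Or.inl hAsolv)
  by_contra hnd
  have hbot : B₂ ⊓ centralizer (A : Set G) = ⊥ := by
    have hpg : IsPGroup t ↥(B₂ ⊓ centralizer (A : Set G)) := hB₂t.to_le inf_le_left
    obtain ⟨j, hj⟩ := IsPGroup.iff_card.mp hpg
    have hdvd : Nat.card ↥(B₂ ⊓ centralizer (A : Set G)) ∣
        Nat.card (centralizer (A : Set G)) := Subgroup.card_dvd_of_le inf_le_right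
    rcases Nat.eq_zero_or_pos j with rfl | hjpos
    · rw [pow_zero] at hj
      exact Subgroup.card_eq_one.mp hj
    · exfalso
      apply hnd
      rw [hj] at hdvd
      exact (dvd_pow_self t hjpos.ne').trans hdvd
  rw [hbot, sup_bot_eq] at hdec
  have h5 : B₂ ≤ centralizer (sigmaCore M : Set G) :=
    calc B₂ = ⁅B₂, A⁆ := hdec.symm
      _ ≤ _ := hcomm
  have h6 : sigmaCore M ≤ centralizer (B₂ : Set G) := Subgroup.le_centralizer_iff.mp h5
  exact hSig M hM (by rw [← h0]; exact (inf_eq_left.mpr h6).symm)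

end Cfsg.Agent.H31.BG117
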