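import Cfsg.Agent.H52.JcBasic

/-!
# S2946-REPL (helper52's team project): Thompson replacement in the four-group configuration
(helper31)
-/

set_option autoImplicit false

namespace Cfsg.Agent.H31.Jc

open Cfsg Cfsg.Agent.H29 Cfsg.Agent.H52.Jc

variable {G : Type*} [Group G] [Finite G] {X W S : Subgroup G} {u x : G}

theorem W_comm (h : Cfg X W S u x) : IsMulCommutative W := by
  rw [← Subgroup.le_centralizer_iff_isMulCommutative]
  intro a ha
  rw [Subgroup.mem_centralizer_iff]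
  intro b hb
  exact h.comm hb ha

/-- `W ⊔ (A ⊓ C(W))` is an abelian subgroup of exponent 2 of `D` for abelian `A ≤ D` of
exponent 2, whenever `W ≤ D`. -/
theorem sup_mem_nAb (h : Cfg X W S u x) {D A : Subgroup G} (hWD : W ≤ D) (hA : A ∈ nAb 2 D) :
    W ⊔ (A ⊓ Subgroup.centralizer (W : Set G)) ∈ nAb 2 D := by
  have hWc : IsMulCommutative W := W_comm h
  have hAc : IsMulCommutative A := hA.2.1
  have hACc : IsMulCommutative ↥(A ⊓ Subgroup.centralizer (W : Set G)) := by
    rw [← Subgroup.le_centralizer_iff_isMulCommutative]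
    exact inf_le_left.trans ((Subgroup.le_centralizer_iff_isMulCommutative.mpr hAc).trans
      (Subgroup.centralizer_le inf_le_left))
  have hBc : IsMulCommutative ↥(W ⊔ (A ⊓ Subgroup.centralizer (W : Set G))) :=
    Cfsg.Agent.H14.sup_isMulCommutative W (A ⊓ Subgroup.centralizer (W : Set G)) hWc hACc
      inf_le_right
  exact ⟨sup_le hWD (inf_le_left.trans hA.1), hBc,
    pow_eq_one_of_mem_sup hBc (fun a ha => h.sq ha) (fun y hy => hA.2.2 y hy.1)⟩

theorem sup_le_cent (h : Cfg X W S u x) (A : Subgroup G) :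
    W ⊔ (A ⊓ Subgroup.centralizer (W : Set G)) ≤ Subgroup.centralizer (W : Set G) :=
  sup_le (Subgroup.le_centralizer_iff_isMulCommutative.mpr (W_comm h)) inf_le_right

theorem replace (h : Cfg X W S u x) {A : Subgroup G} (hA : A ∈ nMax 2 S)
    (hAW : ¬ A ≤ Subgroup.centralizer (W : Set G)) :
    W ⊔ (A ⊓ Subgroup.centralizer (W : Set G)) ∈ nMax 2 S := by
  classical
  have hB : W ⊔ (A ⊓ Subgroup.centralizer (W : Set G)) ∈ nAb 2 S := sup_mem_nAb h h.hWS hA.1
  refine ⟨hB, fun C hC => (hA.2 C hC).trans ?_⟩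
  obtain ⟨a₀, ha₀A, ha₀W⟩ := SetLike.not_le_iff_exists.mp hAW
  have ha₀S : a₀ ∈ S := hA.1.1 ha₀A
  have hAc : IsMulCommutative A := hA.1.2.1
  have hvA : x * u * x⁻¹ ∉ A := by
    intro hv
    have h1 := h.swap ha₀S ha₀W
    have h2 : a₀ * (x * u * x⁻¹) = (x * u * x⁻¹) * a₀ := setLike_mul_comm (s := A) ha₀A hv
    rw [h2, mul_inv_cancel_right] at h1
    exact h.t_ne_v h1.symm
  have ha₀W' : a₀⁻¹ ∉ Subgroup.centralizer (W : Set G) := by
    intro hc
    apply ha₀W
    have := Subgroup.inv_mem _ hc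
    rwa [inv_inv] at this
  have hmaps : ∀ a ∈ A, (if a ∈ Subgroup.centralizer (W : Set G) then a
      else a * a₀⁻¹ * (x * u * x⁻¹)) ∈ W ⊔ (A ⊓ Subgroup.centralizer (W : Set G)) := by
    intro a ha
    split_ifs with hc
    · exact Subgroup.mem_sup_right ⟨ha, hc⟩
    · refine Subgroup.mul_mem _ (Subgroup.mem_sup_right
        ⟨A.mul_mem ha (A.inv_mem ha₀A), ?_⟩) (Subgroup.mem_sup_left h.v_mem)
      exact h.mul_mem_cent (hA.1.1 ha) hc (S.inv_mem ha₀S) ha₀W'
  have hinj : Function.Injective (fun a : A =>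
      (⟨_, hmaps a.1 a.2⟩ : ↥(W ⊔ (A ⊓ Subgroup.centralizer (W : Set G))))) := by
    intro a a' haa'
    have h1 : (if (a : G) ∈ Subgroup.centralizer (W : Set G) then (a : G)
        else a * a₀⁻¹ * (x * u * x⁻¹)) = (if (a' : G) ∈ Subgroup.centralizer (W : Set G)
        then (a' : G) else a' * a₀⁻¹ * (x * u * x⁻¹)) := congrArg Subtype.val haa'
    apply Subtype.ext
    by_cases hc : (a : G) ∈ Subgroup.centralizer (W : Set G) <;>
      by_cases hc' : (a' : G) ∈ Subgroup.centralizer (W : Set G)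
    · rw [if_pos hc, if_pos hc'] at h1
      exact h1
    · rw [if_pos hc, if_neg hc'] at h1
      exfalso
      apply hvA
      have h2 : x * u * x⁻¹ = (a' * a₀⁻¹)⁻¹ * a := by rw [h1]; group
      rw [h2]
      exact A.mul_mem (A.inv_mem (A.mul_mem a'.2 (A.inv_mem ha₀A))) a.2
    · rw [if_neg hc, if_pos hc'] at h1
      exfalso
      apply hvA
      have h2 : x * u * x⁻¹ = (a * a₀⁻¹)⁻¹ * a' := by rw [← h1]; group
      rw [h2]
      exact A.mul_mem (A.inv_mem (A.mul_mem a.2 (A.inv_mem ha₀A))) a'.2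
    · rw [if_neg hc, if_neg hc'] at h1
      exact mul_right_cancel (mul_right_cancel h1)
  exact Nat.card_le_card_of_injective _ hinj

theorem nZ_le_cent (h : Cfg X W S u x) : nZ 2 S ≤ Subgroup.centralizer (W : Set G) := by
  have hex : ∃ A ∈ nMax 2 S, ¬ A ≤ Subgroup.centralizer (W : Set G) := by
    by_contra hall
    push Not at hall
    exact h.hJ (sSup_le hall)
  obtain ⟨A, hA, hAW⟩ := hex
  exact (nZ_le_of_mem_nMax (replace h hA hAW)).trans (sup_le_cent h A)

end Cfsg.Agent.H31.Jc
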