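import Mathlib
import Cfsg.Agent.H47.BG1216Defs2
import Cfsg.Agent.H92.BG123
import Cfsg.Agent.H76.BG10x

set_option autoImplicit false
set_option linter.style.haveILetI false

/-!
# B&G 12.15/12.16, piece D1 (helper31, for helper47's S1425 project)

If `q ∈ σ(M*)`, `S` is a Sylow `q`-subgroup of `M*` and `N_G(S) ≤ M`, then
`M* = M*_α · (M ∩ M*)`.
-/

namespace Cfsg.Agent.H31.BG1216

open Cfsg Subgroup Cfsg.Agent.H58.BG10 Cfsg.Agent.H57.BG12 Cfsg.Agent.H76.BG12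
  Cfsg.Agent.H47.BG12
open scoped Pointwise

universe u

variable {G : Type u} [Group G] [Finite G]

theorem embD1 (_hG : IsMinSimpleOddOrder G) (hT : StSigComm G) (h50 : St1350 G)
    (hF : StAlphaFrat G) : StEmbD1 G := by
  intro M Ms hMs q _ hq S hSq hSMs hSidx hNS m hm
  have hSσ : S ≤ sigmaCore Ms :=
    Cfsg.Agent.H92.BG12.le_sigmaCore_of_mem h50 hMs hq hSq hSMs
  have hSc : S ≤ ⁅Ms, Ms⁆ :=
    hSσ.trans (Cfsg.Agent.H76.BG10.sigmaCore_le_commutator hT Ms hMs)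
  obtain ⟨a, ha, n, hn, hmn⟩ := hF Ms hMs q S hSq hSMs hSidx hSc m hm
  exact ⟨a, ha, n, ⟨hNS hn.2, hn.1⟩, hmn⟩

end Cfsg.Agent.H31.BG1216
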