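import Mathlib
import Cfsg.Agent.H47.BG1216Defs2
import Cfsg.Agent.H92.BG12Uniq

set_option autoImplicit false
set_option linter.style.haveILetI false

/-!
# B&G 12.15/12.16, piece FRAT (helper31, for helper47's S1425 project)

Frattini with the `α`-core: if a Sylow `q`-subgroup `S` of `M` lies in `M'`, then
`M = M_α · N_M(S)` (because `M'/M_α` is nilpotent).
-/

namespace Cfsg.Agent.H31.BG1216

open Cfsg Subgroup Cfsg.Agent.H58.BG10 Cfsg.Agent.H57.BG12 Cfsg.Agent.H76.BG12
  Cfsg.Agent.H47.BG12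
open scoped Pointwise

universe u

/-- Frattini: if `P` is a Sylow `q`-subgroup of `H` contained in a normal subgroup `C`, `N` is
normal in `H` and the image of `C` in `H ⧸ N` is nilpotent, then `H = N · N_H(P)`. -/
theorem frattini_nilpotent_quotient {H : Type u} [Group H] [Finite H] {q : ℕ} [Fact q.Prime]
    (N C : Subgroup H) [N.Normal] [C.Normal]
    (hD : Group.IsNilpotent ↥(C.map (QuotientGroup.mk' N)))
    (P : Sylow q H) (hPC : (P : Subgroup H) ≤ C) (m : H) :
    ∃ a ∈ N, ∃ n ∈ normalizer ((P : Subgroup H) : Set H), m = a * n := by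
  -- `K = P N` is normal in `H`
  have hconj : ∀ h : H, ∀ s ∈ (P : Subgroup H), h * s * h⁻¹ ∈ (P : Subgroup H) ⊔ N := by
    intro h s hs
    have hsurj : Function.Surjective (QuotientGroup.mk' N) := QuotientGroup.mk'_surjective N
    have h1 : ((P.mapSurjective hsurj : Sylow q (H ⧸ N)) : Subgroup (H ⧸ N)) ≤
        C.map (QuotientGroup.mk' N) := by
      rw [Sylow.coe_mapSurjective]
      exact Subgroup.map_mono hPC
    have h2 : (((h • P : Sylow q H).mapSurjective hsurj : Sylow q (H ⧸ N)) : Subgroup (H ⧸ N)) ≤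
        C.map (QuotientGroup.mk' N) := by
      rw [Sylow.coe_mapSurjective]
      apply Subgroup.map_mono
      intro x hx
      rw [Sylow.coe_subgroup_smul, Cfsg.Agent.H63.Sig.mem_cj] at hx
      have := (inferInstance : C.Normal).conj_mem _ (hPC hx) h
      have e : h * (h⁻¹ * x * h) * h⁻¹ = x := by group
      rwa [e] at this
    have heq := Cfsg.Agent.H92.BG12.sylow_eq_of_le_nilpotent hD _ _ h2 h1
    rw [Sylow.coe_mapSurjective, Sylow.coe_mapSurjective] at heq
    have hmem : QuotientGroup.mk' N (h * s * h⁻¹) ∈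
        ((h • P : Sylow q H) : Subgroup H).map (QuotientGroup.mk' N) := by
      refine Subgroup.mem_map_of_mem _ ?_
      rw [Sylow.coe_subgroup_smul, Cfsg.Agent.H63.Sig.mem_cj]
      have e : h⁻¹ * (h * s * h⁻¹) * h = s := by group
      rwa [e]
    rw [heq] at hmem
    obtain ⟨s', hs', hs'eq⟩ := hmem
    have hn : s'⁻¹ * (h * s * h⁻¹) ∈ N := by
      have := hs'eq
      rw [QuotientGroup.mk'_apply, QuotientGroup.mk'_apply] at this
      exact QuotientGroup.eq.mp this
    have : h * s * h⁻¹ = s' * (s'⁻¹ * (h * s * h⁻¹)) := by group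
    rw [this]
    exact mul_mem (Subgroup.mem_sup_left hs') (Subgroup.mem_sup_right hn)
  obtain ⟨K, hK⟩ : ∃ K : Subgroup H, K = (P : Subgroup H) ⊔ N := ⟨_, rfl⟩
  haveI hKn : K.Normal := by
    constructor
    intro k hk h
    rw [hK] at hk ⊢
    rw [Subgroup.mem_sup_of_normal_right] at hk
    obtain ⟨y, hy, z, hz, rfl⟩ := hk
    have : h * (y * z) * h⁻¹ = (h * y * h⁻¹) * (h * z * h⁻¹) := by group
    rw [this]
    exact mul_mem (hconj h y hy)
      (Subgroup.mem_sup_right ((inferInstance : N.Normal).conj_mem z hz h))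
  have hPK : (P : Subgroup H) ≤ K := hK ▸ le_sup_left
  have hfr := Sylow.normalizer_sup_eq_top (P.subtype hPK)
  rw [Sylow.coe_subtype, Subgroup.map_subgroupOf_eq_of_le hPK] at hfr
  have hm : m ∈ N ⊔ normalizer ((P : Subgroup H) : Set H) := by
    have h3 : normalizer ((P : Subgroup H) : Set H) ⊔ K ≤
        N ⊔ normalizer ((P : Subgroup H) : Set H) := by
      rw [hK]
      refine sup_le le_sup_right (sup_le ?_ le_sup_left)
      exact Subgroup.le_normalizer.trans le_sup_right
    exact h3 (hfr ▸ Subgroup.mem_top m)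
  rw [Subgroup.mem_sup_of_normal_left] at hm
  obtain ⟨a, ha, n, hn, rfl⟩ := hm
  exact ⟨a, ha, n, hn, rfl⟩

variable {G : Type u} [Group G] [Finite G]

theorem alphaFrat (h05 : St1405 G) : StAlphaFrat G := by
  intro M hM q _ S hSq hSM hSidx hSc m hm
  have hD := (h05 M hM).2.2.2.2
  have hS'q : IsPGroup q ↥(S.subgroupOf M) := hSq.comap_subtype
  obtain ⟨P, hP⟩ : ∃ P : Sylow q ↥M, (P : Subgroup ↥M) = S.subgroupOf M :=
    ⟨hS'q.toSylow hSidx, IsPGroup.toSylow_coe _ _⟩
  have hPC : (P : Subgroup ↥M) ≤ commutator ↥M := by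
    rw [hP]
    intro x hx
    have hx' : (x : G) ∈ ⁅M, M⁆ := hSc (Subgroup.mem_subgroupOf.mp hx)
    rw [← Subgroup.map_subtype_commutator] at hx'
    obtain ⟨y, hy, hyx⟩ := hx'
    have : y = x := Subtype.ext hyx
    rwa [← this]
  obtain ⟨a, ha, n, hn, hmn⟩ :=
    frattini_nilpotent_quotient (piCore (alpha M) ↥M) (commutator ↥M) hD P hPC ⟨m, hm⟩
  refine ⟨(a : G), Subgroup.mem_map_of_mem M.subtype ha, (n : G), ⟨n.2, ?_⟩, ?_⟩
  · show (n : G) ∈ normalizer (S : Set G)
    rw [hP] at hn
    rw [Subgroup.mem_normalizer_iff] at hn ⊢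
    intro g
    constructor
    · intro hg
      have := (hn ⟨g, hSM hg⟩).mp (Subgroup.mem_subgroupOf.mpr hg)
      exact Subgroup.mem_subgroupOf.mp this
    · intro hg
      have hgM : g ∈ M := by
        have h1 : (n : G) * g * (n : G)⁻¹ ∈ M := hSM hg
        have : g = (n : G)⁻¹ * ((n : G) * g * (n : G)⁻¹) * (n : G) := by group
        rw [this]
        exact mul_mem (mul_mem (inv_mem n.2) h1) n.2
      have := (hn ⟨g, hgM⟩).mpr (Subgroup.mem_subgroupOf.mpr hg)
      exact Subgroup.mem_subgroupOf.mp this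
  · have := congrArg Subtype.val hmn
    simpa using this

end Cfsg.Agent.H31.BG1216
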