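import Mathlib
import Cfsg.Agent.H47.BG1216Defs2
import Cfsg.Agent.H92.BG12Uniq

set_option autoImplicit false
set_option linter.style.haveILetI false

/-!
# B&G 12.15/12.16, piece SIGDISJ (helper31, for helper47's S1425 project)

If `M*_σ` is nilpotent and `σ(M) ∩ σ(M*) ≠ ∅`, then `M*` is conjugate to `M`.
-/

namespace Cfsg.Agent.H31.BG1216

open Cfsg Subgroup Cfsg.Agent.H58.BG10 Cfsg.Agent.H57.BG12 Cfsg.Agent.H76.BG12
  Cfsg.Agent.H47.BG12 Cfsg.Agent.H63.Sig
open scoped Pointwise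

universe u

variable {G : Type u} [Group G] [Finite G]

theorem sigDisj (_hG : IsMinSimpleOddOrder G) (h50 : St1350 G) : StSigDisj G := by
  intro M Ms hM hMs hNil r hrM hrMs
  have hrp : r.Prime := hrMs.1
  haveI : Fact r.Prime := ⟨hrp⟩
  -- a Sylow `r`-subgroup `T` of `G` inside `Ms`
  obtain ⟨-, -, S_s, hNs⟩ := id hrMs
  obtain ⟨T, hT⟩ := Cfsg.Agent.H31.BG8.sylow_of_normalizer_le S_s hNs
  have hTMs : (T : Subgroup G) ≤ Ms := by
    rw [hT]; exact Subgroup.map_subtype_le _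
  have hTσ : (T : Subgroup G) ≤ sigmaCore Ms :=
    Cfsg.Agent.H92.BG12.le_sigmaCore_of_mem h50 hMs hrMs T.isPGroup' hTMs
  have hMsT : Ms ≤ normalizer ((T : Subgroup G) : Set G) := by
    intro n hn
    apply mem_normalizer_of_cj_eq
    have h1 : ((n • T : Sylow r G) : Subgroup G) ≤ sigmaCore Ms := by
      rw [Sylow.coe_subgroup_smul]
      have hn' : n ∈ normalizer (sigmaCore Ms : Set G) :=
        Cfsg.Agent.Lib.Helper30.le_normalizer_piCoreOf (sigma Ms) Ms hn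
      have := cj_mono n hTσ
      rwa [cj_eq_self_of_mem_normalizer hn'] at this
    have := Cfsg.Agent.H92.BG12.sylow_eq_of_le_nilpotent hNil (n • T) T h1 hTσ
    rwa [Sylow.coe_subgroup_smul] at this
  -- a Sylow `r`-subgroup `T₀` of `G` inside `M` with `N_G(T₀) ≤ M`
  obtain ⟨-, -, S_M, hNM⟩ := id hrM
  obtain ⟨T₀, hT₀⟩ := Cfsg.Agent.H31.BG8.sylow_of_normalizer_le S_M hNM
  have hNT₀ : normalizer ((T₀ : Subgroup G) : Set G) ≤ M := by
    rw [hT₀]; exact hNM
  obtain ⟨x, hx⟩ := MulAction.exists_smul_eq G T₀ T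
  have hx' : (T : Subgroup G) = MulAut.conj x • (T₀ : Subgroup G) := by
    rw [← Sylow.coe_subgroup_smul, hx]
  have hle : Ms ≤ MulAut.conj x • M := by
    refine hMsT.trans ?_
    rw [hx', Cfsg.Agent.H92.BG12.normalizer_cj]
    exact cj_mono x hNT₀
  refine ⟨x, ?_⟩
  by_contra hne
  exact (isCoatom_cj x hM).1 (hMs.2 _ (lt_of_le_of_ne hle hne))

end Cfsg.Agent.H31.BG1216
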