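import Mathlib
import Cfsg.Agent.H57.BG1218Defs
import Cfsg.Agent.H58.BG127Defs
import Cfsg.Agent.H58.BG10FG
import Cfsg.Agent.H57.BG126
import Cfsg.Agent.Lib.Helper30.BG129C

set_option autoImplicit false
set_option linter.style.haveILetI false

/-!
# B&G Lemma 12.18, piece NAB (helper31, for helper57's S1427 project)

`p ∈ τ₂(H)` and the Sylow `p`-subgroups of `G` noncommutative: a cyclic `p`-group `S`
whose subgroup `X` of order `p` has `C_G(X) ≤ H` is `X` itself.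
-/

namespace Cfsg.Agent.H31.BG1218

open Cfsg Subgroup Cfsg.Agent.H58.BG10 Cfsg.Agent.H57.BG1218

universe u

variable {G : Type u} [Group G] [Finite G]

/-- In a cyclic `p`-group `S` strictly containing a subgroup `X` of order `p` there is an
element `y` with `y ^ (p ^ 2) = 1` and `X ≤ ⟨y ^ p⟩`; moreover `S` is commutative. -/
theorem cyclic_aux {p : ℕ} [Fact p.Prime] {S X : Subgroup G} (hSp : IsPGroup p S)
    (hScyc : IsCyclic S) (hXS : X ≤ S) (hXcard : Nat.card X = p) (hne : S ≠ X) :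
    (∀ a ∈ S, ∀ b ∈ S, a * b = b * a) ∧
      ∃ y ∈ S, y ^ (p ^ 2) = 1 ∧ ∀ x ∈ X, x ∈ zpowers (y ^ p) := by
  have hp : p.Prime := Fact.out
  obtain ⟨g, hg⟩ := hScyc.exists_generator
  have hgen : ∀ x ∈ S, ∃ k : ℤ, (g : G) ^ k = x := by
    intro x hx
    obtain ⟨k, hk⟩ := Subgroup.mem_zpowers_iff.mp (hg ⟨x, hx⟩)
    exact ⟨k, by simpa using congrArg Subtype.val hk⟩
  refine ⟨?_, ?_⟩
  · intro a ha b hb
    obtain ⟨i, rfl⟩ := hgen a ha
    obtain ⟨j, rfl⟩ := hgen b hb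
    exact ((Commute.refl (g : G)).zpow_zpow i j).eq
  obtain ⟨n, hn⟩ := IsPGroup.iff_card.mp hSp
  have hord : orderOf (g : G) = p ^ n := by
    rw [Subgroup.orderOf_coe, orderOf_eq_card_of_forall_mem_zpowers hg, hn]
  have hn2 : 2 ≤ n := by
    by_contra hlt
    have hn1 : n ≤ 1 := by omega
    apply hne
    symm
    apply Subgroup.eq_of_le_of_card_ge hXS
    rw [hn, hXcard]
    calc p ^ n ≤ p ^ 1 := Nat.pow_le_pow_right hp.pos hn1
      _ = p := pow_one p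
  refine ⟨(g : G) ^ (p ^ (n - 2)), pow_mem g.2 _, ?_, ?_⟩
  · rw [← pow_mul, ← pow_add, show n - 2 + 2 = n by omega, ← hord, pow_orderOf_eq_one]
  · intro x hx
    obtain ⟨k, rfl⟩ := hgen x (hXS hx)
    have hxp : ((g : G) ^ k) ^ p = 1 := by
      have := pow_card_eq_one' (G := X) (x := ⟨_, hx⟩)
      rw [hXcard] at this
      simpa using congrArg Subtype.val this
    have hdvd : ((p ^ n : ℕ) : ℤ) ∣ k * p := by
      rw [← hord]
      apply orderOf_dvd_iff_zpow_eq_one.mpr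
      rw [zpow_mul, zpow_natCast]
      exact hxp
    obtain ⟨c, hc⟩ := hdvd
    have hk : k = ((p ^ (n - 1) : ℕ) : ℤ) * c := by
      have hp0 : (p : ℤ) ≠ 0 := by exact_mod_cast hp.ne_zero
      have h1 : ((p ^ n : ℕ) : ℤ) = ((p ^ (n - 1) : ℕ) : ℤ) * p := by
        rw [← Nat.cast_mul, ← pow_succ, show n - 1 + 1 = n by omega]
      rw [h1] at hc
      have h2 : k * (p : ℤ) = (((p ^ (n - 1) : ℕ) : ℤ) * c) * p := by rw [hc]; ring
      exact mul_right_cancel₀ hp0 h2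
    rw [Subgroup.mem_zpowers_iff]
    refine ⟨c, ?_⟩
    rw [hk, zpow_mul, zpow_natCast, ← pow_mul, ← pow_succ, show n - 2 + 1 = n - 1 by omega]

theorem case2Nab (_hG : IsMinSimpleOddOrder G) (h1408 : St1408 G) (_h16 : St1416 G)
    (h17 : St1417 G) (hPW : Cfsg.Agent.H58.BG12.StPW G) : StCase2Nab G := by
  intro H hH p _ hτ hnc S X hSp hScyc hXS hXcard hCX
  have hp : p.Prime := Fact.out
  by_contra hne
  obtain ⟨hScomm, y, hyS, hy2, hXy⟩ := cyclic_aux hSp hScyc hXS hXcard hne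
  have hSH : S ≤ H := by
    intro s hs
    apply hCX
    rw [Subgroup.mem_centralizer_iff]
    intro x hx
    exact hScomm x (hXS hx) s hs
  obtain ⟨P_H, hSP⟩ := Cfsg.Agent.H57.BG12.exists_sylow_map_ge hSp hSH
  obtain ⟨-, hσ, h2, h1⟩ := id hτ
  obtain ⟨A, hAP, hAel, hAcard⟩ :=
    Cfsg.Agent.Lib.Helper30.BG12.exists_elem_sq_of_not_pRankLE_one
      (Cfsg.Agent.H58.BG10.not_pRankLE_sylow P_H h1)
  have hAH : A ≤ H := hAP.trans (Subgroup.map_subtype_le _)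
  have hcomm := fun Q : Sylow p H => ((h17 H hH p hτ A ⟨hAH, hAel, hAcard⟩).2.1 Q).1
  have hmax := (h1408 H hH p hσ h2 h1).2 A hAH hAel hAcard
  obtain ⟨P, hP⟩ := (P_H.isPGroup'.map H.subtype).exists_le_sylow
  have hyP_H : y ∈ (P_H : Subgroup H).map H.subtype := hSP hyS
  have hyC : y ∈ centralizer (A : Set G) := by
    rw [Subgroup.mem_centralizer_iff]
    intro a ha
    obtain ⟨a', ha', rfl⟩ := hAP ha
    obtain ⟨y', hy', rfl⟩ := hyP_H
    have := (hcomm P_H).is_comm.comm ⟨a', ha'⟩ ⟨y', hy'⟩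
    have h3 : a' * y' = y' * a' := congrArg Subtype.val this
    exact congrArg Subtype.val h3
  have hcen := hPW p P (hnc P) A (hAP.trans hP) hAel hAcard hmax y (hP hyP_H) hyC hy2
  have hPH : (P : Subgroup G) ≤ H := by
    intro s hs
    apply hCX
    rw [Subgroup.mem_centralizer_iff]
    intro x hx
    obtain ⟨c, rfl⟩ := Subgroup.mem_zpowers_iff.mp (hXy x hx)
    have hc : Commute s (y ^ p) := hcen s hs
    exact (hc.zpow_right c).eq.symm
  obtain ⟨Q, hQ⟩ := (P.isPGroup'.comap_subtype (K := H)).exists_le_sylow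
  apply hnc P
  refine ⟨⟨fun a b => ?_⟩⟩
  have ha : (⟨a, hPH a.2⟩ : H) ∈ (Q : Subgroup H) := hQ (show ((⟨a, hPH a.2⟩ : H) : G) ∈ P from a.2)
  have hb : (⟨b, hPH b.2⟩ : H) ∈ (Q : Subgroup H) := hQ (show ((⟨b, hPH b.2⟩ : H) : G) ∈ P from b.2)
  have := (hcomm Q).is_comm.comm ⟨_, ha⟩ ⟨_, hb⟩
  have h3 : (⟨a, hPH a.2⟩ : H) * ⟨b, hPH b.2⟩ = ⟨b, hPH b.2⟩ * ⟨a, hPH a.2⟩ :=
    congrArg Subtype.val this
  have h4 : (a : G) * b = b * a := congrArg Subtype.val h3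
  exact Subtype.ext h4

end Cfsg.Agent.H31.BG1218
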