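import Mathlib
import Cfsg.Agent.H57.BG1218Defs
import Cfsg.Agent.H58.BG10FG
import Cfsg.Agent.H73.BG129B
import Cfsg.Agent.Lib.Helper30.BG129C
import Cfsg.Agent.H63.Sig

set_option autoImplicit false
set_option linter.style.haveILetI false

/-!
# B&G §12: for `p ∈ τ₂(M)` with commutative Sylow `p`-subgroups in `G`, the Sylow
`p`-subgroup of a complement `E` of `M_σ` is a Sylow `p`-subgroup of `G`, commutative and
normal in `E` (helper31)
-/

namespace Cfsg.Agent.H31.BG12N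

open Cfsg Subgroup Cfsg.Agent.H58.BG10 Cfsg.Agent.H57.BG1218 Cfsg.Agent.H63.Sig
open scoped Pointwise

universe u

variable {G : Type u} [Group G] [Finite G]

/-- The Sylow `p`-subgroups of a complement `E` of `M_σ` are Sylow in `M`, for `p ∉ σ(M)`. -/
theorem sylow_compl_index (h50 : St1350 G) {M E : Subgroup G} (hM : IsCoatom M)
    (hE : IsComplIn E (sigmaCore M) M) {p : ℕ} [Fact p.Prime] (hpσ : p ∉ sigma M)
    (P : Sylow p E) :
    ¬ p ∣ (((P : Subgroup E).map E.subtype).subgroupOf M).index := by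
  have hpp : p.Prime := Fact.out
  obtain ⟨S₁, hS₁⟩ : ∃ S₁ : Subgroup G, S₁ = (P : Subgroup E).map E.subtype := ⟨_, rfl⟩
  rw [← hS₁]
  have hS₁M : S₁ ≤ M := hS₁ ▸ (Subgroup.map_subtype_le _).trans hE.1
  have hcardS : Nat.card S₁ = Nat.card (P : Subgroup E) := by
    rw [hS₁]
    exact Subgroup.card_map_of_injective E.subtype_injective
  have hpMσ : ¬ p ∣ Nat.card (sigmaCore M) := fun h => hpσ ((h50 M hM).1.2.1 p hpp h)
  intro hdvd
  have h1 : Nat.card (S₁.subgroupOf M) * (S₁.subgroupOf M).index = Nat.card M :=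
    Subgroup.card_mul_index _
  have h2 : Nat.card (S₁.subgroupOf M) = Nat.card (P : Subgroup E) := by
    rw [← hcardS]
    exact Nat.card_congr (Subgroup.subgroupOfEquivOfLe hS₁M).toEquiv
  have h3 : Nat.card M = Nat.card E * Nat.card (sigmaCore M) :=
    Cfsg.Agent.H73.BG12.card_mul_card_of_isComplIn hE
  have h4 : Nat.card (P : Subgroup E) * (P : Subgroup E).index = Nat.card E :=
    Subgroup.card_mul_index _
  have h5 : (S₁.subgroupOf M).index = (P : Subgroup E).index * Nat.card (sigmaCore M) := by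
    have hpos : 0 < Nat.card (P : Subgroup E) := Nat.card_pos
    apply Nat.eq_of_mul_eq_mul_left hpos
    rw [← h2, h1, h3, ← h4, h2]
    ring
  rw [h5] at hdvd
  rcases (Nat.Prime.dvd_mul hpp).mp hdvd with h | h
  · exact P.not_dvd_index h
  · exact hpMσ h

/-- B&G 12.8 / 12.10, commutative case: for `p ∈ τ₂(M)` with commutative Sylow `p`-subgroups
in `G`, the Sylow `p`-subgroup of `E` is a Sylow `p`-subgroup of `G`, normal in `E`. -/
theorem tau2_sylow_normal (_hG : IsMinSimpleOddOrder G) (h50 : St1350 G) (h16 : St1416 G)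
    (h18 : St1418 G) (hN : StSylN G) {M E : Subgroup G} (hM : IsCoatom M)
    (hE : IsComplIn E (sigmaCore M) M) {p : ℕ} [Fact p.Prime] (hp : p ∈ tau2 M)
    (hab : ∃ S : Sylow p G, IsMulCommutative (S : Subgroup G)) (P : Sylow p E) :
    (∃ S : Sylow p G, (S : Subgroup G) = (P : Subgroup E).map E.subtype) ∧
      E ≤ normalizer (((P : Subgroup E).map E.subtype : Subgroup G) : Set G) ∧
      IsMulCommutative ((P : Subgroup E).map E.subtype : Subgroup G) := by
  have hpp : p.Prime := Fact.out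
  obtain ⟨-, hpσ, h2, h1⟩ := id hp
  have hidx := sylow_compl_index h50 hM hE hpσ P
  obtain ⟨S₁, hS₁⟩ : ∃ S₁ : Subgroup G, S₁ = (P : Subgroup E).map E.subtype := ⟨_, rfl⟩
  rw [← hS₁] at hidx ⊢
  have hS₁E : S₁ ≤ E := hS₁ ▸ Subgroup.map_subtype_le _
  have hS₁M : S₁ ≤ M := hS₁E.trans hE.1
  have hS₁p : IsPGroup p S₁ := hS₁ ▸ P.isPGroup'.map _
  obtain ⟨P_M, hP_M⟩ : ∃ P_M : Sylow p M, (P_M : Subgroup M) = S₁.subgroupOf M :=
    ⟨(hS₁p.comap_subtype).toSylow hidx, IsPGroup.toSylow_coe _ _⟩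
  have hmap : (P_M : Subgroup M).map M.subtype = S₁ := by
    rw [hP_M]; exact Subgroup.map_subgroupOf_eq_of_le hS₁M
  have hrk := Cfsg.Agent.H58.BG10.not_pRankLE_sylow P_M h1
  rw [hmap] at hrk
  obtain ⟨A, hAS, hAel, hAcard⟩ :=
    Cfsg.Agent.Lib.Helper30.BG12.exists_elem_sq_of_not_pRankLE_one hrk
  have hAE : A ≤ E := hAS.trans hS₁E
  have hAM : A ≤ M := hAS.trans hS₁M
  obtain ⟨S', hS'⟩ := hS₁p.exists_le_sylow
  obtain ⟨S, hScomm⟩ := hab
  obtain ⟨g, hg⟩ := MulAction.exists_smul_eq G S S'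
  have hS'comm : ∀ a ∈ (S' : Subgroup G), ∀ b ∈ (S' : Subgroup G), a * b = b * a := by
    intro a ha b hb
    rw [← hg, Sylow.coe_subgroup_smul, mem_cj] at ha hb
    have h3 := hScomm.is_comm.comm ⟨_, ha⟩ ⟨_, hb⟩
    have h4 : (g⁻¹ * a * g) * (g⁻¹ * b * g) = (g⁻¹ * b * g) * (g⁻¹ * a * g) :=
      congrArg Subtype.val h3
    have e1 : a * b = g * ((g⁻¹ * a * g) * (g⁻¹ * b * g)) * g⁻¹ := by group
    have e2 : b * a = g * ((g⁻¹ * b * g) * (g⁻¹ * a * g)) * g⁻¹ := by group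
    rw [e1, e2, h4]
  have hS'M : (S' : Subgroup G) ≤ M := by
    intro s hs
    apply (h16 M hM p A ⟨hAM, hAel, hAcard⟩).1
    rw [Subgroup.mem_centralizer_iff]
    intro a ha
    exact hS'comm a (hS' (hAS ha)) s hs
  have hS'eq : (S' : Subgroup G) = S₁ := by
    apply le_antisymm _ hS'
    have hle : (P_M : Subgroup M) ≤ (S' : Subgroup G).subgroupOf M := by
      rw [hP_M]
      intro x hx
      exact Subgroup.mem_subgroupOf.mpr (hS' (Subgroup.mem_subgroupOf.mp hx))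
    have h3 : (S' : Subgroup G).subgroupOf M = (P_M : Subgroup M) :=
      P_M.3 (S'.isPGroup'.comap_subtype (K := M)) hle
    intro s hs
    have hs' : (⟨s, hS'M hs⟩ : M) ∈ (S' : Subgroup G).subgroupOf M :=
      Subgroup.mem_subgroupOf.mpr hs
    rw [h3, hP_M] at hs'
    exact Subgroup.mem_subgroupOf.mp hs'
  have hS'c : IsMulCommutative (S' : Subgroup G) :=
    ⟨⟨fun a b => Subtype.ext (hS'comm a a.2 b b.2)⟩⟩
  refine ⟨⟨S', hS'eq⟩, ?_, ?_⟩
  · have hNA := hN M hM p hp A hAM hAel hAcard S' (hAS.trans hS') hS'c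
    have hEA := (h18 M hM E hE p hp A ⟨hAE, hAel, hAcard⟩).1.1
    rw [← hS'eq]
    exact hEA.trans hNA
  · rw [← hS'eq]
    exact hS'c

end Cfsg.Agent.H31.BG12N
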