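import Mathlib
import Cfsg.Agent.Lib.Helper30.BG134Defs
import Cfsg.Agent.H92.BG123
import Cfsg.Agent.H70.BG10D

/-!
# BG134-AB (helper31, piece of helper30's team project S1428)

`L ≠ M` maximal, `q ∈ σ(L) ∖ α(L)`, `S ≤ L` a `q`-subgroup with `N_G(S) ≤ M`: then
`α(L) ⊆ β(L)`.
-/

set_option autoImplicit false

namespace Cfsg.Agent.H31.BG134

open Cfsg Subgroup Cfsg.Agent.H58.BG10 Cfsg.Agent.Lib.Helper30.BG134

universe u

variable {G : Type u} [Group G] [Finite G]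

omit [Finite G] in
theorem pow_card_mem_one [Finite G] {K : Subgroup G} {x : G} (hx : x ∈ K) :
    x ^ Nat.card K = 1 := by
  have h := pow_card_eq_one' (G := K) (x := ⟨x, hx⟩)
  exact congrArg Subtype.val h

/-- an element of order prime to `s` lies in every normal subgroup of `s`-power index -/
theorem mem_of_coprime_index {X : Type*} [Group X] (N : Subgroup X) [N.Normal] {s k n : ℕ}
    (hidx : N.index = s ^ k) {x : X} (hx : x ^ n = 1) (hn : n.Coprime s) : x ∈ N := by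
  have h1 : x ^ N.index ∈ N := Subgroup.pow_index_mem N x
  rw [hidx] at h1
  have hcop : (s ^ k).Coprime (orderOf x) :=
    Nat.Coprime.coprime_dvd_right (orderOf_dvd_of_pow_eq_one hx) (Nat.Coprime.pow_left k hn.symm)
  obtain ⟨m, hm⟩ := exists_pow_eq_self_of_coprime hcop
  rw [← hm]
  exact N.pow_mem h1 m

/-- **BG134-AB.** -/
theorem ab (h50 : St1350 G) (h05 : St1405 G) (h06 : St1406 G) (h14 : St1414 G) : StAB G := by
  intro L M S q hL hM hLM hqσ hqα hSq hSL hNS s hsα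
  by_contra hsβ
  have hq : q.Prime := hqσ.1
  haveI : Fact q.Prime := ⟨hq⟩
  have hs : s.Prime := hsα.1
  haveI : Fact s.Prime := ⟨hs⟩
  have hsq : s ≠ q := fun h => hqα (h ▸ hsα)
  have hsL : s ∣ Nat.card L := by
    obtain ⟨B, hBL, hBc, hBp, hBcard⟩ := Cfsg.Agent.H31.T2.exists_elementary_of_not_pRankLE hsα.2
    have hBs : IsPGroup s B := by
      intro b
      exact ⟨1, Subtype.ext (by rw [pow_one, Subgroup.coe_pow]; exact hBp b b.2)⟩
    obtain ⟨n, hn⟩ := IsPGroup.iff_card.1 hBs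
    have hn0 : n ≠ 0 := by
      rintro rfl
      rw [hn, pow_zero] at hBcard
      have := Nat.one_le_pow 2 s hs.pos
      omega
    have h1 : s ∣ Nat.card B := by rw [hn]; exact dvd_pow_self s hn0
    exact h1.trans (Subgroup.card_dvd_of_le hBL)
  obtain ⟨Ps, N, hNn, hNc⟩ := ((h14 L hL).2.2.2.2 s hs hsL hsβ).2.1
  haveI := hNn
  obtain ⟨k, hk⟩ := IsPGroup.iff_card.1 Ps.isPGroup'
  have hNidx : N.index = s ^ k := by rw [hNc.symm.index_eq_card, hk]
  have hNcard : (Nat.card N).Coprime s := by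
    rw [← hNc.index_eq_card]
    exact Nat.Coprime.symm ((Nat.Prime.coprime_iff_not_dvd hs).mpr Ps.not_dvd_index)
  have hSσ : S ≤ sigmaCore L := Cfsg.Agent.H92.BG12.le_sigmaCore_of_mem h50 hL hqσ hSq hSL
  obtain ⟨K, hKdef⟩ : ∃ K : Subgroup G, K = N.map (sigmaCore L).subtype := ⟨_, rfl⟩
  have hSK : S ≤ K := by
    intro x hx
    obtain ⟨j, hj⟩ := hSq ⟨x, hx⟩
    have hxj : x ^ (q ^ j) = 1 := congrArg Subtype.val hj
    have hmem : (⟨x, hSσ hx⟩ : sigmaCore L) ∈ N := by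
      refine mem_of_coprime_index N hNidx (n := q ^ j) ?_ ?_
      · exact Subtype.ext hxj
      · exact Nat.Coprime.pow_left j ((Nat.coprime_primes hq hs).2 (Ne.symm hsq))
    rw [hKdef]
    exact ⟨⟨x, hSσ hx⟩, hmem, rfl⟩
  have hKcop : (Nat.card K).Coprime s := by
    rw [hKdef, Subgroup.card_map_of_injective (Subgroup.subtype_injective _)]
    exact hNcard
  have hσK : ∀ t ∈ sigmaCore L, ∀ x ∈ K, t * x * t⁻¹ ∈ K := by
    intro t ht x hx
    rw [hKdef] at hx ⊢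
    obtain ⟨n, hn, rfl⟩ := hx
    exact ⟨⟨t, ht⟩ * n * ⟨t, ht⟩⁻¹, hNn.conj_mem n hn ⟨t, ht⟩, by simp⟩
  obtain ⟨hAhall, -, hAσ, -, -⟩ := h05 L hL
  have hAL : alphaCore L ≤ L := hAhall.1
  have hLA : L ≤ normalizer (alphaCore L : Set G) := by
    rw [Subgroup.le_normalizer_iff]
    rintro m hm _ ⟨n, hn, rfl⟩
    exact ⟨⟨m, hm⟩ * n * ⟨m, hm⟩⁻¹,
      (inferInstance : (piCore (alpha L) L).Normal).conj_mem n hn ⟨m, hm⟩, by simp⟩
  have hSA : S ≤ normalizer (alphaCore L : Set G) := hSL.trans hLA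
  have hcop : (Nat.card S).Coprime (Nat.card (alphaCore L)) := by
    obtain ⟨j, hj⟩ := IsPGroup.iff_card.1 hSq
    rw [hj]
    apply Nat.Coprime.pow_left
    rw [Nat.Prime.coprime_iff_not_dvd hq]
    intro h
    exact hqα (hAhall.2.1 q hq h)
  have hSsolv : Group.IsSolvable S := by
    haveI := hSq.isNilpotent
    infer_instance
  obtain ⟨PT, hPT⟩ := Cfsg.Agent.Lib.Helper30.coprime_exists_invariant_sylow S (alphaCore L)
    hSA hcop (Or.inl hSsolv) s
  obtain ⟨T, hTdef⟩ : ∃ T : Subgroup G,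
      T = (PT : Subgroup (alphaCore L)).map (alphaCore L).subtype := ⟨_, rfl⟩
  rw [← hTdef] at hPT
  have hTA : T ≤ alphaCore L := by rw [hTdef]; exact Subgroup.map_subtype_le _
  have hTs : IsPGroup s T := by rw [hTdef]; exact PT.isPGroup'.map _
  have hTS : T ≤ centralizer (S : Set G) := by
    intro t ht
    rw [Subgroup.mem_centralizer_iff]
    intro x hx
    have hxN := hPT hx
    have h1 : x * t⁻¹ * x⁻¹ ∈ T := (Subgroup.mem_normalizer_iff.1 hxN t⁻¹).1 (T.inv_mem ht)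
    have hcT : t * x * t⁻¹ * x⁻¹ ∈ T := by
      have h2 : t * x * t⁻¹ * x⁻¹ = t * (x * t⁻¹ * x⁻¹) := by group
      rw [h2]
      exact T.mul_mem ht h1
    have hcK : t * x * t⁻¹ * x⁻¹ ∈ K :=
      K.mul_mem (hσK t (hAσ (hTA ht)) x (hSK hx)) (K.inv_mem (hSK hx))
    have hc1 : t * x * t⁻¹ * x⁻¹ = 1 := by
      obtain ⟨j, hj⟩ := hTs ⟨_, hcT⟩
      have h2 : (t * x * t⁻¹ * x⁻¹) ^ (s ^ j) = 1 := congrArg Subtype.val hj
      have h3 : (t * x * t⁻¹ * x⁻¹) ^ Nat.card K = 1 := pow_card_mem_one hcK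
      have h4 : orderOf (t * x * t⁻¹ * x⁻¹) ∣ Nat.gcd (s ^ j) (Nat.card K) :=
        Nat.dvd_gcd (orderOf_dvd_of_pow_eq_one h2) (orderOf_dvd_of_pow_eq_one h3)
      have h5 : Nat.gcd (s ^ j) (Nat.card K) = 1 := Nat.Coprime.pow_left j hKcop.symm
      rw [h5] at h4
      exact orderOf_eq_one_iff.1 (Nat.dvd_one.1 h4)
    calc x * t = (t * x * t⁻¹ * x⁻¹)⁻¹ * (t * x) := by group
      _ = t * x := by rw [hc1, inv_one, one_mul]
  have hidx : ¬ s ∣ (alphaCore L).relIndex L := hAhall.2.2 s hs hsα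
  have hrkT : ¬ PRankLE s 2 ↥T := by
    rw [hTdef]
    exact Cfsg.Agent.H70.BG10.not_pRankLE_sylow_of_hall hAL hidx PT 2 hsα.2
  have hTle : T ≤ alphaCore L ⊓ centralizer (S : Set G) := le_inf hTA hTS
  have hrk : ¬ RankLE 1 ↥(alphaCore L ⊓ centralizer (S : Set G)) := by
    intro h
    obtain ⟨B, hBT, hBc, hBp, hBcard⟩ := Cfsg.Agent.H31.T2.exists_elementary_of_not_pRankLE hrkT
    have hBel : IsElementaryAbelian s B :=
      ⟨⟨⟨fun a b => Subtype.ext (hBc a a.2 b b.2)⟩⟩, hBp⟩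
    have hlt : s ^ 1 < Nat.card B :=
      lt_of_le_of_lt (Nat.pow_le_pow_right hs.pos (by norm_num)) hBcard
    exact Cfsg.Agent.H31.BG8.not_pRankLE_of_le (hBT.trans hTle) hBel hlt (h s hs)
  have hSα : ∀ p : ℕ, p.Prime → p ∣ Nat.card S → p ∉ alpha L := by
    intro p hp hpS
    obtain ⟨j, hj⟩ := IsPGroup.iff_card.1 hSq
    rw [hj] at hpS
    have hpq : p = q := (Nat.prime_dvd_prime_iff_eq hp hq).1 (hp.dvd_of_dvd_pow hpS)
    rw [hpq]
    exact hqα
  obtain ⟨M₀, -, hM₀⟩ := h06 L hL S hSL hSα hrk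
  have h1 : L = M₀ := hM₀ L ⟨hL, inf_le_left⟩
  have h2 : M = M₀ :=
    hM₀ M ⟨hM, inf_le_right.trans ((Subgroup.centralizer_le_normalizer _).trans hNS)⟩
  exact hLM (h1.trans h2.symm)

example (h50 : St1350 G) (h05 : St1405 G) (h06 : St1406 G) (h14 : St1414 G) :
    Cfsg.Agent.Lib.Helper30.BG134.StAB G := ab h50 h05 h06 h14

end Cfsg.Agent.H31.BG134
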