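import Mathlib
import Cfsg.Agent.H58.BG10Defs3
import Cfsg.Agent.H57.BG129Defs
import Cfsg.Agent.H58.BG127Defs
import Cfsg.Agent.H76.BG131
import Cfsg.Agent.H31.BG12Tau2N
import Cfsg.Agent.Helper55.PRankOne
import Cfsg.Agent.H57.BG126

set_option autoImplicit false
set_option linter.style.haveILetI false

/-!
# B&G Theorem A, parts (c), (d): the complement `U` of a `σ`-decomposition `M = K U M_σ`
(helper31; S1359, S1361)

Every element of prime order `r` of `U` with a nontrivial fixed point on `M_σ` has `r ∈ τ₂(M)`;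
if the Sylow `r`-subgroups of `G` are commutative the Sylow `r`-subgroup of `UK` is normal and
commutative, otherwise `τ₂(M) = {r}` and the element generates `A₀ = C_A(M_σ)`.
-/

namespace Cfsg.Agent.H31.BG14U

open Cfsg Subgroup Cfsg.Agent.H58.BG10 Cfsg.Agent.H57.BG1218 Cfsg.Agent.H63.Sig
open scoped Pointwise

universe u

variable {G : Type u} [Group G] [Finite G]

/-- If every Sylow subgroup of `X` lies in `D`, then `X ≤ D`. -/
theorem le_of_sylow_le {X D : Subgroup G}
    (h : ∀ (s : ℕ) [Fact s.Prime] (Q : Sylow s X), (Q : Subgroup X).map X.subtype ≤ D) :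
    X ≤ D := by
  have htop : D.subgroupOf X = ⊤ := by
    rw [← Subgroup.index_eq_one]
    by_contra hne
    obtain ⟨s, hs, hdvd⟩ := Nat.exists_prime_and_dvd hne
    haveI : Fact s.Prime := ⟨hs⟩
    obtain ⟨Q⟩ : Nonempty (Sylow s X) := inferInstance
    have hQ : (Q : Subgroup X) ≤ D.subgroupOf X := by
      intro x hx
      exact Subgroup.mem_subgroupOf.mpr (h s Q ⟨x, hx, rfl⟩)
    exact Q.not_dvd_index (hdvd.trans (Subgroup.index_dvd_of_le hQ))
  intro x hx
  have : (⟨x, hx⟩ : X) ∈ D.subgroupOf X := htop ▸ Subgroup.mem_top _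
  exact Subgroup.mem_subgroupOf.mp this

/-- An element of `s`-power order normalizing a Sylow `s`-subgroup lies in it. -/
theorem mem_sylow_of_mem_normalizer {s : ℕ} [Fact s.Prime] (S : Sylow s G) {z : G}
    (hz : z ∈ normalizer ((S : Subgroup G) : Set G)) (hzs : IsPGroup s (zpowers z)) :
    z ∈ (S : Subgroup G) := by
  have h1 : IsPGroup s ((zpowers z ⊔ (S : Subgroup G) : Subgroup G)) :=
    IsPGroup.to_sup_of_normal_right' hzs S.isPGroup' (zpowers_le.mpr hz)
  have h2 := S.3 h1 le_sup_right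
  have : z ∈ zpowers z ⊔ (S : Subgroup G) := Subgroup.mem_sup_left (Subgroup.mem_zpowers z)
  rwa [h2] at this

/-- In a finite cyclic group, an element `b` with `b ^ r = 1` is a power of any element of
prime order `r`. -/
theorem mem_zpowers_of_pow_eq_one_of_cyclic {C : Type*} [Group C] [Finite C] [IsCyclic C]
    {r : ℕ} (hr : r.Prime) {a b : C} (ha : orderOf a = r) (hb : b ^ r = 1) : b ∈ zpowers a := by
  classical
  haveI := Fintype.ofFinite C
  have hle : (Finset.univ.filter fun c : C => c ^ r = 1).card ≤ r :=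
    IsCyclic.card_pow_eq_one_le hr.pos
  have hsub : (zpowers a : Set C) ⊆ {c : C | c ^ r = 1} := by
    intro c hc
    obtain ⟨k, rfl⟩ := Subgroup.mem_zpowers_iff.mp hc
    show (a ^ k) ^ r = 1
    rw [← zpow_natCast, ← zpow_mul, mul_comm, zpow_mul, zpow_natCast, ← ha, pow_orderOf_eq_one,
      one_zpow]
  have hcard1 : (zpowers a : Set C).ncard = r := by
    rw [← Nat.card_coe_set_eq]
    exact (Nat.card_zpowers a).trans ha
  have hcard2 : ({c : C | c ^ r = 1} : Set C).ncard ≤ r := by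
    rw [Set.ncard_eq_toFinset_card']
    simpa using hle
  have heq := Set.eq_of_subset_of_ncard_le hsub (by rw [hcard1]; exact hcard2)
  have : b ∈ ({c : C | c ^ r = 1} : Set C) := hb
  rw [← heq] at this
  exact this

section Decomp

variable {M K U : Subgroup G}

/-- The primes of `U` lie outside `σ(M) ∪ κ(M)`. -/
theorem prime_of_U (h50 : St1350 G) (hM : IsCoatom M) (hKU : IsSigmaDecomposition M K U)
    {r : ℕ} (hr : r.Prime) (hrU : r ∣ Nat.card U) :
    r ∉ sigma M ∧ r ∉ kappa M ∧ r ∣ Nat.card M := by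
  have hσM : sigmaCore M ≤ M := Cfsg.Agent.Lib.Helper30.piCoreOf_le (sigma M) M
  have hKσM : K ⊔ sigmaCore M ≤ M := sup_le hKU.hall.1 hσM
  have hcard : Nat.card U = (K ⊔ sigmaCore M).relIndex M :=
    Cfsg.Agent.H73.BG12.card_eq_relIndex_of_isComplIn hKU.compl
  refine ⟨fun hσ => ?_, fun hκ => ?_, hrU.trans (Subgroup.card_dvd_of_le hKU.compl.1)⟩
  · refine (h50 M hM).1.2.2 r hr hσ ?_
    rw [← Subgroup.relIndex_mul_relIndex _ _ _ (le_sup_right : sigmaCore M ≤ K ⊔ sigmaCore M) hKσM,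
      ← hcard]
    exact Dvd.dvd.mul_left hrU _
  · refine hKU.hall.2.2 r hr hκ ?_
    rw [← Subgroup.relIndex_mul_relIndex _ _ _ (le_sup_left : K ≤ K ⊔ sigmaCore M) hKσM, ← hcard]
    exact Dvd.dvd.mul_left hrU _

/-- `U K` is a complement of `M_σ` in `M`. -/
theorem compl_UK (h50 : St1350 G) (hM : IsCoatom M) (hKU : IsSigmaDecomposition M K U) :
    IsComplIn (U ⊔ K) (sigmaCore M) M := by
  have hσM : sigmaCore M ≤ M := Cfsg.Agent.Lib.Helper30.piCoreOf_le (sigma M) M
  have hUM := hKU.compl.1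
  have hKM := hKU.hall.1
  have hKσ : K ≤ normalizer (sigmaCore M : Set G) :=
    hKM.trans (Cfsg.Agent.Lib.Helper30.le_normalizer_piCoreOf (sigma M) M)
  refine ⟨sup_le hUM hKM, hσM, ?_, ?_⟩
  · rw [eq_bot_iff]
    rintro x ⟨hx1, hx2⟩
    have hx1' : x ∈ ((U ⊔ K : Subgroup G) : Set G) := hx1
    rw [Subgroup.coe_mul_of_right_le_normalizer_left U K hKU.normal] at hx1'
    obtain ⟨a, ha, k, hk, hak⟩ := hx1'
    have hak' : a * k = x := hak
    have ha' : a ∈ K ⊔ sigmaCore M := by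
      have e : a = x * k⁻¹ := by rw [← hak']; group
      rw [e]
      exact mul_mem (Subgroup.mem_sup_right hx2) (Subgroup.mem_sup_left (inv_mem hk))
    have ha1 : a = 1 := by
      have : a ∈ U ⊓ (K ⊔ sigmaCore M) := ⟨ha, ha'⟩
      rw [hKU.compl.2.2.1] at this
      exact Subgroup.mem_bot.mp this
    rw [ha1, one_mul] at hak'
    subst hak'
    rw [Subgroup.mem_bot]
    by_contra hk1
    have ho : orderOf k ≠ 1 := fun h => hk1 (orderOf_eq_one_iff.mp h)
    obtain ⟨r, hr, hrk⟩ := Nat.exists_prime_and_dvd ho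
    have h1 : r ∣ Nat.card K := by
      have := orderOf_dvd_natCard (⟨k, hk⟩ : K)
      rw [Subgroup.orderOf_mk] at this
      exact hrk.trans this
    have h2 : r ∣ Nat.card (sigmaCore M) := by
      have := orderOf_dvd_natCard (⟨k, hx2⟩ : sigmaCore M)
      rw [Subgroup.orderOf_mk] at this
      exact hrk.trans this
    exact (hKU.hall.2.1 r hr h1).2.2.1 ((h50 M hM).1.2.1 r hr h2)
  · intro m hm
    obtain ⟨a, ha, b, hb, rfl⟩ := hKU.compl.2.2.2 m hm
    have hb' : b ∈ ((K ⊔ sigmaCore M : Subgroup G) : Set G) := hb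
    rw [Subgroup.coe_mul_of_left_le_normalizer_right K (sigmaCore M) hKσ] at hb'
    obtain ⟨k, hk, s, hs, hks⟩ := hb'
    have hks' : k * s = b := hks
    exact ⟨a * k, mul_mem (Subgroup.mem_sup_left ha) (Subgroup.mem_sup_right hk), s, hs,
      by rw [← hks']; group⟩

end Decomp

/-- A prime `r ∉ σ(M) ∪ κ(M)` such that some element of order `r` of `M` centralizes a
nonidentity element of `M_σ` lies in `τ₂(M)`. -/
theorem tau2_of_fix (hG : IsMinSimpleOddOrder G) (h03 : St1403 G)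
    (h29 : Cfsg.Agent.H76.BG13.St1429 G) {M : Subgroup G} (hM : IsCoatom M)
    {r : ℕ} [Fact r.Prime] (hσ : r ∉ sigma M) (hκ : r ∉ kappa M) {x : G} (hxM : x ∈ M)
    (hxo : orderOf x = r) {y : G} (hy : y ∈ sigmaCore M) (hy1 : y ≠ 1) (hxy : x * y = y * x) :
    r ∈ tau2 M := by
  have hr : r.Prime := Fact.out
  have hrM : r ∣ Nat.card M := by
    have := orderOf_dvd_natCard (⟨x, hxM⟩ : M)
    rwa [Subgroup.orderOf_mk, hxo] at this
  have hr2 : r ≠ 2 := by
    rintro rfl
    have h2 : 2 ∣ Nat.card G := hrM.trans (Subgroup.card_subgroup_dvd_card M)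
    exact (Nat.not_even_iff_odd.2 hG.1) (even_iff_two_dvd.2 h2)
  have hxp : IsPGroup r (zpowers (⟨x, hxM⟩ : M)) := by
    apply IsPGroup.of_card (n := 1)
    rw [Nat.card_zpowers, Subgroup.orderOf_mk, hxo, pow_one]
  obtain ⟨S, hS⟩ := hxp.exists_le_sylow
  have hxS : (⟨x, hxM⟩ : M) ∈ (S : Subgroup M) := hS (Subgroup.mem_zpowers _)
  obtain ⟨-, hcent, -⟩ := h29 M hM r hrM (by
    rintro (h | h)
    · exact hσ h
    · exact hκ h) S
  refine ⟨hr, hσ, ?_, ?_⟩
  · by_contra h
    exact hσ (Cfsg.Agent.H58.BG10.alpha_subset_sigma hG h03 hM ⟨hr, h⟩)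
  · intro h1
    have hrk : PRankLE r 1 ↥(S : Subgroup M) := Cfsg.Agent.H76.BG10.pRankLE_subgroup _ h1
    haveI : IsCyclic ↥(S : Subgroup M) :=
      Cfsg.Agent.Helper55.isCyclic_of_pRankLE_one hr2 S.isPGroup' hrk
    have hyc : y ∈ sigmaCore M ⊓ centralizer
        ((closure {z : G | z ∈ (S : Subgroup M).map M.subtype ∧ z ^ r = 1} : Subgroup G) :
          Set G) := by
      refine ⟨hy, Subgroup.mem_centralizer_iff.mpr ?_⟩
      have hle : closure {z : G | z ∈ (S : Subgroup M).map M.subtype ∧ z ^ r = 1} ≤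
          zpowers x := by
        rw [Subgroup.closure_le]
        rintro z ⟨⟨z', hz', rfl⟩, hzr⟩
        have ha : orderOf (⟨⟨x, hxM⟩, hxS⟩ : ↥(S : Subgroup M)) = r := by
          rw [Subgroup.orderOf_mk, Subgroup.orderOf_mk, hxo]
        have hb : (⟨z', hz'⟩ : ↥(S : Subgroup M)) ^ r = 1 := by
          apply Subtype.ext
          apply Subtype.ext
          simpa using hzr
        obtain ⟨k, hk⟩ := Subgroup.mem_zpowers_iff.mp
          (mem_zpowers_of_pow_eq_one_of_cyclic hr ha hb)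
        refine Subgroup.mem_zpowers_iff.mpr ⟨k, ?_⟩
        have := congrArg (fun w : ↥(S : Subgroup M) => ((w : M) : G)) hk
        simpa using this
      intro z hz
      obtain ⟨k, rfl⟩ := Subgroup.mem_zpowers_iff.mp (hle hz)
      exact ((Commute.zpow_left (show Commute x y from hxy) k).eq)
    rw [hcent] at hyc
    exact hy1 (Subgroup.mem_bot.mp hyc)

/-- A Sylow `p`-subgroup of a complement `E` of `M_σ`, for `p ∈ τ₂(M)`, is commutative and
contains an elementary abelian subgroup of order `p ^ 2`. -/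
theorem sylow_compl_facts (h50 : St1350 G) (h17 : St1417 G) {M E : Subgroup G} (hM : IsCoatom M)
    (hE : IsComplIn E (sigmaCore M) M) {p : ℕ} [Fact p.Prime] (hp : p ∈ tau2 M)
    (P : Sylow p E) :
    (∀ a ∈ (P : Subgroup E).map E.subtype, ∀ b ∈ (P : Subgroup E).map E.subtype, a * b = b * a) ∧
      ∃ A : Subgroup G, A ≤ (P : Subgroup E).map E.subtype ∧ IsElementaryAbelian p A ∧
        Nat.card A = p ^ 2 := by
  obtain ⟨-, hpσ, h2, h1⟩ := id hp
  have hidx := Cfsg.Agent.H31.BG12N.sylow_compl_index h50 hM hE hpσ P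
  obtain ⟨S₁, hS₁⟩ : ∃ S₁ : Subgroup G, S₁ = (P : Subgroup E).map E.subtype := ⟨_, rfl⟩
  rw [← hS₁] at hidx ⊢
  have hS₁E : S₁ ≤ E := hS₁ ▸ Subgroup.map_subtype_le _
  have hS₁M : S₁ ≤ M := hS₁E.trans hE.1
  have hS₁p : IsPGroup p S₁ := hS₁ ▸ P.isPGroup'.map _
  obtain ⟨P_M, hP_M⟩ : ∃ P_M : Sylow p M, (P_M : Subgroup M) = S₁.subgroupOf M :=
    ⟨(hS₁p.comap_subtype).toSylow hidx, IsPGroup.toSylow_coe _ _⟩
  have hmap : (P_M : Subgroup M).map M.subtype = S₁ := by
    rw [hP_M]; exact Subgroup.map_subgroupOf_eq_of_le hS₁M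
  have hrk := Cfsg.Agent.H58.BG10.not_pRankLE_sylow P_M h1
  rw [hmap] at hrk
  obtain ⟨A, hAS, hAel, hAcard⟩ :=
    Cfsg.Agent.Lib.Helper30.BG12.exists_elem_sq_of_not_pRankLE_one hrk
  have hcomm := ((h17 M hM p hp A ⟨hAS.trans hS₁M, hAel, hAcard⟩).2.1 P_M).1
  refine ⟨?_, A, hAS, hAel, hAcard⟩
  intro a ha b hb
  have ha' : (⟨a, hS₁M ha⟩ : M) ∈ (P_M : Subgroup M) := by
    rw [hP_M]; exact Subgroup.mem_subgroupOf.mpr ha
  have hb' : (⟨b, hS₁M hb⟩ : M) ∈ (P_M : Subgroup M) := by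
    rw [hP_M]; exact Subgroup.mem_subgroupOf.mpr hb
  have h3 := hcomm.is_comm.comm ⟨_, ha'⟩ ⟨_, hb'⟩
  have h4 : (⟨a, hS₁M ha⟩ : M) * ⟨b, hS₁M hb⟩ = ⟨b, hS₁M hb⟩ * ⟨a, hS₁M ha⟩ :=
    congrArg Subtype.val h3
  exact congrArg Subtype.val h4

/-- Two elements of prime power order of `E`, for primes of `τ₂(M)` with commutative Sylow
subgroups in `G`, commute. -/
theorem comm_of_tau2_elts (hG : IsMinSimpleOddOrder G) (h50 : St1350 G) (h16 : St1416 G)
    (h18 : St1418 G) (hN : StSylN G) {M E : Subgroup G} (hM : IsCoatom M)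
    (hE : IsComplIn E (sigmaCore M) M) {s t : ℕ} [Fact s.Prime] [Fact t.Prime]
    (hs : s ∈ tau2 M) (ht : t ∈ tau2 M)
    (habs : ∃ S : Sylow s G, IsMulCommutative (S : Subgroup G))
    (habt : ∃ S : Sylow t G, IsMulCommutative (S : Subgroup G))
    {z z' : G} (hz : z ∈ E) (hz' : z' ∈ E) (hzs : IsPGroup s (zpowers z))
    (hzt : IsPGroup t (zpowers z')) : z * z' = z' * z := by
  obtain ⟨P⟩ : Nonempty (Sylow s E) := inferInstance
  obtain ⟨⟨S, hS⟩, hEN, hcomm⟩ :=
    Cfsg.Agent.H31.BG12N.tau2_sylow_normal hG h50 h16 h18 hN hM hE hs habs P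
  have hzS : z ∈ (S : Subgroup G) :=
    mem_sylow_of_mem_normalizer S (hS ▸ hEN hz) hzs
  by_cases hst : s = t
  · subst hst
    have hz'S : z' ∈ (S : Subgroup G) :=
      mem_sylow_of_mem_normalizer S (hS ▸ hEN hz') hzt
    rw [hS] at hzS hz'S
    have h3 := hcomm.is_comm.comm ⟨_, hzS⟩ ⟨_, hz'S⟩
    exact congrArg Subtype.val h3
  · obtain ⟨P'⟩ : Nonempty (Sylow t E) := inferInstance
    obtain ⟨⟨S', hS'⟩, hEN', -⟩ :=
      Cfsg.Agent.H31.BG12N.tau2_sylow_normal hG h50 h16 h18 hN hM hE ht habt P'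
    have hz'S : z' ∈ (S' : Subgroup G) :=
      mem_sylow_of_mem_normalizer S' (hS' ▸ hEN' hz') hzt
    have hdisj : Disjoint (S : Subgroup G) (S' : Subgroup G) :=
      IsPGroup.disjoint_of_ne s t hst _ _ S.isPGroup' S'.isPGroup'
    have hnz' : z' ∈ normalizer ((S : Subgroup G) : Set G) := hS ▸ hEN hz'
    have hnz : z ∈ normalizer ((S' : Subgroup G) : Set G) := hS' ▸ hEN' hz
    have h1 : z * z' * z⁻¹ * z'⁻¹ ∈ (S : Subgroup G) := by
      have h2 : z' * z⁻¹ * z'⁻¹ ∈ (S : Subgroup G) :=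
        (Subgroup.mem_normalizer_iff.mp hnz' _).mp (inv_mem hzS)
      have e : z * z' * z⁻¹ * z'⁻¹ = z * (z' * z⁻¹ * z'⁻¹) := by group
      rw [e]
      exact mul_mem hzS h2
    have h2 : z * z' * z⁻¹ * z'⁻¹ ∈ (S' : Subgroup G) := by
      have h3 : z * z' * z⁻¹ ∈ (S' : Subgroup G) :=
        (Subgroup.mem_normalizer_iff.mp hnz _).mp hz'S
      exact mul_mem h3 (inv_mem hz'S)
    have h3 : z * z' * z⁻¹ * z'⁻¹ = 1 := by
      have := Subgroup.disjoint_def.mp hdisj h1 h2
      exact this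
    have e : z * z' = (z * z' * z⁻¹ * z'⁻¹) * (z' * z) := by group
    rw [e, h3, one_mul]

/-- Noncommutative case: an `s`-element `u ≠ 1` of `E` with a nontrivial fixed point on `M_σ`
lies in `A₀ = A ∩ C(M_σ)`. -/
theorem mem_A0_of_fix (_hG : IsMinSimpleOddOrder G) (h08 : St1408 G) (h50 : St1350 G)
    (h17 : St1417 G) (h18 : St1418 G) (h19 : Cfsg.Agent.H58.BG12.St1419 G)
    (h20 : Cfsg.Agent.H57.BG12.St1420 G) (hPW : Cfsg.Agent.H58.BG12.StPW G)
    {M E : Subgroup G} (hM : IsCoatom M) (hE : IsComplIn E (sigmaCore M) M)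
    {s : ℕ} [Fact s.Prime] (hs : s ∈ tau2 M)
    (hS : ∀ S : Sylow s G, ¬ IsMulCommutative (S : Subgroup G))
    {A : Subgroup G} (hAE : A ≤ E) (hAel : IsElementaryAbelian s A) (hAcard : Nat.card A = s ^ 2)
    {u : G} (huE : u ∈ E) (hu1 : u ≠ 1) (hus : IsPGroup s (zpowers u))
    {y : G} (hy : y ∈ sigmaCore M) (hy1 : y ≠ 1) (huy : u * y = y * u) :
    u ∈ A ⊓ centralizer (sigmaCore M : Set G) := by
  have hsp : s.Prime := Fact.out
  have hEM : E ≤ M := hE.1
  obtain ⟨-, hσ, h2, h1⟩ := id hs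
  obtain ⟨k, hk⟩ := IsPGroup.iff_card.mp hus
  have ho : orderOf u = s ^ k := by rw [← Nat.card_zpowers]; exact hk
  have hk0 : k ≠ 0 := by
    rintro rfl
    rw [pow_zero] at ho
    exact hu1 (orderOf_eq_one_iff.mp ho)
  obtain ⟨u₁, hu₁⟩ : ∃ u₁ : G, u₁ = u ^ (s ^ (k - 1)) := ⟨_, rfl⟩
  have hu₁s : u₁ ^ s = 1 := by
    rw [hu₁, ← pow_mul, ← pow_succ, show k - 1 + 1 = k by omega, ← ho, pow_orderOf_eq_one]
  have hu₁1 : u₁ ≠ 1 := by
    intro h
    rw [hu₁] at h
    have hd := orderOf_dvd_of_pow_eq_one h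
    rw [ho] at hd
    have hle := Nat.le_of_dvd (pow_pos hsp.pos _) hd
    have hlt : s ^ (k - 1) < s ^ k := Nat.pow_lt_pow_right hsp.one_lt (by omega)
    omega
  have hu₁o : orderOf u₁ = s := orderOf_eq_prime hu₁s hu₁1
  have hu₁E : u₁ ∈ E := hu₁ ▸ pow_mem huE _
  have hu₁y : u₁ * y = y * u₁ := by
    rw [hu₁]
    exact ((show Commute u y from huy).pow_left _).eq
  have hX₁card : Nat.card (zpowers u₁) = s := by rw [Nat.card_zpowers, hu₁o]
  have hX₁ : zpowers u₁ = A ⊓ centralizer (sigmaCore M : Set G) := by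
    by_contra hne
    have h3 := ((h19 M hM E hE s hs hS A ⟨hAE, hAel, hAcard⟩).2.2 (zpowers u₁)
      (zpowers_le.mpr hu₁E) hX₁card hne).1
    have hyc : y ∈ sigmaCore M ⊓ centralizer ((zpowers u₁ : Subgroup G) : Set G) := by
      refine ⟨hy, Subgroup.mem_centralizer_iff.mpr ?_⟩
      intro z hz
      obtain ⟨j, rfl⟩ := Subgroup.mem_zpowers_iff.mp hz
      exact ((show Commute u₁ y from hu₁y).zpow_left j).eq
    rw [h3] at hyc
    exact hy1 (Subgroup.mem_bot.mp hyc)
  by_cases hk1 : k = 1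
  · have : u₁ = u := by rw [hu₁, hk1]; simp
    rw [← this, ← hX₁]
    exact Subgroup.mem_zpowers u₁
  exfalso
  have hk2 : 2 ≤ k := by omega
  obtain ⟨w, hw⟩ : ∃ w : G, w = u ^ (s ^ (k - 2)) := ⟨_, rfl⟩
  have hws : w ^ s = u₁ := by
    rw [hw, hu₁, ← pow_mul, ← pow_succ, show k - 2 + 1 = k - 1 by omega]
  have hw2 : w ^ (s ^ 2) = 1 := by
    rw [hw, ← pow_mul, ← pow_add, show k - 2 + 2 = k by omega, ← ho, pow_orderOf_eq_one]
  have hwu : w ∈ zpowers u := hw ▸ pow_mem (Subgroup.mem_zpowers u) _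
  have hwE : w ∈ E := hw ▸ pow_mem huE _
  have hwp : IsPGroup s (zpowers w) := hus.to_le (zpowers_le.mpr hwu)
  obtain ⟨P', hwP'⟩ := Cfsg.Agent.H57.BG12.exists_sylow_map_ge hwp (zpowers_le.mpr hwE)
  obtain ⟨hP'comm, A', hA'P', hA'el, hA'card⟩ := sylow_compl_facts h50 h17 hM hE hs P'
  have hP'E : (P' : Subgroup E).map E.subtype ≤ E := Subgroup.map_subtype_le _
  have hA'A : A' ≤ A := by
    intro a ha
    by_cases ha1 : a = 1
    · rw [ha1]; exact one_mem _
    · have hao : orderOf a = s := orderOf_eq_prime (hA'el.2 a ha) ha1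
      have hcard : Nat.card (zpowers a) = s := by rw [Nat.card_zpowers, hao]
      exact (h18 M hM E hE s hs A ⟨hAE, hAel, hAcard⟩).1.2 (zpowers a)
        (zpowers_le.mpr (hP'E (hA'P' ha))) hcard (Subgroup.mem_zpowers a)
  have hAA' : A' = A := Subgroup.eq_of_le_of_card_ge hA'A (by rw [hAcard, hA'card])
  have hAP' : A ≤ (P' : Subgroup E).map E.subtype := hAA' ▸ hA'P'
  have hwP : w ∈ (P' : Subgroup E).map E.subtype := hwP' (Subgroup.mem_zpowers w)
  have hwC : w ∈ centralizer (A : Set G) :=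
    Subgroup.mem_centralizer_iff.mpr (fun a ha => hP'comm a (hAP' ha) w hwP)
  obtain ⟨S', hS'⟩ := (P'.isPGroup'.map E.subtype).exists_le_sylow
  have hmax := (h08 M hM s hσ h2 h1).2 A (hAE.trans hEM) hAel hAcard
  have hcen := hPW s S' (hS S') A (hAP'.trans hS') hAel hAcard hmax w (hS' hwP) hwC hw2
  have hu₁M : u₁ ∈ M := hEM hu₁E
  have hcM := ((h20 M hM E hE).2.2.2 u₁ hu₁M hu₁1 (by
    intro p hp hpd
    rw [hu₁o] at hpd
    rw [(Nat.prime_dvd_prime_iff_eq hp hsp).mp hpd]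
    exact hs) ⟨hu₁M, y, hy, hy1, hu₁y⟩).1
  have hS'M : (S' : Subgroup G) ≤ M := by
    intro t ht
    apply hcM
    rw [Subgroup.mem_centralizer_iff]
    intro h hh
    rw [Set.mem_singleton_iff] at hh
    rw [hh, ← hws]
    exact (hcen t ht).symm
  obtain ⟨Q, hQ⟩ := (S'.isPGroup'.comap_subtype (K := M)).exists_le_sylow
  have hQc := ((h17 M hM s hs A ⟨hAE.trans hEM, hAel, hAcard⟩).2.1 Q).1
  apply hS S'
  refine ⟨⟨fun a b => ?_⟩⟩
  have ha : (⟨a, hS'M a.2⟩ : M) ∈ (Q : Subgroup M) :=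
    hQ (show ((⟨a, hS'M a.2⟩ : M) : G) ∈ S' from a.2)
  have hb : (⟨b, hS'M b.2⟩ : M) ∈ (Q : Subgroup M) :=
    hQ (show ((⟨b, hS'M b.2⟩ : M) : G) ∈ S' from b.2)
  have h3 := hQc.is_comm.comm ⟨_, ha⟩ ⟨_, hb⟩
  have h4 : (⟨a, hS'M a.2⟩ : M) * ⟨b, hS'M b.2⟩ = ⟨b, hS'M b.2⟩ * ⟨a, hS'M a.2⟩ :=
    congrArg Subtype.val h3
  have h5 : (a : G) * b = b * a := congrArg Subtype.val h4
  exact Subtype.ext h5

/-- The landed §10–§13 results used below. -/
structure Hyps (G : Type u) [Group G] : Prop where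
  h03 : St1403 G
  h08 : St1408 G
  h50 : St1350 G
  h16 : St1416 G
  h17 : St1417 G
  h18 : St1418 G
  h19 : Cfsg.Agent.H58.BG12.St1419 G
  h20 : Cfsg.Agent.H57.BG12.St1420 G
  h29 : Cfsg.Agent.H76.BG13.St1429 G
  hN : StSylN G
  hPW : Cfsg.Agent.H58.BG12.StPW G

section Main

variable {M K U : Subgroup G}

/-- An element of prime order `r` of `U` with a nontrivial fixed point on `M_σ` has
`r ∈ τ₂(M)`. -/
theorem tau2_of_U_fix (hG : IsMinSimpleOddOrder G) (H : Hyps G) (hM : IsCoatom M)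
    (hKU : IsSigmaDecomposition M K U) {x : G} (hxU : x ∈ U) {r : ℕ} [Fact r.Prime]
    (hxo : orderOf x = r) {y : G} (hy : y ∈ sigmaCore M) (hy1 : y ≠ 1) (hxy : x * y = y * x) :
    r ∈ tau2 M := by
  have hr : r.Prime := Fact.out
  have hrU : r ∣ Nat.card U := by
    have := orderOf_dvd_natCard (⟨x, hxU⟩ : U)
    rwa [Subgroup.orderOf_mk, hxo] at this
  obtain ⟨hσ, hκ, -⟩ := prime_of_U H.h50 hM hKU hr hrU
  exact tau2_of_fix hG H.h03 H.h29 hM hσ hκ (hKU.compl.1 hxU) hxo hy hy1 hxy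

/-- Every prime dividing the order of an element of `U` with a nontrivial fixed point on `M_σ`
lies in `τ₂(M)`. -/
theorem tau2_of_dvd_orderOf (hG : IsMinSimpleOddOrder G) (H : Hyps G) (hM : IsCoatom M)
    (hKU : IsSigmaDecomposition M K U) {u : G} (huU : u ∈ U) {y : G} (hy : y ∈ sigmaCore M)
    (hy1 : y ≠ 1) (huy : u * y = y * u) {s : ℕ} (hs : s.Prime) (hsd : s ∣ orderOf u) :
    s ∈ tau2 M := by
  haveI : Fact s.Prime := ⟨hs⟩
  have ho : orderOf (u ^ (orderOf u / s)) = s :=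
    orderOf_pow_orderOf_div (orderOf_pos u).ne' hsd
  exact tau2_of_U_fix hG H hM hKU (pow_mem huU _) ho hy hy1
    ((show Commute u y from huy).pow_left _).eq

/-- B&G Theorem A (c) (S1361). -/
theorem centralizer_uniq (hG : IsMinSimpleOddOrder G) (H : Hyps G) (hM : IsCoatom M)
    (hKU : IsSigmaDecomposition M K U) {X : Subgroup G} (hXU : X ≤ U) (hX : X ≠ ⊥)
    (hXc : sigmaCore M ⊓ centralizer (X : Set G) ≠ ⊥) :
    centralizer (X : Set G) ≤ M ∧
      ∀ L : Subgroup G, IsCoatom L → centralizer (X : Set G) ≤ L → L = M := by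
  have hE := compl_UK H.h50 hM hKU
  obtain ⟨E, hEdef⟩ : ∃ E : Subgroup G, E = U ⊔ K := ⟨_, rfl⟩
  rw [← hEdef] at hE
  have hUE : U ≤ E := hEdef ▸ le_sup_left
  have hUM := hKU.compl.1
  obtain ⟨⟨y, hyσ, hyC⟩, hy1'⟩ := (Subgroup.ne_bot_iff_exists_ne_one).mp hXc
  have hy1 : y ≠ 1 := fun h => hy1' (Subtype.ext h)
  have hyX : ∀ x ∈ X, x * y = y * x := Subgroup.mem_centralizer_iff.mp hyC
  have hτ : ∀ s : ℕ, s.Prime → s ∣ Nat.card X → s ∈ tau2 M := by
    intro s hs hsd
    haveI : Fact s.Prime := ⟨hs⟩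
    obtain ⟨x, hx⟩ := exists_prime_orderOf_dvd_card' s hsd
    exact tau2_of_U_fix hG H hM hKU (hXU x.2) (by rw [Subgroup.orderOf_coe]; exact hx) hyσ hy1
      (hyX x x.2)
  have hcardX : Nat.card X ≠ 1 := fun h => hX (Subgroup.card_eq_one.mp h)
  obtain ⟨r, hr, hrd⟩ := Nat.exists_prime_and_dvd hcardX
  haveI : Fact r.Prime := ⟨hr⟩
  obtain ⟨x, hx⟩ := exists_prime_orderOf_dvd_card' r hrd
  have hxo : orderOf (x : G) = r := by rw [Subgroup.orderOf_coe]; exact hx
  have hrτ := hτ r hr hrd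
  have hx1 : (x : G) ≠ 1 := by
    intro h
    rw [h, orderOf_one] at hxo
    exact hr.one_lt.ne hxo
  have hCM : centralizer (X : Set G) ≤ M := by
    have h1 := ((H.h20 M hM E hE).2.2.2 (x : G) (hUM (hXU x.2)) hx1 (by
      intro p hp hpd
      rw [hxo] at hpd
      rw [(Nat.prime_dvd_prime_iff_eq hp hr).mp hpd]
      exact hrτ) ⟨hUM (hXU x.2), y, hyσ, hy1, hyX x x.2⟩).1
    exact (Subgroup.centralizer_le (Set.singleton_subset_iff.mpr x.2)).trans h1
  refine ⟨hCM, ?_⟩
  have hA : ∃ A : Subgroup G, A ≤ M ∧ IsElementaryAbelian r A ∧ Nat.card A = r ^ 2 ∧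
      A ≤ centralizer (X : Set G) := by
    by_cases hall : ∀ s : ℕ, s.Prime → s ∣ Nat.card X →
        ∃ S : Sylow s G, IsMulCommutative (S : Subgroup G)
    · obtain ⟨P⟩ : Nonempty (Sylow r E) := inferInstance
      obtain ⟨-, A, hAP, hAel, hAcard⟩ := sylow_compl_facts H.h50 H.h17 hM hE hrτ P
      have hAE : A ≤ E := hAP.trans (Subgroup.map_subtype_le _)
      refine ⟨A, hAE.trans hE.1, hAel, hAcard, ?_⟩
      have hXA : X ≤ centralizer (A : Set G) := by
        apply le_of_sylow_le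
        intro s _ Q z hz
        obtain ⟨z', hz', rfl⟩ := hz
        by_cases hsd : s ∣ Nat.card X
        · have hsτ := hτ s Fact.out hsd
          rw [Subgroup.mem_centralizer_iff]
          intro a ha
          have hzs : IsPGroup s (zpowers ((z' : X) : G)) :=
            (Q.isPGroup'.map X.subtype).to_le (zpowers_le.mpr ⟨z', hz', rfl⟩)
          have has : IsPGroup r (zpowers a) :=
            (IsPGroup.of_card hAcard).to_le (zpowers_le.mpr ha)
          exact comm_of_tau2_elts hG H.h50 H.h16 H.h18 H.hN hM hE hrτ hsτ (hall r hr hrd)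
            (hall s Fact.out hsd) (hAE ha) (hUE (hXU z'.2)) has hzs
        · have hQ : (Q : Subgroup X) = ⊥ := by
            rcases Q.isPGroup'.card_eq_or_dvd with h | h
            · exact Subgroup.card_eq_one.mp h
            · exact absurd (h.trans (Subgroup.card_subgroup_dvd_card _)) hsd
          have hz'' : z' ∈ (Q : Subgroup X) := hz'
          rw [hQ, Subgroup.mem_bot] at hz''
          rw [hz'']
          exact one_mem _
      intro a ha
      rw [Subgroup.mem_centralizer_iff]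
      intro x' hx'
      exact ((Subgroup.mem_centralizer_iff.mp (hXA hx')) a ha).symm
    · push Not at hall
      obtain ⟨s, hs, hsd, hnc⟩ := hall
      haveI : Fact s.Prime := ⟨hs⟩
      have hsτ := hτ s hs hsd
      obtain ⟨P₀⟩ : Nonempty (Sylow s E) := inferInstance
      obtain ⟨-, A₀, hA₀P, hA₀el, hA₀card⟩ := sylow_compl_facts H.h50 H.h17 hM hE hsτ P₀
      have hτeq := (H.h19 M hM E hE s hsτ hnc A₀
        ⟨hA₀P.trans (Subgroup.map_subtype_le _), hA₀el, hA₀card⟩).1
      have hXs : IsPGroup s X := by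
        have h1 : ∀ {d : ℕ}, d.Prime → d ∣ Nat.card X → d = s := by
          intro d hd hdd
          have := hτ d hd hdd
          rw [hτeq] at this
          exact this
        exact IsPGroup.of_card (Nat.eq_prime_pow_of_unique_prime_dvd Nat.card_pos.ne' h1)
      have hrs : r = s := by
        have := hrτ
        rw [hτeq] at this
        exact this
      obtain ⟨P', hXP'⟩ := Cfsg.Agent.H57.BG12.exists_sylow_map_ge hXs (hXU.trans hUE)
      obtain ⟨hcomm, A, hAP, hAel, hAcard⟩ := sylow_compl_facts H.h50 H.h17 hM hE hsτ P'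
      refine ⟨A, (hAP.trans (Subgroup.map_subtype_le _)).trans hE.1, hrs ▸ hAel,
        hrs ▸ hAcard, ?_⟩
      intro a ha
      rw [Subgroup.mem_centralizer_iff]
      intro x' hx'
      exact hcomm x' (hXP' hx') a (hAP ha)
  obtain ⟨A, hAM, hAel, hAcard, hAC⟩ := hA
  intro L hL hCL
  by_contra hne
  have h1 := (H.h17 M hM r hrτ A ⟨hAM, hAel, hAcard⟩).2.2.2.2.1 L hL hne (hAC.trans hCL)
  have h2 : y ∈ sigmaCore M ⊓ L := ⟨hyσ, hCL hyC⟩
  rw [h1] at h2
  exact hy1 (Subgroup.mem_bot.mp h2)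

/-- B&G Theorem A (d) (S1359). -/
theorem closure_comm (hG : IsMinSimpleOddOrder G) (H : Hyps G) (hM : IsCoatom M)
    (hKU : IsSigmaDecomposition M K U) :
    IsMulCommutative (closure ((U : Set G) ∩ sigmaHat M)) := by
  have hE := compl_UK H.h50 hM hKU
  obtain ⟨E, hEdef⟩ : ∃ E : Subgroup G, E = U ⊔ K := ⟨_, rfl⟩
  rw [← hEdef] at hE
  have hUE : U ≤ E := hEdef ▸ le_sup_left
  have key : ∀ u ∈ (U : Set G) ∩ sigmaHat M, ∀ v ∈ (U : Set G) ∩ sigmaHat M,
      u * v = v * u := by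
    rintro u ⟨huU, -, y, hy, hy1, huy⟩ v ⟨hvU, -, y', hy', hy'1, hvy⟩
    have hτu : ∀ s : ℕ, s.Prime → s ∣ orderOf u → s ∈ tau2 M := fun s hs hsd =>
      tau2_of_dvd_orderOf hG H hM hKU huU hy hy1 huy hs hsd
    have hτv : ∀ s : ℕ, s.Prime → s ∣ orderOf v → s ∈ tau2 M := fun s hs hsd =>
      tau2_of_dvd_orderOf hG H hM hKU hvU hy' hy'1 hvy hs hsd
    by_cases hall : (∀ s : ℕ, s.Prime → s ∣ orderOf u →
          ∃ S : Sylow s G, IsMulCommutative (S : Subgroup G)) ∧
        (∀ s : ℕ, s.Prime → s ∣ orderOf v → ∃ S : Sylow s G, IsMulCommutative (S : Subgroup G))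
    · obtain ⟨hu_all, hv_all⟩ := hall
      have h1 : zpowers u ≤ centralizer ((zpowers v : Subgroup G) : Set G) := by
        apply le_of_sylow_le
        intro s _ Q z hz
        obtain ⟨z', hz', rfl⟩ := hz
        by_cases hsd : s ∣ orderOf u
        · have hzs : IsPGroup s (zpowers ((z' : zpowers u) : G)) :=
            (Q.isPGroup'.map (zpowers u).subtype).to_le (zpowers_le.mpr ⟨z', hz', rfl⟩)
          have hzE : ((z' : zpowers u) : G) ∈ E := hUE ((zpowers_le.mpr huU) z'.2)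
          have h2 : zpowers v ≤ centralizer ({((z' : zpowers u) : G)} : Set G) := by
            apply le_of_sylow_le
            intro t _ Q' w hw
            obtain ⟨w', hw', rfl⟩ := hw
            by_cases htd : t ∣ orderOf v
            · have hwt : IsPGroup t (zpowers ((w' : zpowers v) : G)) :=
                (Q'.isPGroup'.map (zpowers v).subtype).to_le (zpowers_le.mpr ⟨w', hw', rfl⟩)
              have hwE : ((w' : zpowers v) : G) ∈ E := hUE ((zpowers_le.mpr hvU) w'.2)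
              rw [Subgroup.mem_centralizer_iff]
              intro h hh
              rw [Set.mem_singleton_iff] at hh
              rw [hh]
              exact comm_of_tau2_elts hG H.h50 H.h16 H.h18 H.hN hM hE
                (hτu s Fact.out hsd) (hτv t Fact.out htd) (hu_all s Fact.out hsd)
                (hv_all t Fact.out htd) hzE hwE hzs hwt
            · have hQ : (Q' : Subgroup (zpowers v)) = ⊥ := by
                rcases Q'.isPGroup'.card_eq_or_dvd with h | h
                · exact Subgroup.card_eq_one.mp h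
                · have h3 := h.trans (Subgroup.card_subgroup_dvd_card _)
                  rw [Nat.card_zpowers] at h3
                  exact absurd h3 htd
              have hw'' : w' ∈ (Q' : Subgroup (zpowers v)) := hw'
              rw [hQ, Subgroup.mem_bot] at hw''
              rw [hw'']
              exact one_mem _
          rw [Subgroup.mem_centralizer_iff]
          intro w hw
          exact (Subgroup.mem_centralizer_iff.mp (h2 hw) _ rfl).symm
        · have hQ : (Q : Subgroup (zpowers u)) = ⊥ := by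
            rcases Q.isPGroup'.card_eq_or_dvd with h | h
            · exact Subgroup.card_eq_one.mp h
            · have h3 := h.trans (Subgroup.card_subgroup_dvd_card _)
              rw [Nat.card_zpowers] at h3
              exact absurd h3 hsd
          have hz'' : z' ∈ (Q : Subgroup (zpowers u)) := hz'
          rw [hQ, Subgroup.mem_bot] at hz''
          rw [hz'']
          exact one_mem _
      exact (Subgroup.mem_centralizer_iff.mp (h1 (Subgroup.mem_zpowers u)) v
        (Subgroup.mem_zpowers v)).symm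
    · have hex : ∃ s : ℕ, s.Prime ∧ s ∈ tau2 M ∧
          ∀ S : Sylow s G, ¬ IsMulCommutative (S : Subgroup G) := by
        rw [not_and_or] at hall
        rcases hall with h | h
        · push Not at h
          obtain ⟨s, hs, hsd, hnc⟩ := h
          exact ⟨s, hs, hτu s hs hsd, hnc⟩
        · push Not at h
          obtain ⟨s, hs, hsd, hnc⟩ := h
          exact ⟨s, hs, hτv s hs hsd, hnc⟩
      obtain ⟨s, hs, hsτ, hnc⟩ := hex
      haveI : Fact s.Prime := ⟨hs⟩
      obtain ⟨P₀⟩ : Nonempty (Sylow s E) := inferInstance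
      obtain ⟨-, A, hAP, hAel, hAcard⟩ := sylow_compl_facts H.h50 H.h17 hM hE hsτ P₀
      have hAE : A ≤ E := hAP.trans (Subgroup.map_subtype_le _)
      have hτeq := (H.h19 M hM E hE s hsτ hnc A ⟨hAE, hAel, hAcard⟩).1
      have hmem : ∀ w : G, w ∈ U → (∀ d : ℕ, d.Prime → d ∣ orderOf w → d ∈ tau2 M) →
          ∀ z : G, z ∈ sigmaCore M → z ≠ 1 → w * z = z * w → w ∈ A := by
        intro w hwU hτw z hz hz1 hwz
        by_cases hw1 : w = 1
        · rw [hw1]; exact one_mem _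
        · have hws : IsPGroup s (zpowers w) := by
            have h1 : ∀ {d : ℕ}, d.Prime → d ∣ orderOf w → d = s := by
              intro d hd hdd
              have := hτw d hd hdd
              rw [hτeq] at this
              exact this
            have h2 := Nat.eq_prime_pow_of_unique_prime_dvd (orderOf_pos w).ne' h1
            apply IsPGroup.of_card (n := (orderOf w).primeFactorsList.length)
            rw [Nat.card_zpowers]
            exact h2
          exact (mem_A0_of_fix hG H.h08 H.h50 H.h17 H.h18 H.h19 H.h20 H.hPW hM hE hsτ hnc hAE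
            hAel hAcard (hUE hwU) hw1 hws hz hz1 hwz).1
      have huA := hmem u huU hτu y hy hy1 huy
      have hvA := hmem v hvU hτv y' hy' hy'1 hvy
      have h3 := hAel.1.is_comm.comm ⟨u, huA⟩ ⟨v, hvA⟩
      exact congrArg Subtype.val h3
  refine ⟨⟨fun a b => ?_⟩⟩
  have h1 : closure ((U : Set G) ∩ sigmaHat M) ≤
      centralizer ((U : Set G) ∩ sigmaHat M) := by
    rw [Subgroup.closure_le]
    intro u hu
    exact Subgroup.mem_centralizer_iff.mpr (fun v hv => key v hv u hu)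
  have h2 : closure ((U : Set G) ∩ sigmaHat M) ≤ centralizer ({(b : G)} : Set G) := by
    rw [Subgroup.closure_le]
    intro u hu
    refine Subgroup.mem_centralizer_iff.mpr (fun h hh => ?_)
    rw [Set.mem_singleton_iff] at hh
    rw [hh]
    exact (Subgroup.mem_centralizer_iff.mp (h1 b.2) u hu).symm
  have h3 := Subgroup.mem_centralizer_iff.mp (h2 a.2) (b : G) rfl
  exact Subtype.ext h3.symm

end Main

end Cfsg.Agent.H31.BG14U
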