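import Mathlib
import Cfsg.Agent.H31.BG14U
import Cfsg.Agent.H92.BG123
import Cfsg.Agent.H58.Sig2
import Cfsg.Agent.H51.BG10E

set_option autoImplicit false
set_option linter.style.haveILetI false

/-!
# B&G Theorem B: `A(M) ∖ M_σ` is a TI-subset of `G` (helper31; S1362)
-/

namespace Cfsg.Agent.H31.BG14U

open Cfsg Subgroup Cfsg.Agent.H58.BG10 Cfsg.Agent.H57.BG1218 Cfsg.Agent.H63.Sig
open scoped Pointwise

universe u

variable {G : Type u} [Group G] [Finite G] {M K U : Subgroup G}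

/-- `U M_σ` is normal in `M`. -/
theorem le_normalizer_U_sup (hKU : IsSigmaDecomposition M K U) :
    M ≤ normalizer ((U ⊔ sigmaCore M : Subgroup G) : Set G) := by
  have hMσ : M ≤ normalizer (sigmaCore M : Set G) :=
    Cfsg.Agent.Lib.Helper30.le_normalizer_piCoreOf (sigma M) M
  have hσM : sigmaCore M ≤ M := Cfsg.Agent.Lib.Helper30.piCoreOf_le (sigma M) M
  have hU : U ≤ normalizer ((U ⊔ sigmaCore M : Subgroup G) : Set G) :=
    le_sup_left.trans Subgroup.le_normalizer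
  have hσ : sigmaCore M ≤ normalizer ((U ⊔ sigmaCore M : Subgroup G) : Set G) :=
    le_sup_right.trans Subgroup.le_normalizer
  have hK : K ≤ normalizer ((U ⊔ sigmaCore M : Subgroup G) : Set G) := by
    intro k hk
    apply mem_normalizer_of_cj_eq
    rw [Subgroup.smul_sup, cj_eq_self_of_mem_normalizer (hKU.normal hk),
      cj_eq_self_of_mem_normalizer (hMσ (hKU.hall.1 hk))]
  intro m hm
  obtain ⟨a, ha, b, hb, rfl⟩ := hKU.compl.2.2.2 m hm
  exact mul_mem (hU ha) ((sup_le hK hσ) hb)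

/-- B&G Theorem B (S1362): `A(M) ∖ M_σ` is a TI-subset of `G`. -/
theorem sigmaA_ti (hG : IsMinSimpleOddOrder G) (H : Hyps G) (hM : IsCoatom M)
    (hKU : IsSigmaDecomposition M K U) :
    IsTISubset (sigmaA M U \ (sigmaCore M : Set G)) := by
  have hMσ : M ≤ normalizer (sigmaCore M : Set G) :=
    Cfsg.Agent.Lib.Helper30.le_normalizer_piCoreOf (sigma M) M
  have hσM : sigmaCore M ≤ M := Cfsg.Agent.Lib.Helper30.piCoreOf_le (sigma M) M
  have hE := compl_UK H.h50 hM hKU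
  have hUM := hKU.compl.1
  have hMUσ := le_normalizer_U_sup hKU
  -- `M` normalizes the set
  have hinv : ∀ m ∈ M, ∀ n ∈ sigmaA M U \ (sigmaCore M : Set G),
      m * n * m⁻¹ ∈ sigmaA M U \ (sigmaCore M : Set G) := by
    rintro m hm n ⟨⟨⟨hnM, y, hy, hy1, hny⟩, hnU⟩, hnσ⟩
    refine ⟨⟨⟨mul_mem (mul_mem hm hnM) (inv_mem hm), m * y * m⁻¹, ?_, ?_, ?_⟩, ?_⟩, ?_⟩
    · exact (Subgroup.mem_normalizer_iff.mp (hMσ hm) y).mp hy
    · intro h
      apply hy1
      have e : y = m⁻¹ * (m * y * m⁻¹) * m := by group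
      rw [e, h]
      group
    · have e1 : m * n * m⁻¹ * (m * y * m⁻¹) = m * (n * y) * m⁻¹ := by group
      have e2 : m * y * m⁻¹ * (m * n * m⁻¹) = m * (y * n) * m⁻¹ := by group
      rw [e1, e2, hny]
    · exact (Subgroup.mem_normalizer_iff.mp (hMUσ hm) n).mp hnU
    · intro h
      apply hnσ
      have h2 := (Subgroup.mem_normalizer_iff.mp (hMσ hm) n).mpr h
      exact h2
  have hMN : M ≤ normalizer (sigmaA M U \ (sigmaCore M : Set G)) := by
    intro m hm
    rw [Subgroup.mem_set_normalizer_iff]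
    intro n
    constructor
    · exact hinv m hm n
    · intro h
      have := hinv m⁻¹ (inv_mem hm) _ h
      have e : m⁻¹ * (m * n * m⁻¹) * m⁻¹⁻¹ = n := by group
      rwa [e] at this
  intro g hg x hx hgx
  exfalso
  apply hg
  apply hMN
  obtain ⟨⟨⟨hxM, y, hy, hy1, hxy⟩, hxU⟩, hxσ⟩ := hx
  obtain ⟨⟨⟨hx₂M, y₂, hy₂, hy₂1, hx₂y₂⟩, -⟩, -⟩ := hgx
  -- a prime `r ∉ σ(M)` dividing the order of `x`
  have hex : ∃ r : ℕ, r.Prime ∧ r ∣ orderOf x ∧ r ∉ sigma M := by
    by_contra hcon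
    push Not at hcon
    apply hxσ
    have hle : zpowers x ≤ sigmaCore M := by
      apply le_of_sylow_le
      intro s _ Q
      by_cases hsd : s ∣ orderOf x
      · exact Cfsg.Agent.H92.BG12.le_sigmaCore_of_mem H.h50 hM (hcon s Fact.out hsd)
          (Q.isPGroup'.map _) ((Subgroup.map_subtype_le _).trans (zpowers_le.mpr hxM))
      · have hQ : (Q : Subgroup (zpowers x)) = ⊥ := by
          rcases Q.isPGroup'.card_eq_or_dvd with h | h
          · exact Subgroup.card_eq_one.mp h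
          · have h3 := h.trans (Subgroup.card_subgroup_dvd_card _)
            rw [Nat.card_zpowers] at h3
            exact absurd h3 hsd
        rw [hQ, Subgroup.map_bot]
        exact bot_le
    exact hle (Subgroup.mem_zpowers x)
  obtain ⟨r, hr, hrd, hrσ⟩ := hex
  haveI : Fact r.Prime := ⟨hr⟩
  obtain ⟨z, hz⟩ : ∃ z : G, z = x ^ (orderOf x / r) := ⟨_, rfl⟩
  have hzo : orderOf z = r := by
    rw [hz]; exact orderOf_pow_orderOf_div (orderOf_pos x).ne' hrd
  have hz1 : z ≠ 1 := by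
    intro h
    rw [h, orderOf_one] at hzo
    exact hr.one_lt.ne hzo
  have hzM : z ∈ M := hz ▸ pow_mem hxM _
  have hzy : z * y = y * z := by
    rw [hz]; exact ((show Commute x y from hxy).pow_left _).eq
  have hrU : r ∣ Nat.card U := by
    have hzU : z ∈ sigmaCore M ⊔ U := by
      rw [sup_comm, hz]; exact pow_mem hxU _
    have h1 := orderOf_dvd_natCard (⟨z, hzU⟩ : ↥(sigmaCore M ⊔ U))
    rw [Subgroup.orderOf_mk, hzo] at h1
    have h2 := h1.trans (Cfsg.Agent.H58.card_sup_dvd (hUM.trans hMσ))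
    rcases (Nat.Prime.dvd_mul hr).mp h2 with h | h
    · exact absurd ((H.h50 M hM).1.2.1 r hr h) hrσ
    · exact h
  obtain ⟨-, hrκ, -⟩ := prime_of_U H.h50 hM hKU hr hrU
  have hrτ : r ∈ tau2 M := tau2_of_fix hG H.h03 H.h29 hM hrσ hrκ hzM hzo hy hy1 hzy
  have hprimes : ∀ w : G, orderOf w = r → ∀ p : ℕ, p.Prime → p ∣ orderOf w → p ∈ tau2 M := by
    intro w hw p hp hpd
    rw [hw] at hpd
    rw [(Nat.prime_dvd_prime_iff_eq hp hr).mp hpd]
    exact hrτ
  have hcz := ((H.h20 M hM _ hE).2.2.2 z hzM hz1 (hprimes z hzo) ⟨hzM, y, hy, hy1, hzy⟩).1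
  -- the conjugate
  obtain ⟨z₂, hz₂⟩ : ∃ z₂ : G, z₂ = g * z * g⁻¹ := ⟨_, rfl⟩
  have hz₂' : z₂ = (g * x * g⁻¹) ^ (orderOf x / r) := by
    rw [hz₂, hz, conj_pow]
  have hz₂1 : z₂ ≠ 1 := by
    intro h
    apply hz1
    have e : z = g⁻¹ * (g * z * g⁻¹) * g := by group
    rw [e, ← hz₂, h]
    group
  have hz₂r : z₂ ^ r = 1 := by
    rw [hz₂, conj_pow, ← hzo, pow_orderOf_eq_one]
    group
  have hz₂o : orderOf z₂ = r := orderOf_eq_prime hz₂r hz₂1
  have hz₂M : z₂ ∈ M := hz₂' ▸ pow_mem hx₂M _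
  have hz₂y : z₂ * y₂ = y₂ * z₂ := by
    rw [hz₂']; exact ((show Commute (g * x * g⁻¹) y₂ from hx₂y₂).pow_left _).eq
  have huniq := ((H.h20 M hM _ hE).2.2.2 z₂ hz₂M hz₂1 (hprimes z₂ hz₂o)
    ⟨hz₂M, y₂, hy₂, hy₂1, hz₂y⟩).2
  have hcj : MulAut.conj g • M = M := by
    apply huniq _ (isCoatom_cj g hM)
    intro c hc
    rw [mem_cj]
    apply hcz
    rw [Subgroup.mem_centralizer_iff] at hc ⊢
    intro h hh
    rw [Set.mem_singleton_iff] at hh
    have h1 := hc z₂ rfl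
    rw [hz₂] at h1
    rw [hh]
    have e1 : z * (g⁻¹ * c * g) = g⁻¹ * (g * z * g⁻¹ * c) * g := by group
    have e2 : g⁻¹ * c * g * z = g⁻¹ * (c * (g * z * g⁻¹)) * g := by group
    rw [e1, e2, h1]
  have hgN : g ∈ normalizer (M : Set G) := mem_normalizer_of_cj_eq hcj
  have hM1 : M ≠ ⊥ := by
    intro h
    rw [h, Subgroup.mem_bot] at hzM
    exact hz1 hzM
  have hNM : normalizer (M : Set G) = M := by
    by_contra hne
    have hlt : M < normalizer (M : Set G) :=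
      lt_of_le_of_ne Subgroup.le_normalizer (Ne.symm hne)
    exact Cfsg.Agent.H51.BG10.normalizer_ne_top_of_ne hG hM1 hM.1 (hM.2 _ hlt)
  rw [hNM] at hgN
  exact hgN

end Cfsg.Agent.H31.BG14U
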