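import Mathlib
import Cfsg.Agent.H31.BG14U
import Cfsg.Agent.H58.BG10All2
import Cfsg.Agent.H63.BG125Main
import Cfsg.Agent.H58.BG127All
import Cfsg.Agent.H57.BG129Main
import Cfsg.Agent.H92.BG1218SylN
import Cfsg.Agent.H3.BG127PW

set_option autoImplicit false

/-!
# The landed §10–§13 results, bundled for `Cfsg.Agent.H31.BG14U` (helper31)
-/

namespace Cfsg.Agent.H31.BG14U

open Cfsg Subgroup Cfsg.Agent.H58.BG10

universe u

variable {G : Type u} [Group G] [Finite G]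

theorem hyps (hG : IsMinSimpleOddOrder G) : Hyps G where
  h03 := st1403 hG
  h08 := st1408 hG
  h50 := st1350 hG
  h16 := Cfsg.Agent.H63.BG11.st1416 hG
  h17 := Cfsg.Agent.H63.BG11.st1417 hG
  h18 := Cfsg.Agent.H57.BG12.st1418_of hG (Cfsg.Agent.H63.BG11.st1416 hG)
    (Cfsg.Agent.H63.BG11.st1417 hG)
  h19 := Cfsg.Agent.H58.BG12.st1419_of hG (Cfsg.Agent.H63.BG11.st1416 hG)
    (Cfsg.Agent.H63.BG11.st1417 hG)
  h20 := Cfsg.Agent.H57.BG12.st1420_of hG (Cfsg.Agent.H63.BG11.st1416 hG)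
    (Cfsg.Agent.H63.BG11.st1417 hG)
  h29 := Cfsg.Agent.H76.BG13.bg131 hG (st1403 hG) (Cfsg.Agent.H63.BG11.st1417 hG)
  hN := Cfsg.Agent.H92.BG1218.sylN hG (st1403 hG) (st1350 hG) (st1411 hG)
    (Cfsg.Agent.H63.BG11.st1416 hG) (Cfsg.Agent.H63.BG11.st1417 hG)
  hPW := Cfsg.Agent.H3.BG12.pw hG (st1412 hG)

end Cfsg.Agent.H31.BG14U
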