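import Mathlib
import Cfsg.Agent.H31.BG9c
import Cfsg.Agent.H31.BG95Defs

set_option autoImplicit false
set_option linter.unusedSectionVars false

/-!
# B&G Lemma 9.5, CASE II, piece P1: the subgroup `W` of a big maximal subgroup (helper31)
-/

namespace Cfsg.Agent.H31.BG9

open Cfsg Subgroup Cfsg.Agent.Lib.Helper30 Cfsg.Agent.H31.X.H37.Bender Cfsg.Agent.H58
  Cfsg.Agent.H31.T2 Cfsg.Agent.H31.BG8

open scoped commutatorElement

universe u

section Abstract

variable {T : Type*} [Group T]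

/-- `y ^ n * x = c ^ n * x * y ^ n` when `y * x = c * x * y` and `c` commutes with `y`. -/
theorem pow_mul_comm_of_central {x y c : T} (hc : y * x = c * x * y)
    (hcy : Commute c y) (n : ℕ) : y ^ n * x = c ^ n * x * y ^ n := by
  induction n with
  | zero => simp
  | succ n ih =>
    have h1 : Commute y (c ^ n) := (hcy.symm).pow_right n
    calc y ^ (n + 1) * x = y * (y ^ n * x) := by rw [pow_succ', mul_assoc]
      _ = y * (c ^ n * x * y ^ n) := by rw [ih]
      _ = (y * c ^ n) * x * y ^ n := by simp only [mul_assoc]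
      _ = (c ^ n * y) * x * y ^ n := by rw [h1.eq]
      _ = c ^ n * (y * x) * y ^ n := by simp only [mul_assoc]
      _ = c ^ n * (c * x * y) * y ^ n := by rw [hc]
      _ = c ^ (n + 1) * x * y ^ (n + 1) := by
          rw [pow_succ, pow_succ']; simp only [mul_assoc]

/-- The power formula in class 2. -/
theorem mul_pow_of_central {x y c : T} (hc : y * x = c * x * y) (hcx : Commute c x)
    (hcy : Commute c y) (n : ℕ) :
    (x * y) ^ n = c ^ (∑ i ∈ Finset.range n, i) * x ^ n * y ^ n := by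
  induction n with
  | zero => simp
  | succ n ih =>
    have h1 := pow_mul_comm_of_central hc hcy n
    have h2 : Commute (x ^ n) (c ^ n) := ((hcx.symm).pow_left n).pow_right n
    calc (x * y) ^ (n + 1) = (x * y) ^ n * (x * y) := pow_succ _ _
      _ = c ^ (∑ i ∈ Finset.range n, i) * x ^ n * y ^ n * (x * y) := by rw [ih]
      _ = c ^ (∑ i ∈ Finset.range n, i) * x ^ n * (y ^ n * x) * y := by simp only [mul_assoc]
      _ = c ^ (∑ i ∈ Finset.range n, i) * x ^ n * (c ^ n * x * y ^ n) * y := by rw [h1]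
      _ = c ^ (∑ i ∈ Finset.range n, i) * (x ^ n * c ^ n) * x * y ^ n * y := by
          simp only [mul_assoc]
      _ = c ^ (∑ i ∈ Finset.range n, i) * (c ^ n * x ^ n) * x * y ^ n * y := by rw [h2.eq]
      _ = c ^ (∑ i ∈ Finset.range (n + 1), i) * x ^ (n + 1) * y ^ (n + 1) := by
          rw [Finset.sum_range_succ, pow_add, pow_succ, pow_succ]; simp only [mul_assoc]

/-- For a normal subgroup `N ≠ 1` of a nilpotent group, `[N, T] < N`. -/
theorem commutator_top_lt_of_nilpotent [Group.IsNilpotent T] (N : Subgroup T) [N.Normal]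
    (hN : N ≠ ⊥) : ⁅N, (⊤ : Subgroup T)⁆ < N := by
  refine lt_of_le_of_ne (Subgroup.commutator_le_left N ⊤) ?_
  intro h
  obtain ⟨n, hn⟩ :=
    Subgroup.nilpotent_iff_lowerCentralSeries.mp (inferInstance : Group.IsNilpotent T)
  have key : ∀ k, N ≤ Subgroup.lowerCentralSeries (⊤ : Subgroup T) k := by
    intro k
    induction k with
    | zero => simp
    | succ k ih =>
      rw [Subgroup.lowerCentralSeries_succ]
      calc N = ⁅N, (⊤ : Subgroup T)⁆ := h.symm
        _ ≤ _ := Subgroup.commutator_mono ih le_rfl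
  exact hN (le_bot_iff.mp (hn ▸ key n))

/-- `Ω₁(Z(T))`. -/
def omegaCenter (T : Type*) [Group T] (s : ℕ) : Subgroup T where
  carrier := {z | z ∈ Subgroup.center T ∧ z ^ s = 1}
  mul_mem' := by
    rintro a b ⟨ha, ha'⟩ ⟨hb, hb'⟩
    refine ⟨Subgroup.mul_mem _ ha hb, ?_⟩
    have hab : Commute a b := (Subgroup.mem_center_iff.mp ha b).symm
    rw [hab.mul_pow, ha', hb', one_mul]
  one_mem' := ⟨Subgroup.one_mem _, one_pow _⟩
  inv_mem' := by
    rintro a ⟨ha, ha'⟩
    exact ⟨Subgroup.inv_mem _ ha, by rw [inv_pow, ha', inv_one]⟩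

theorem mem_omegaCenter {s : ℕ} {z : T} :
    z ∈ omegaCenter T s ↔ z ∈ Subgroup.center T ∧ z ^ s = 1 := Iff.rfl

/-- `s ∣ 0 + 1 + ⋯ + (s - 1)` for an odd prime `s`. -/
theorem dvd_sum_range_id {s : ℕ} (hs : s.Prime) (hs2 : s ≠ 2) :
    s ∣ ∑ i ∈ Finset.range s, i := by
  have h1 := Finset.sum_range_id_mul_two s
  have hcop : Nat.Coprime s 2 := (Nat.coprime_primes hs Nat.prime_two).mpr hs2
  exact (Nat.Coprime.dvd_mul_right hcop).mp (h1 ▸ Dvd.intro _ rfl)

/-- helper38's subgroup `W = {x | x ^ s = 1, [x, T] ≤ Ω₁(Z(T))}` (class at most 2, exponent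
`s`) of a group `T`, for an odd prime `s`. -/
def bigW (T : Type*) [Group T] (s : ℕ) [Fact s.Prime] (hs2 : s ≠ 2) : Subgroup T where
  carrier := {x | x ^ s = 1 ∧ ∀ t : T, ⁅x, t⁆ ∈ omegaCenter T s}
  mul_mem' := by
    rintro a b ⟨ha, ha'⟩ ⟨hb, hb'⟩
    refine ⟨?_, ?_⟩
    · obtain ⟨c, hcdef⟩ : ∃ c : T, c = ⁅b, a⁆ := ⟨_, rfl⟩
      have hcm : c ∈ omegaCenter T s := hcdef ▸ hb' a
      have hc : b * a = c * a * b := by
        rw [hcdef, commutatorElement_def]; group
      have hcx : Commute c a := (Subgroup.mem_center_iff.mp hcm.1 a).symm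
      have hcy : Commute c b := (Subgroup.mem_center_iff.mp hcm.1 b).symm
      rw [mul_pow_of_central hc hcx hcy s, ha, hb, mul_one, mul_one]
      obtain ⟨k, hk⟩ := dvd_sum_range_id (Fact.out : s.Prime) hs2
      rw [hk, pow_mul, hcm.2, one_pow]
    · intro t
      have hz := Subgroup.mem_center_iff.mp (hb' t).1 a
      have e : ⁅a * b, t⁆ = ⁅b, t⁆ * ⁅a, t⁆ := by
        calc ⁅a * b, t⁆ = a * ⁅b, t⁆ * t * a⁻¹ * t⁻¹ := by
              simp only [commutatorElement_def]; group
          _ = ⁅b, t⁆ * a * t * a⁻¹ * t⁻¹ := by rw [hz]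
          _ = ⁅b, t⁆ * ⁅a, t⁆ := by simp only [commutatorElement_def]; group
      rw [e]
      exact Subgroup.mul_mem _ (hb' t) (ha' t)
  one_mem' := by
    refine ⟨one_pow _, fun t => ?_⟩
    rw [commutatorElement_one_left]
    exact Subgroup.one_mem _
  inv_mem' := by
    rintro a ⟨ha, ha'⟩
    refine ⟨by rw [inv_pow, ha, inv_one], fun t => ?_⟩
    have hz : ⁅t, a⁆ ∈ omegaCenter T s := by
      rw [← commutatorElement_inv]
      exact Subgroup.inv_mem _ (ha' t)
    have hz' := Subgroup.mem_center_iff.mp hz.1 a⁻¹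
    rw [commutatorElement_inv_left, hz', mul_assoc, inv_mul_cancel, mul_one]
    exact hz

theorem mem_bigW {s : ℕ} [Fact s.Prime] {hs2 : s ≠ 2} {x : T} :
    x ∈ bigW T s hs2 ↔ x ^ s = 1 ∧ ∀ t : T, ⁅x, t⁆ ∈ omegaCenter T s := Iff.rfl

theorem omegaCenter_map_le (s : ℕ) (φ : T ≃* T) {z : T} (hz : z ∈ omegaCenter T s) :
    φ z ∈ omegaCenter T s := by
  refine ⟨?_, by rw [← map_pow, hz.2, map_one]⟩
  rw [Subgroup.mem_center_iff]
  intro g
  have h1 := Subgroup.mem_center_iff.mp hz.1 (φ.symm g)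
  have h2 := congrArg φ h1
  simpa using h2

theorem bigW_characteristic (s : ℕ) [Fact s.Prime] (hs2 : s ≠ 2) :
    (bigW T s hs2).Characteristic := by
  rw [Subgroup.characteristic_iff_map_le]
  rintro φ _ ⟨x, hx, rfl⟩
  refine ⟨?_, fun t => ?_⟩
  · show (φ x) ^ s = 1
    rw [← map_pow, hx.1, map_one]
  · have h1 := omegaCenter_map_le s φ (hx.2 (φ.symm t))
    have e : φ ⁅x, φ.symm t⁆ = ⁅φ x, t⁆ := by
      simp [commutatorElement_def]
    rw [e] at h1
    exact h1

/-- A normal elementary abelian subgroup of order `s ^ 2` of an `s`-group lies in `bigW`. -/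
theorem le_bigW_of_normal_sq [Finite T] {s : ℕ} [Fact s.Prime] (hs2 : s ≠ 2) (hT : IsPGroup s T)
    (E : Subgroup T) [E.Normal] (hE : IsElementaryAbelian s E) (hE2 : Nat.card E = s ^ 2) :
    E ≤ bigW T s hs2 := by
  have hs : s.Prime := Fact.out
  haveI : Group.IsNilpotent T := hT.isNilpotent
  have hE0 : E ≠ ⊥ := by
    rintro rfl
    rw [Subgroup.card_bot] at hE2
    have := Nat.one_lt_pow (n := 2) (by norm_num) hs.one_lt
    omega
  have h1 := commutator_top_lt_of_nilpotent E hE0
  have hN1card : Nat.card ↥⁅E, (⊤ : Subgroup T)⁆ ≤ s := by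
    obtain ⟨j, hj⟩ := IsPGroup.iff_card.mp (hT.to_subgroup ⁅E, (⊤ : Subgroup T)⁆)
    have hlt := card_lt_card_of_lt h1
    rw [hj, hE2] at hlt
    have hj2 : j < 2 := (Nat.pow_lt_pow_iff_right hs.one_lt).mp hlt
    rw [hj]
    calc s ^ j ≤ s ^ 1 := Nat.pow_le_pow_right hs.pos (by omega)
      _ = s := pow_one s
  have hN2 : ⁅⁅E, (⊤ : Subgroup T)⁆, (⊤ : Subgroup T)⁆ = ⊥ := by
    by_cases h0 : ⁅E, (⊤ : Subgroup T)⁆ = ⊥
    · rw [h0]
      exact Subgroup.commutator_bot_left ⊤
    · haveI : (⁅E, (⊤ : Subgroup T)⁆).Normal := Subgroup.commutator_normal E ⊤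
      have h2 := commutator_top_lt_of_nilpotent _ h0
      have hlt := card_lt_card_of_lt h2
      obtain ⟨i, hi⟩ := IsPGroup.iff_card.mp
        (hT.to_subgroup ⁅⁅E, (⊤ : Subgroup T)⁆, (⊤ : Subgroup T)⁆)
      have h3 : s ^ i < s ^ 1 := by
        rw [pow_one, ← hi]
        exact lt_of_lt_of_le hlt hN1card
      have hi0 : i < 1 := (Nat.pow_lt_pow_iff_right hs.one_lt).mp h3
      apply Subgroup.eq_bot_of_card_eq
      rw [hi]
      interval_cases i
      simp
  have hcen : ⁅E, (⊤ : Subgroup T)⁆ ≤ Subgroup.center T := by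
    have h3 := Subgroup.commutator_eq_bot_iff_le_centralizer.mp hN2
    rwa [Subgroup.coe_top, Subgroup.centralizer_univ] at h3
  intro x hx
  refine ⟨hE.2 x hx, fun t => ?_⟩
  have hm : ⁅x, t⁆ ∈ ⁅E, (⊤ : Subgroup T)⁆ :=
    Subgroup.commutator_mem_commutator hx (Subgroup.mem_top t)
  exact ⟨hcen hm, hE.2 _ (h1.le hm)⟩

/-- The abstract `s`-group lemma behind helper38's FACTS (i), (ii). -/
theorem exists_char_W [Finite T] (s : ℕ) [Fact s.Prime] (hs2 : s ≠ 2) (hT : IsPGroup s T)
    (hr : ¬ PRankLE s 2 T) :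
    ∃ W : Subgroup T, W.Characteristic ∧ (∀ x ∈ W, x ^ s = 1) ∧ s ^ 2 ≤ Nat.card W ∧
      ∀ u ∈ W, ∀ v ∈ W, u * v = v * u →
        ∃ X : Subgroup T, IsElementaryAbelian s X ∧ s ^ 2 < Nat.card X ∧
          (∀ x ∈ X, x * u = u * x) ∧ (∀ x ∈ X, x * v = v * x) := by
  have hs : s.Prime := Fact.out
  refine ⟨bigW T s hs2, bigW_characteristic s hs2, fun x hx => hx.1, ?_, ?_⟩
  · have hr1 : ¬ PRankLE s 1 T := fun h => hr (fun B hBc hBp =>
      (h B hBc hBp).trans (Nat.pow_le_pow_right hs.pos (by norm_num)))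
    have hnc : ¬ IsCyclic T := not_isCyclic_of_not_pRankLE hs hr1
    obtain ⟨E, hEn, hEe, hE2⟩ := Cfsg.Agent.S0126.result hs2 hT hnc
    haveI := hEn
    have hle := le_bigW_of_normal_sq hs2 hT E hEe hE2
    rw [← hE2]
    exact Subgroup.card_le_of_le hle
  · intro u hu v hv huv
    have hr' := hr
    unfold PRankLE at hr'
    push Not at hr'
    obtain ⟨E₀, hE₀c, hE₀p, hE₀card⟩ := hr'
    obtain ⟨S, hSdef⟩ : ∃ S : Set T, S = (omegaCenter T s : Set T) ∪ {u, v} := ⟨_, rfl⟩
    have hzc : ∀ z ∈ omegaCenter T s, ∀ g : T, z * g = g * z :=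
      fun z hz g => (Subgroup.mem_center_iff.mp hz.1 g).symm
    have hScomm : ∀ a ∈ S, ∀ b ∈ S, a * b = b * a := by
      intro a ha b hb
      rw [hSdef] at ha hb
      rcases ha with ha | ha
      · exact hzc a ha b
      · rcases hb with hb | hb
        · exact (hzc b hb a).symm
        · rcases ha with rfl | rfl <;> rcases hb with rfl | rfl
          · rfl
          · exact huv
          · exact huv.symm
          · rfl
    have hSexp : ∀ a ∈ S, a ^ s = 1 := by
      intro a ha
      rw [hSdef] at ha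
      rcases ha with ha | rfl | rfl
      · exact ha.2
      · exact hu.1
      · exact hv.1
    obtain ⟨D, hDdef⟩ : ∃ D : Subgroup T, D = Subgroup.closure S := ⟨_, rfl⟩
    have hSD : S ⊆ D := by rw [hDdef]; exact Subgroup.subset_closure
    have hDcS : D ≤ Subgroup.centralizer S := by
      rw [hDdef, Subgroup.closure_le]
      intro a ha
      rw [SetLike.mem_coe, Subgroup.mem_centralizer_iff]
      intro b hb
      exact hScomm b hb a ha
    have hDcomm : ∀ a ∈ D, ∀ b ∈ D, a * b = b * a := by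
      have h1 : Subgroup.closure S ≤ Subgroup.centralizer (D : Set T) := by
        rw [Subgroup.closure_le]
        intro a ha
        rw [SetLike.mem_coe, Subgroup.mem_centralizer_iff]
        intro b hb
        exact (Subgroup.mem_centralizer_iff.mp (hDcS hb) a ha).symm
      intro a ha b hb
      exact Subgroup.mem_centralizer_iff.mp (h1 (hDdef ▸ hb)) a ha
    have hDexp : ∀ a ∈ D, a ^ s = 1 := by
      intro a ha
      rw [hDdef] at ha
      induction ha using Subgroup.closure_induction with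
      | mem x hx => exact hSexp x hx
      | one => exact one_pow _
      | mul x y hx hy ihx ihy =>
        have hc : Commute x y := hDcomm x (hDdef ▸ hx) y (hDdef ▸ hy)
        rw [hc.mul_pow, ihx, ihy, one_mul]
      | inv x hx ih => rw [inv_pow, ih, inv_one]
    have hDnorm : D.Normal := by
      refine ⟨fun n hn g => ?_⟩
      rw [hDdef] at hn
      induction hn using Subgroup.closure_induction with
      | mem x hx =>
        have e : g * x * g⁻¹ = ⁅g, x⁆ * x := by rw [commutatorElement_def]; group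
        rw [e]
        refine D.mul_mem (hSD ?_) (hSD hx)
        rw [hSdef]
        left
        have hx' := hx
        rw [hSdef] at hx'
        rcases hx' with hx' | rfl | rfl
        · have h1 : ⁅g, x⁆ = 1 := by
            rw [commutatorElement_eq_one_iff_mul_comm]
            exact Subgroup.mem_center_iff.mp hx'.1 g
          rw [h1]
          exact Subgroup.one_mem _
        · rw [SetLike.mem_coe, ← commutatorElement_inv]
          exact Subgroup.inv_mem _ (hu.2 g)
        · rw [SetLike.mem_coe, ← commutatorElement_inv]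
          exact Subgroup.inv_mem _ (hv.2 g)
      | one =>
        rw [mul_one, mul_inv_cancel]
        exact D.one_mem
      | mul x y hx hy ihx ihy =>
        have e : g * (x * y) * g⁻¹ = (g * x * g⁻¹) * (g * y * g⁻¹) := by group
        rw [e]
        exact D.mul_mem ihx ihy
      | inv x hx ih =>
        have e : g * x⁻¹ * g⁻¹ = (g * x * g⁻¹)⁻¹ := by group
        rw [e]
        exact D.inv_mem ih
    have hDe : IsElementaryAbelian s D :=
      ⟨⟨⟨fun a b => Subtype.ext (hDcomm a a.2 b b.2)⟩⟩, hDexp⟩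
    have hDp : IsPGroup s D := hT.to_subgroup D
    have huD : u ∈ D := hSD (by rw [hSdef]; right; left; rfl)
    have hvD : v ∈ D := hSD (by rw [hSdef]; right; right; rfl)
    by_cases h3 : s ^ 2 < Nat.card D
    · exact ⟨D, hDe, h3, fun x hx => hDcomm x hx u huD, fun x hx => hDcomm x hx v hvD⟩
    by_cases h2 : Nat.card D = s ^ 2
    · haveI := hDnorm
      obtain ⟨A', hDA', -, hA'c, hA'r⟩ := Cfsg.Agent.S1452.result s hs2 hT hr D hDe h2
      obtain ⟨X, hXA', hXc, hXp, hXcard⟩ := exists_elementary_of_not_pRankLE hA'r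
      have hcen : ∀ x ∈ X, ∀ w ∈ D, x * w = w * x := by
        intro x hx w hw
        have hxc : x ∈ Subgroup.centralizer (A' : Set T) := by rw [hA'c]; exact hXA' hx
        exact (Subgroup.mem_centralizer_iff.mp hxc w (hDA' hw)).symm
      exact ⟨X, ⟨⟨⟨fun a b => Subtype.ext (hXc a a.2 b b.2)⟩⟩, hXp⟩, hXcard,
        fun x hx => hcen x hx u huD, fun x hx => hcen x hx v hvD⟩
    · have hDle : Nat.card D ≤ s := by
        obtain ⟨j, hj⟩ := IsPGroup.iff_card.mp hDp
        rw [hj] at h3 h2 ⊢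
        have hj2 : j < 2 := by
          by_contra hcon
          push Not at hcon
          rcases Nat.lt_or_eq_of_le hcon with h | h
          · exact h3 (Nat.pow_lt_pow_right hs.one_lt h)
          · exact h2 (by rw [← h])
        calc s ^ j ≤ s ^ 1 := Nat.pow_le_pow_right hs.pos (by omega)
          _ = s := pow_one s
      have hZ0 : s ≤ Nat.card (omegaCenter T s) := by
        haveI : Nontrivial T := by
          rw [← Finite.one_lt_card_iff_nontrivial]
          have h1 : 1 < Nat.card E₀ := lt_of_le_of_lt (Nat.one_le_pow _ _ hs.pos) hE₀card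
          exact lt_of_lt_of_le h1 (Subgroup.card_le_card_group E₀)
        haveI := hT.center_nontrivial
        have hdvd : s ∣ Nat.card (Subgroup.center T) := by
          obtain ⟨j, hj⟩ := IsPGroup.iff_card.mp (hT.to_subgroup (Subgroup.center T))
          rw [hj]
          have hj0 : j ≠ 0 := by
            rintro rfl
            rw [pow_zero] at hj
            have := Finite.one_lt_card (α := Subgroup.center T)
            omega
          exact dvd_pow_self s hj0
        obtain ⟨z, hz⟩ := exists_prime_orderOf_dvd_card' s hdvd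
        have hzm : (z : T) ∈ omegaCenter T s := by
          refine ⟨z.2, ?_⟩
          have h1 := pow_orderOf_eq_one z
          rw [hz] at h1
          have h2 := congrArg Subtype.val h1
          simpa using h2
        have hz1 : (z : T) ≠ 1 := by
          intro h
          have h1 : z = 1 := Subtype.ext h
          rw [h1, orderOf_one] at hz
          exact hs.one_lt.ne hz
        obtain ⟨j, hj⟩ := IsPGroup.iff_card.mp (hT.to_subgroup (omegaCenter T s))
        rw [hj]
        have hj0 : j ≠ 0 := by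
          rintro rfl
          rw [pow_zero] at hj
          have h1 := Subgroup.eq_bot_of_card_eq _ hj
          rw [h1, Subgroup.mem_bot] at hzm
          exact hz1 hzm
        exact Nat.le_self_pow hj0 s
      have hZD : omegaCenter T s ≤ D := fun z hz => hSD (by rw [hSdef]; left; exact hz)
      have hDZ : omegaCenter T s = D := Subgroup.eq_of_le_of_card_ge hZD (hDle.trans hZ0)
      have hucen : ∀ g : T, g * u = u * g :=
        Subgroup.mem_center_iff.mp ((hDZ ▸ huD : u ∈ omegaCenter T s)).1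
      have hvcen : ∀ g : T, g * v = v * g :=
        Subgroup.mem_center_iff.mp ((hDZ ▸ hvD : v ∈ omegaCenter T s)).1
      exact ⟨E₀, ⟨hE₀c, hE₀p⟩, hE₀card, fun x _ => hucen x, fun x _ => hvcen x⟩

end Abstract

variable {G : Type u} [Group G]

/-- An `s`-element of the Fitting subgroup lies in `O_s`. -/
theorem mem_pCore_of_mem_fitting {H : Type*} [Group H] [Finite H] (s : ℕ) [Fact s.Prime]
    {d : H} (hdF : d ∈ fittingSubgroup H) (hd : ∃ k : ℕ, d ^ s ^ k = 1) : d ∈ pCore s H := by
  obtain ⟨u, hu, v, hv, rfl⟩ := Cfsg.Agent.H27.exists_mul_of_mem_sup_of_comm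
    (Cfsg.Agent.H27.pCore_comm_pPrimeCore s) (Cfsg.Agent.H27.fitting_le_pCore_sup_pPrimeCore s hdF)
  have huv : Commute u v := Cfsg.Agent.H27.pCore_comm_pPrimeCore s u hu v hv
  obtain ⟨k, hk⟩ := hd
  obtain ⟨k', hk'⟩ := (Cfsg.Agent.H60.isPGroup_pCore (G := H) s) ⟨u, hu⟩
  have hk'' : u ^ s ^ k' = 1 := by
    have := congrArg Subtype.val hk'
    simpa using this
  have hu1 : u ^ (s ^ k * s ^ k') = 1 := by rw [mul_comm, pow_mul, hk'', one_pow]
  have huv1 : (u * v) ^ (s ^ k * s ^ k') = 1 := by rw [pow_mul, hk, one_pow]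
  have hv1 : v ^ (s ^ k * s ^ k') = 1 := by
    rw [huv.mul_pow, hu1, one_mul] at huv1
    exact huv1
  have hv2 : v ^ Nat.card ↥(pPrimeCore s H) = 1 := by
    have h1 : (⟨v, hv⟩ : ↥(pPrimeCore s H)) ^ Nat.card ↥(pPrimeCore s H) = 1 := pow_card_eq_one'
    have h2 := congrArg Subtype.val h1
    simp only [Subgroup.coe_pow, Subgroup.coe_one] at h2
    exact h2
  have hcop : (s ^ k * s ^ k').Coprime (Nat.card ↥(pPrimeCore s H)) := by
    rw [← pow_add]
    exact Nat.Coprime.pow_left _ (Cfsg.Agent.H37.card_pPrimeCore_coprime (G := H) s).symm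
  have hv3 : v ^ Nat.gcd (s ^ k * s ^ k') (Nat.card ↥(pPrimeCore s H)) = 1 :=
    pow_gcd_eq_one.mpr ⟨hv1, hv2⟩
  rw [hcop, pow_one] at hv3
  rw [hv3, mul_one]
  exact hu

/-- Piece P1 of CASE II of B&G Lemma 9.5: the subgroup `W` of a big maximal subgroup. -/
theorem bg95_W [Finite G] (hG : IsMinSimpleOddOrder G) {A M : Subgroup G} (hM : IsCoatom M)
    (hAM : A ≤ M) {s : ℕ} [Fact s.Prime] (hF : ¬ PRankLE s 2 ↥(fittingSubgroup ↥M)) :
    ∃ W : Subgroup G, BigW A M W s := by
  have hs : s.Prime := Fact.out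
  have hMtop : M ≠ ⊤ := hM.1
  obtain ⟨E₀, hE₀F, hE₀c, hE₀p, hE₀card⟩ := exists_elementary_of_not_pRankLE hF
  have hE₀e : IsElementaryAbelian s E₀ :=
    ⟨⟨⟨fun a b => Subtype.ext (hE₀c a a.2 b b.2)⟩⟩, hE₀p⟩
  have hE₀T : E₀ ≤ pCore s ↥M := by
    intro x hx
    exact mem_pCore_of_mem_fitting s (hE₀F hx) ⟨1, by rw [pow_one]; exact hE₀p x hx⟩
  have hsG : s ∣ Nat.card G := by
    have h1 : 1 < Nat.card E₀ := lt_of_le_of_lt (Nat.one_le_pow _ _ hs.pos) hE₀card
    have h2 : s ∣ Nat.card E₀ := dvd_card_of_exponent_prime (le_refl E₀) hE₀p h1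
    exact h2.trans ((Subgroup.card_subgroup_dvd_card E₀).trans (Subgroup.card_subgroup_dvd_card M))
  have hs2 : s ≠ 2 := ne_two_of_dvd hG hsG
  have hF' : ¬ PRankLE s 2 ↥(FOf M) := by
    refine not_pRankLE_of_le (B := E₀.map M.subtype) (Subgroup.map_mono hE₀F)
      (isElementaryAbelian_map _ hE₀e) ?_
    rwa [Subgroup.card_subtype]
  have hT : IsPGroup s ↥(pCore s ↥M) := Cfsg.Agent.H60.isPGroup_pCore s
  have hrT : ¬ PRankLE s 2 ↥(pCore s ↥M) := not_pRankLE_of_le hE₀T hE₀e hE₀card
  obtain ⟨WT, hWTchar, hWTexp, hWTcard, hWTprop⟩ := exists_char_W s hs2 hT hrT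
  haveI := hWTchar
  obtain ⟨WM, hWMdef⟩ : ∃ WM : Subgroup ↥M, WM = WT.map (pCore s ↥M).subtype := ⟨_, rfl⟩
  haveI hWMn : WM.Normal := by
    rw [hWMdef]
    exact ConjAct.normal_of_characteristic_of_normal
  obtain ⟨W, hWdef⟩ : ∃ W : Subgroup G, W = WM.map M.subtype := ⟨_, rfl⟩
  have hWM : W ≤ M := by rw [hWdef]; exact Subgroup.map_subtype_le _
  have hmemW : ∀ x ∈ W, ∃ w ∈ WT, (((w : ↥(pCore s ↥M)) : ↥M) : G) = x := by
    intro x hx
    rw [hWdef, hWMdef] at hx
    obtain ⟨y, ⟨w, hw, rfl⟩, rfl⟩ := hx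
    exact ⟨w, hw, rfl⟩
  have hWexp : ∀ x ∈ W, x ^ s = 1 := by
    intro x hx
    obtain ⟨w, hw, rfl⟩ := hmemW x hx
    have h1 := hWTexp w hw
    have h2 := congrArg (fun t : ↥(pCore s ↥M) => ((t : ↥M) : G)) h1
    simpa using h2
  have hWcard : Nat.card W = Nat.card WT := by
    rw [hWdef, Subgroup.card_subtype, hWMdef, Subgroup.card_subtype]
  -- the rank 3 subgroup centralizing two commuting elements of `W`
  have hprop : ∀ u ∈ W, ∀ v ∈ W, u * v = v * u →
      ∃ B : Subgroup G, B ≤ M ∧ IsElementaryAbelian s B ∧ s ^ 2 < Nat.card B ∧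
        (∀ x ∈ B, x * u = u * x) ∧ (∀ x ∈ B, x * v = v * x) ∧ InUniqueMaximal B := by
    intro u hu v hv huv
    obtain ⟨u', hu', rfl⟩ := hmemW u hu
    obtain ⟨v', hv', rfl⟩ := hmemW v hv
    have huv' : u' * v' = v' * u' := by
      apply Subtype.ext
      apply Subtype.ext
      simpa using huv
    obtain ⟨X, hXe, hXcard, hXu, hXv⟩ := hWTprop u' hu' v' hv' huv'
    obtain ⟨B, hBdef⟩ : ∃ B : Subgroup G,
      B = (X.map (pCore s ↥M).subtype).map M.subtype := ⟨_, rfl⟩
    have hBe : IsElementaryAbelian s B := by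
      rw [hBdef]
      exact isElementaryAbelian_map _ (isElementaryAbelian_map _ hXe)
    have hBcard : s ^ 2 < Nat.card B := by
      rw [hBdef, Subgroup.card_subtype, Subgroup.card_subtype]
      exact hXcard
    have hBM : B ≤ M := by rw [hBdef]; exact Subgroup.map_subtype_le _
    have hBU : InUniqueMaximal B :=
      bg94 hG hM hF' (isPGroup_of_exponent hBe.2) hBe.1 (not_pRankLE_of_le le_rfl hBe hBcard)
    refine ⟨B, hBM, hBe, hBcard, ?_, ?_, hBU⟩
    · intro x hx
      rw [hBdef] at hx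
      obtain ⟨y, ⟨x', hx', rfl⟩, rfl⟩ := hx
      have h1 := hXu x' hx'
      have h2 := congrArg (fun t : ↥(pCore s ↥M) => ((t : ↥M) : G)) h1
      simpa using h2
    · intro x hx
      rw [hBdef] at hx
      obtain ⟨y, ⟨x', hx', rfl⟩, rfl⟩ := hx
      have h1 := hXv x' hx'
      have h2 := congrArg (fun t : ↥(pCore s ↥M) => ((t : ↥M) : G)) h1
      simpa using h2
  -- (ii)
  have huniq : ∀ U : Subgroup G, U ≤ W → s < Nat.card U →
      ∀ H : Subgroup G, IsCoatom H → U ≤ H → H = M := by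
    intro U hUW hUcard H hH hUH
    have hUp : IsPGroup s U := isPGroup_of_exponent (fun b hb => hWexp b (hUW hb))
    have hU0 : U ≠ ⊥ := by
      rintro rfl
      rw [Subgroup.card_bot] at hUcard
      have := hs.one_lt
      omega
    obtain ⟨a, ha1⟩ := (Subgroup.ne_bot_iff_exists_ne_one).mp (inf_centralizer_ne_bot hUp hU0)
    obtain ⟨u, hudef⟩ : ∃ u : G, u = (a : G) := ⟨_, rfl⟩
    have huU : u ∈ U := hudef ▸ (Subgroup.mem_inf.mp a.2).1
    have huc : u ∈ centralizer (U : Set G) := hudef ▸ (Subgroup.mem_inf.mp a.2).2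
    have hu1 : u ≠ 1 := by
      intro h
      apply ha1
      apply Subtype.ext
      rw [← hudef, h]
      rfl
    have huo : orderOf u = s := orderOf_eq_prime (hWexp u (hUW huU)) hu1
    have hzu : Nat.card (Subgroup.zpowers u) = s := by rw [Nat.card_zpowers, huo]
    obtain ⟨v, hvU, hvu⟩ : ∃ v ∈ U, v ∉ Subgroup.zpowers u := by
      by_contra hcon
      push Not at hcon
      have h1 : U ≤ Subgroup.zpowers u := hcon
      have h2 := Subgroup.card_le_of_le h1
      omega
    have huv : u * v = v * u := (Subgroup.mem_centralizer_iff.mp huc v hvU).symm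
    obtain ⟨B, hBM, hBe, hBcard, hBu, hBv, hBU⟩ :=
      hprop u (hUW huU) v (hUW hvU) huv
    obtain ⟨B2, hB2def⟩ : ∃ B2 : Subgroup G,
      B2 = Subgroup.zpowers u ⊔ Subgroup.zpowers v := ⟨_, rfl⟩
    have hB2U : B2 ≤ U := by
      rw [hB2def]
      exact sup_le (Subgroup.zpowers_le.mpr huU) (Subgroup.zpowers_le.mpr hvU)
    have hB2p : IsPGroup s B2 := hUp.to_le hB2U
    have hlt : Subgroup.zpowers u < B2 := by
      rw [hB2def]
      refine lt_of_le_of_ne le_sup_left fun h => hvu ?_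
      rw [h]
      exact Subgroup.mem_sup_right (Subgroup.mem_zpowers v)
    have hB2nc : ¬ IsCyclic B2 := by
      intro hc
      obtain ⟨g, hg⟩ := IsCyclic.exists_generator (α := B2)
      have h1 : orderOf g = Nat.card B2 := orderOf_eq_card_of_forall_mem_zpowers hg
      have h2 : g ^ s = 1 := Subtype.ext (by simpa using hWexp g (hUW (hB2U g.2)))
      have h3 : orderOf g ∣ s := orderOf_dvd_of_pow_eq_one h2
      have h4 := Nat.le_of_dvd hs.pos h3
      have h5 := card_lt_card_of_lt hlt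
      omega
    have hcent : B ≤ centralizer (B2 : Set G) := by
      intro x hx
      have h1 : B2 ≤ centralizer ({x} : Set G) := by
        rw [hB2def]
        exact sup_le (zpowers_le_centralizer_singleton (hBu x hx).symm)
          (zpowers_le_centralizer_singleton (hBv x hx).symm)
      rw [Subgroup.mem_centralizer_iff]
      intro h hh
      exact (Subgroup.mem_centralizer_iff.mp (h1 hh) x rfl).symm
    have hB3 : ¬ PRankLE s 2 ↥(centralizer (B2 : Set G)) :=
      not_pRankLE_of_le hcent hBe hBcard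
    have hB2U' : InUniqueMaximal B2 :=
      bg93 hG (isPGroup_of_exponent hBe.2) hBe.1 (not_pRankLE_of_le le_rfl hBe hBcard) hBU
        hB2p hB2nc hB3
    exact hB2U'.unique ⟨hH, hB2U.trans hUH⟩ ⟨hM, hB2U.trans (hUW.trans hWM)⟩
  refine ⟨W, hM, hAM, hWM, hWexp, ?_, ?_, huniq, ?_⟩
  · rw [hWdef]
    exact le_normalizer_map_subtype M WM
  · rw [hWcard]
    exact hWTcard
  · intro U hUW hU0
    have hUtop : U ≠ ⊤ := fun h => hMtop (top_le_iff.mp (h ▸ (hUW.trans hWM)))
    have hNtop : normalizer (U : Set G) ≠ ⊤ := minSimple_normalizer_ne_top hG hU0 hUtop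
    obtain ⟨H, hH, hNH⟩ :=
      (eq_top_or_exists_le_coatom (normalizer (U : Set G))).resolve_left hNtop
    by_cases hc : s < Nat.card U
    · have h1 := huniq U hUW hc H hH (le_normalizer.trans hNH)
      rw [← h1]
      exact hNH
    · obtain ⟨a, ha1⟩ := (Subgroup.ne_bot_iff_exists_ne_one).mp hU0
      obtain ⟨u, hudef⟩ : ∃ u : G, u = (a : G) := ⟨_, rfl⟩
      have huU : u ∈ U := hudef ▸ a.2
      have hu1 : u ≠ 1 := by
        intro h
        apply ha1
        apply Subtype.ext
        rw [← hudef, h]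
        rfl
      have huo : orderOf u = s := orderOf_eq_prime (hWexp u (hUW huU)) hu1
      have hzU : Subgroup.zpowers u = U := by
        apply Subgroup.eq_of_le_of_card_ge (Subgroup.zpowers_le.mpr huU)
        rw [Nat.card_zpowers, huo]
        omega
      obtain ⟨B, hBM, hBe, hBcard, hBu, -, hBU⟩ := hprop u (hUW huU) u (hUW huU) rfl
      have hBN : B ≤ normalizer (U : Set G) := by
        intro x hx
        apply Subgroup.centralizer_le_normalizer
        rw [Subgroup.mem_centralizer_iff]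
        intro h hh
        rw [← hzU] at hh
        have h1 := zpowers_le_centralizer_singleton (hBu x hx).symm hh
        exact (Subgroup.mem_centralizer_iff.mp h1 x rfl).symm
      have h1 := hBU.unique ⟨hH, hBN.trans hNH⟩ ⟨hM, hBM⟩
      rw [← h1]
      exact hNH

end Cfsg.Agent.H31.BG9
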