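import Mathlib
import Cfsg.Agent.H99.ElSTR
import Cfsg.Agent.H31.DecCommon

/-!
# S5958-R6A (helper99's team project): a decomposition with small blocks permuted by `T` (helper31)
-/

set_option autoImplicit false

namespace Cfsg.Agent.H31.Dec

variable {F : Type*} [Field F] [Fintype F] {V : Type*} [AddCommGroup V] [Module F V]
  [FiniteDimensional F V]

theorem one_block_of_decomposition (T : Module.End F V) (r : ℕ) (hr : r.Prime)
    (hrF : (r : F) ≠ 0) (hT : T ^ r = 1) (a t : ℕ) (D : Fin t → Submodule F V)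
    (hD : ∀ j, Module.finrank F (D j) = a) (hind : iSupIndep D) (htop : (⨆ j, D j) = ⊤)
    (σ : Equiv.Perm (Fin t)) (hσ : ∀ j, (D j).map T = D (σ j))
    (ha : 0 < a) (hac : a < orderOf (Fintype.card F : ZMod r))
    (hf : Module.finrank F (LinearMap.ker (T - 1)) + orderOf (Fintype.card F : ZMod r)
      = Module.finrank F V) :
    a = 1 ∧ orderOf (Fintype.card F : ZMod r) = r - 1 := by
  classical
  have hcpos := Cfsg.Agent.H99.El.orderOf_card_pos (F := F) r hr hrF
  have hcdvd := orderOf_card_dvd (F := F) r hr hrF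
  obtain ⟨c, hc⟩ : ∃ c, c = orderOf (Fintype.card F : ZMod r) := ⟨_, rfl⟩
  rw [← hc] at hac hf hcpos hcdvd ⊢
  have hD0 : ∀ j, D j ≠ ⊥ := by
    intro j h0
    have h1 := hD j
    rw [h0, finrank_bot] at h1
    omega
  have hinj : Function.Injective D := hind.injective hD0
  have hσr : ∀ j, (σ ^ r) j = j := fun j => sigma_pow_r T r hT D σ hσ hinj j
  -- fixed blocks lie in the fixed space
  have hfixed : ∀ j, σ j = j → D j ≤ LinearMap.ker (T - 1) := by
    intro j hj
    have hinv : ∀ v ∈ D j, T v ∈ D j := by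
      intro v hv
      have h1 : T v ∈ (D j).map T := Submodule.mem_map_of_mem hv
      rw [hσ, hj] at h1
      exact h1
    obtain ⟨a', ha'⟩ := Cfsg.Agent.H99.El.finrank_invariant_mod T r hr hrF hT (D j) hinv
    rw [hD j, ← hc] at ha'
    have ha0 : a' = 0 := by
      by_contra h
      have h1 : c ≤ a' * c := Nat.le_mul_of_pos_left c (Nat.pos_of_ne_zero h)
      omega
    rw [ha0, zero_mul, add_zero] at ha'
    have heq : D j ⊓ LinearMap.ker (T - 1) = D j :=
      Submodule.eq_of_le_of_finrank_le inf_le_left (by rw [hD j, ha'])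
    rw [← heq]
    exact inf_le_right
  -- some block is moved
  have hex : ∃ j, σ j ≠ j := by
    by_contra hall
    push Not at hall
    have h1 : (⊤ : Submodule F V) ≤ LinearMap.ker (T - 1) := by
      rw [← htop]
      exact iSup_le (fun j => hfixed j (hall j))
    have h2 : LinearMap.ker (T - 1) = ⊤ := top_le_iff.mp h1
    rw [h2, finrank_top] at hf
    omega
  obtain ⟨j, hj⟩ := hex
  obtain ⟨s, hs⟩ : ∃ s : Finset (Fin t), s = (Finset.range r).image (fun i => (σ ^ i) j) :=
    ⟨_, rfl⟩
  have hscard : s.card = r := by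
    rw [hs, Finset.card_image_of_injOn, Finset.card_range]
    intro i hi k hk hik
    exact sigma_pow_inj σ r hr j (hσr j) hj i k (Finset.mem_range.mp hi) (Finset.mem_range.mp hk)
      hik
  obtain ⟨O, hO⟩ : ∃ O : Submodule F V, O = ⨆ k ∈ s, D k := ⟨_, rfl⟩
  have hOfin : Module.finrank F O = r * a := by
    rw [hO, finrank_biSup_indep D hind s, Finset.sum_congr rfl (fun k _ => hD k), Finset.sum_const,
      hscard, smul_eq_mul]
  have hOle : O ≤ Submodule.comap (phi T r) ((D j).map (phi T r)) := by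
    rw [hO]
    apply iSup₂_le
    intro k hk
    rw [hs, Finset.mem_image] at hk
    obtain ⟨i, -, rfl⟩ := hk
    rw [← map_pow_eq T D σ hσ i j]
    rintro w ⟨d, hd, rfl⟩
    rw [Submodule.mem_comap, phi_pow_apply T r hT]
    exact Submodule.mem_map_of_mem hd
  have hle : O ⊓ LinearMap.ker (T - 1) ≤ (D j).map (phi T r) := by
    rintro v ⟨hvO, hvK⟩
    have hTv : T v = v := (Cfsg.Agent.H99.El.mem_ker_sub_one T v).mp hvK
    have h1 : phi T r v ∈ (D j).map (phi T r) := hOle hvO
    rw [phi_apply_of_fixed T r v hTv] at h1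
    have h2 : v = (r : F)⁻¹ • ((r : F) • v) := by
      rw [smul_smul, inv_mul_cancel₀ hrF, one_smul]
    rw [h2]
    exact Submodule.smul_mem _ _ h1
  have h1 : Module.finrank F ↥(O ⊓ LinearMap.ker (T - 1)) ≤ a :=
    (Submodule.finrank_mono hle).trans ((Submodule.finrank_map_le (phi T r) (D j)).trans_eq (hD j))
  have h2 := Submodule.finrank_sup_add_finrank_inf_eq O (LinearMap.ker (T - 1))
  have h3 : Module.finrank F ↥(O ⊔ LinearMap.ker (T - 1)) ≤ Module.finrank F V :=
    Submodule.finrank_le _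
  rw [hOfin] at h2
  have h4 : r * a ≤ c + a := by omega
  have hr2 := hr.two_le
  have h5 : c ≤ r - 1 := Nat.le_of_dvd (by omega) hcdvd
  obtain ⟨r', rfl⟩ : ∃ r', r = r' + 2 := ⟨r - 2, by omega⟩
  obtain ⟨a', rfl⟩ : ∃ a', a = a' + 1 := ⟨a - 1, by omega⟩
  have h6 : a' = 0 := by
    by_contra h
    have h7 : 1 ≤ a' := Nat.pos_of_ne_zero h
    have h8 : (r' + 2) * (a' + 1) = r' * a' + r' + 2 * a' + 2 := by ring
    rw [h8] at h4
    omega
  subst h6
  constructor
  · rfl
  · omega

end Cfsg.Agent.H31.Dec
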