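import Cfsg.Agent.H31.LineAction
import Mathlib.LinearAlgebra.Matrix.GeneralLinearGroup.Defs
import Mathlib.LinearAlgebra.Matrix.ToLinearEquiv
import Mathlib.Algebra.CharP.Lemmas
import Mathlib.LinearAlgebra.Matrix.Charpoly.Coeff

/-!
# Unimodular `2 × 2` matrices in characteristic `p` (helper31)
-/

set_option autoImplicit false

namespace Cfsg.Agent.H31

open Cfsg

variable {F : Type*} [Field F]

/-- The determinant form on `F²`. -/
def om (v w : Fin 2 → F) : F := v 0 * w 1 - v 1 * w 0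

theorem om_mulVec (M : Matrix (Fin 2) (Fin 2) F) (v w : Fin 2 → F) :
    om (M.mulVec v) (M.mulVec w) = M.det * om v w := by
  simp only [om, Matrix.mulVec, dotProduct, Fin.sum_univ_two, Matrix.det_fin_two]
  ring

theorem om_self (v : Fin 2 → F) : om v v = 0 := by
  simp only [om]; ring

theorem om_symm (v w : Fin 2 → F) : om w v = - om v w := by
  simp only [om]; ring

theorem om_smul_right (c : F) (v w : Fin 2 → F) : om v (c • w) = c * om v w := by
  simp only [om, Pi.smul_apply, smul_eq_mul]; ring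

theorem om_trans {u v w : Fin 2 → F} (hv : v ≠ 0) (h1 : om u v = 0) (h2 : om v w = 0) :
    om u w = 0 := by
  have k0 : om u w * v 0 = om v w * u 0 + om u v * w 0 := by
    simp only [om]; ring
  have k1 : om u w * v 1 = om v w * u 1 + om u v * w 1 := by
    simp only [om]; ring
  rw [h1, h2, zero_mul, zero_mul, add_zero] at k0 k1
  by_contra h
  apply hv
  funext i
  fin_cases i
  · exact (mul_eq_zero.mp k0).resolve_left h
  · exact (mul_eq_zero.mp k1).resolve_left h

theorem exists_smul_of_om {u w : Fin 2 → F} (hw : w ≠ 0) (h : om u w = 0) :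
    ∃ c : F, u = c • w := by
  simp only [om] at h
  by_cases h0 : w 0 = 0
  · have h1 : w 1 ≠ 0 := by
      intro h1
      apply hw
      funext i
      fin_cases i
      · exact h0
      · exact h1
    refine ⟨u 1 / w 1, ?_⟩
    funext i
    fin_cases i
    · have h2 : u 0 * w 1 = 0 := by rw [h0] at h; linear_combination h
      have h3 : u 0 = 0 := (mul_eq_zero.mp h2).resolve_right h1
      show u 0 = u 1 / w 1 * w 0
      rw [h3, h0, mul_zero]
    · show u 1 = u 1 / w 1 * w 1
      field_simp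
  · refine ⟨u 0 / w 0, ?_⟩
    funext i
    fin_cases i
    · show u 0 = u 0 / w 0 * w 0
      field_simp
    · show u 1 = u 0 / w 0 * w 1
      field_simp
      linear_combination -h

theorem eq_one_of_fix_two (M : Matrix (Fin 2) (Fin 2) F) {v w : Fin 2 → F} (hvw : om v w ≠ 0)
    (hv : M.mulVec v = v) (hw : M.mulVec w = w) : M = 1 := by
  have hv0 := congrFun hv 0
  have hv1 := congrFun hv 1
  have hw0 := congrFun hw 0
  have hw1 := congrFun hw 1
  simp only [Matrix.mulVec, dotProduct, Fin.sum_univ_two] at hv0 hv1 hw0 hw1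
  have h00 : (M 0 0 - 1) * om v w = 0 := by
    simp only [om]; linear_combination w 1 * hv0 - v 1 * hw0
  have h01 : M 0 1 * om v w = 0 := by
    simp only [om]; linear_combination v 0 * hw0 - w 0 * hv0
  have h10 : M 1 0 * om v w = 0 := by
    simp only [om]; linear_combination w 1 * hv1 - v 1 * hw1
  have h11 : (M 1 1 - 1) * om v w = 0 := by
    simp only [om]; linear_combination v 0 * hw1 - w 0 * hv1
  have e00 : M 0 0 = 1 := sub_eq_zero.mp ((mul_eq_zero.mp h00).resolve_right hvw)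
  have e01 : M 0 1 = 0 := (mul_eq_zero.mp h01).resolve_right hvw
  have e10 : M 1 0 = 0 := (mul_eq_zero.mp h10).resolve_right hvw
  have e11 : M 1 1 = 1 := sub_eq_zero.mp ((mul_eq_zero.mp h11).resolve_right hvw)
  ext i j
  fin_cases i <;> fin_cases j
  · simpa using e00
  · simpa using e01
  · simpa using e10
  · simpa using e11

theorem trace_eq_two_of_fix (M : Matrix (Fin 2) (Fin 2) F) (hdet : M.det = 1) {v : Fin 2 → F}
    (hv0 : v ≠ 0) (hv : M.mulVec v = v) : M.trace = 2 := by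
  have h : (M - 1).det = 0 := by
    apply Matrix.exists_mulVec_eq_zero_iff.mp
    exact ⟨v, hv0, by rw [Matrix.sub_mulVec, hv, Matrix.one_mulVec, sub_self]⟩
  rw [Matrix.det_fin_two] at h hdet
  simp only [Matrix.sub_apply, Matrix.one_apply_eq, Matrix.one_apply_ne, ne_eq, Fin.isValue,
    zero_ne_one, one_ne_zero, not_false_eq_true, sub_zero] at h
  rw [Matrix.trace_fin_two]
  linear_combination hdet - h

theorem exists_fix_of_trace (M : Matrix (Fin 2) (Fin 2) F) (hdet : M.det = 1) (ht : M.trace = 2) :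
    ∃ v : Fin 2 → F, v ≠ 0 ∧ M.mulVec v = v := by
  have h : (M - 1).det = 0 := by
    rw [Matrix.det_fin_two] at hdet ⊢
    rw [Matrix.trace_fin_two] at ht
    simp only [Matrix.sub_apply, Matrix.one_apply_eq, Matrix.one_apply_ne, ne_eq, Fin.isValue,
      zero_ne_one, one_ne_zero, not_false_eq_true, sub_zero]
    linear_combination hdet - ht
  obtain ⟨v, hv0, hv⟩ := Matrix.exists_mulVec_eq_zero_iff.mpr h
  refine ⟨v, hv0, ?_⟩
  rw [Matrix.sub_mulVec, Matrix.one_mulVec, sub_eq_zero] at hv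
  exact hv

theorem cayley2 (M : Matrix (Fin 2) (Fin 2) F) :
    M * M = M.trace • M - M.det • (1 : Matrix (Fin 2) (Fin 2) F) := by
  ext i j
  fin_cases i <;> fin_cases j <;>
    simp [Matrix.mul_apply, Fin.sum_univ_two, Matrix.trace_fin_two, Matrix.det_fin_two] <;> ring

theorem trace_aux (x m : Matrix (Fin 2) (Fin 2) F) (hx : x.det = 1) (hxt : x.trace = 2)
    (h1 : (m * x).trace = 2) (h2 : (m * x * x).trace = 2) : m.trace = 2 := by
  have hc := cayley2 x
  rw [hxt, hx] at hc
  have h3 : m * x * x = (2 : F) • (m * x) - m := by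
    rw [mul_assoc, hc, mul_sub, Matrix.mul_smul, one_smul, mul_one]
  rw [h3, Matrix.trace_sub, Matrix.trace_smul, h1, smul_eq_mul] at h2
  linear_combination -h2

theorem pow_char_eq_one_of_fix (p : ℕ) [Fact p.Prime] [CharP F p] (M : Matrix (Fin 2) (Fin 2) F)
    (hdet : M.det = 1) {v : Fin 2 → F} (hv0 : v ≠ 0) (hv : M.mulVec v = v) : M ^ p = 1 := by
  have ht := trace_eq_two_of_fix M hdet hv0 hv
  have hsq : (M - 1) * (M - 1) = 0 := by
    have hc := cayley2 M
    rw [ht, hdet, one_smul] at hc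
    have e : (M - 1) * (M - 1) = M * M - (2 : F) • M + 1 := by
      rw [two_smul]; noncomm_ring
    rw [e, hc]; abel
  have hN : (M - 1) ^ p = 0 := by
    have h2 : 2 ≤ p := (Fact.out : p.Prime).two_le
    obtain ⟨k, rfl⟩ := Nat.exists_eq_add_of_le h2
    rw [pow_add, pow_two, hsq, zero_mul]
  have hcomm : Commute (M - 1) (1 : Matrix (Fin 2) (Fin 2) F) := Commute.one_right _
  have h3 := add_pow_char_of_commute (p := p) hcomm
  rw [sub_add_cancel, hN, one_pow, zero_add] at h3
  exact h3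

theorem exists_fix_of_pow_char (p : ℕ) [Fact p.Prime] [CharP F p] (M : Matrix (Fin 2) (Fin 2) F)
    (hM : M ^ p = 1) : ∃ v : Fin 2 → F, v ≠ 0 ∧ M.mulVec v = v := by
  have h1 : (M - 1) ^ p = 0 := by
    have h0 := sub_pow_char_of_commute (p := p) (Commute.one_right M)
    rw [h0, hM, one_pow, sub_self]
  have h2 : (M - 1).det = 0 := by
    have h3 := congrArg Matrix.det h1
    rw [Matrix.det_pow, Matrix.det_zero] at h3
    exact pow_eq_zero_iff (Fact.out : p.Prime).ne_zero |>.mp h3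
  obtain ⟨v, hv0, hv⟩ := Matrix.exists_mulVec_eq_zero_iff.mpr h2
  refine ⟨v, hv0, ?_⟩
  rw [Matrix.sub_mulVec, Matrix.one_mulVec, sub_eq_zero] at hv
  exact hv


local notation "mat(" g ")" => ((g : GL (Fin 2) F) : Matrix (Fin 2) (Fin 2) F)

theorem gl_mulVec_inv (g : GL (Fin 2) F) (v : Fin 2 → F) :
    mat(g⁻¹).mulVec (mat(g).mulVec v) = v := by
  rw [Matrix.mulVec_mulVec, ← Units.val_mul, inv_mul_cancel, Units.val_one, Matrix.one_mulVec]

theorem gl_mulVec_ne_zero (g : GL (Fin 2) F) {v : Fin 2 → F} (hv : v ≠ 0) :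
    mat(g).mulVec v ≠ 0 := by
  intro h
  apply hv
  have h1 := gl_mulVec_inv g v
  rw [h, Matrix.mulVec_zero] at h1
  exact h1.symm

theorem gl_inv_smul (g : GL (Fin 2) F) {v : Fin 2 → F} (hv : v ≠ 0) {c : F}
    (h : mat(g).mulVec v = c • v) : mat(g⁻¹).mulVec v = c⁻¹ • v := by
  have hc : c ≠ 0 := by
    rintro rfl
    rw [zero_smul] at h
    exact gl_mulVec_ne_zero g hv h
  have h1 := gl_mulVec_inv g v
  rw [h, Matrix.mulVec_smul] at h1
  calc mat(g⁻¹).mulVec v = c⁻¹ • (c • mat(g⁻¹).mulVec v) := by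
        rw [smul_smul, inv_mul_cancel₀ hc, one_smul]
    _ = c⁻¹ • v := by rw [h1]

theorem gl_pow_smul (M : Matrix (Fin 2) (Fin 2) F) {v : Fin 2 → F} {c : F}
    (h : M.mulVec v = c • v) (n : ℕ) : (M ^ n).mulVec v = c ^ n • v := by
  induction n with
  | zero => simp
  | succ n ih =>
    rw [pow_succ, ← Matrix.mulVec_mulVec, h, Matrix.mulVec_smul, ih, smul_smul, pow_succ, mul_comm]

/-- The `LineData` of a group of unimodular `2 × 2` matrices in characteristic `p`. -/
noncomputable def glLineData (p : ℕ) [Fact p.Prime] [CharP F p] (K₀ : Subgroup (GL (Fin 2) F))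
    (hdet : ∀ g ∈ K₀, mat(g).det = 1) (hsq : ∀ g ∈ K₀, g * g = 1 → g = 1) :
    LineData K₀ {v : Fin 2 → F // v ≠ 0} p where
  act g v := ⟨mat(g.1).mulVec v.1, gl_mulVec_ne_zero _ v.2⟩
  par v w := om v.1 w.1 = 0
  act_one v := by
    apply Subtype.ext
    show mat(((1 : K₀) : GL (Fin 2) F)).mulVec v.1 = v.1
    rw [Subgroup.coe_one, Units.val_one, Matrix.one_mulVec]
  act_mul g h v := by
    apply Subtype.ext
    show mat(((g * h : K₀) : GL (Fin 2) F)).mulVec v.1 = mat(g.1).mulVec (mat(h.1).mulVec v.1)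
    rw [Subgroup.coe_mul, Units.val_mul, Matrix.mulVec_mulVec]
  par_refl v := om_self _
  par_symm v w h := by
    show om w.1 v.1 = 0
    rw [om_symm, show om v.1 w.1 = 0 from h, neg_zero]
  par_trans u v w h1 h2 := om_trans v.2 h1 h2
  par_act g v w h := by
    show om (mat(g.1).mulVec v.1) (mat(g.1).mulVec w.1) = 0
    rw [om_mulVec, show om v.1 w.1 = 0 from h, mul_zero]
  A1 g v h := by
    have h1 : mat(g.1).mulVec v.1 = v.1 := congrArg Subtype.val h
    have h2 := pow_char_eq_one_of_fix p mat(g.1) (hdet g.1 g.2) v.2 h1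
    apply Subtype.ext
    apply Units.ext
    rw [Subgroup.coe_pow, Units.val_pow_eq_pow_val, h2]
    rfl
  A2 g v w hg hv hw := by
    have h1 : mat(g.1).mulVec v.1 = v.1 := congrArg Subtype.val hv
    have h2 : om (mat(g.1).mulVec w.1) w.1 = 0 := hw
    show om w.1 v.1 = 0
    by_contra hne
    obtain ⟨c, hc⟩ := exists_smul_of_om w.2 h2
    have h3 := om_mulVec mat(g.1) v.1 w.1
    rw [h1, hc, om_smul_right, hdet g.1 g.2, one_mul] at h3
    have hvw : om v.1 w.1 ≠ 0 := by
      intro h0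
      apply hne
      rw [om_symm, h0, neg_zero]
    have hc1 : c = 1 := by
      have h4 : (c - 1) * om v.1 w.1 = 0 := by linear_combination h3
      exact sub_eq_zero.mp ((mul_eq_zero.mp h4).resolve_right hvw)
    rw [hc1, one_smul] at hc
    have h5 := eq_one_of_fix_two mat(g.1) hvw h1 hc
    apply hg
    apply Subtype.ext
    apply Units.ext
    rw [h5]
    rfl
  A3 g hg := by
    have h1 : mat(g.1) ^ p = 1 := by
      have h2 := congrArg (fun t : K₀ => mat(t.1)) hg
      simp only [Subgroup.coe_pow, Units.val_pow_eq_pow_val, Subgroup.coe_one, Units.val_one] at h2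
      exact h2
    obtain ⟨v, hv0, hv⟩ := exists_fix_of_pow_char p mat(g.1) h1
    exact ⟨⟨v, hv0⟩, Subtype.ext hv⟩
  A4 g v₁ v₂ v₃ hg h1 h2 h3 := by
    by_contra hcon
    push Not at hcon
    obtain ⟨n12, n13, n23⟩ := hcon
    have n12' : om v₁.1 v₂.1 ≠ 0 := n12
    have n13' : om v₁.1 v₃.1 ≠ 0 := n13
    have n23' : om v₂.1 v₃.1 ≠ 0 := n23
    obtain ⟨c₁, hc₁⟩ := exists_smul_of_om v₁.2 (show om (mat(g.1).mulVec v₁.1) v₁.1 = 0 from h1)
    obtain ⟨c₂, hc₂⟩ := exists_smul_of_om v₂.2 (show om (mat(g.1).mulVec v₂.1) v₂.1 = 0 from h2)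
    obtain ⟨c₃, hc₃⟩ := exists_smul_of_om v₃.2 (show om (mat(g.1).mulVec v₃.1) v₃.1 = 0 from h3)
    have e12 := om_mulVec mat(g.1) v₁.1 v₂.1
    have e13 := om_mulVec mat(g.1) v₁.1 v₃.1
    have e23 := om_mulVec mat(g.1) v₂.1 v₃.1
    rw [hc₁, hc₂, om_smul_right, hdet g.1 g.2, one_mul] at e12
    rw [hc₁, hc₃, om_smul_right, hdet g.1 g.2, one_mul] at e13
    rw [hc₂, hc₃, om_smul_right, hdet g.1 g.2, one_mul] at e23
    have hs : ∀ (c : F) (v w : Fin 2 → F), om (c • v) w = c * om v w := by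
      intro c v w
      simp only [om, Pi.smul_apply, smul_eq_mul]; ring
    rw [hs] at e12 e13 e23
    have p12 : c₁ * c₂ = 1 := by
      have h4 : (c₂ * c₁ - 1) * om v₁.1 v₂.1 = 0 := by linear_combination e12
      have := sub_eq_zero.mp ((mul_eq_zero.mp h4).resolve_right n12')
      rw [mul_comm]; exact this
    have p13 : c₁ * c₃ = 1 := by
      have h4 : (c₃ * c₁ - 1) * om v₁.1 v₃.1 = 0 := by linear_combination e13
      have := sub_eq_zero.mp ((mul_eq_zero.mp h4).resolve_right n13')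
      rw [mul_comm]; exact this
    have p23 : c₂ * c₃ = 1 := by
      have h4 : (c₃ * c₂ - 1) * om v₂.1 v₃.1 = 0 := by linear_combination e23
      have := sub_eq_zero.mp ((mul_eq_zero.mp h4).resolve_right n23')
      rw [mul_comm]; exact this
    have q1 : c₁ ^ 2 = 1 := by linear_combination (-c₁ ^ 2) * p23 + (c₁ * c₃) * p12 + p13
    have q2 : c₂ ^ 2 = 1 := by linear_combination (-c₂ ^ 2) * p13 + (c₂ * c₃) * p12 + p23
    have f1 : (mat(g.1) * mat(g.1)).mulVec v₁.1 = v₁.1 := by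
      rw [← Matrix.mulVec_mulVec, hc₁, Matrix.mulVec_smul, hc₁, smul_smul, ← sq, q1, one_smul]
    have f2 : (mat(g.1) * mat(g.1)).mulVec v₂.1 = v₂.1 := by
      rw [← Matrix.mulVec_mulVec, hc₂, Matrix.mulVec_smul, hc₂, smul_smul, ← sq, q2, one_smul]
    have h5 := eq_one_of_fix_two _ n12' f1 f2
    apply hg
    apply Subtype.ext
    apply hsq g.1 g.2
    apply Units.ext
    rw [Units.val_mul, h5]
    rfl
  A5 g h v hg hh := by
    obtain ⟨c, hc⟩ := exists_smul_of_om v.2 (show om (mat(g.1).mulVec v.1) v.1 = 0 from hg)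
    obtain ⟨d, hd⟩ := exists_smul_of_om v.2 (show om (mat(h.1).mulVec v.1) v.1 = 0 from hh)
    have hc0 : c ≠ 0 := by
      rintro rfl
      rw [zero_smul] at hc
      exact gl_mulVec_ne_zero g.1 v.2 hc
    have hd0 : d ≠ 0 := by
      rintro rfl
      rw [zero_smul] at hd
      exact gl_mulVec_ne_zero h.1 v.2 hd
    have hci := gl_inv_smul g.1 v.2 hc
    have hdi := gl_inv_smul h.1 v.2 hd
    apply Subtype.ext
    show mat(((g * h * g⁻¹ * h⁻¹ : K₀) : GL (Fin 2) F)).mulVec v.1 = v.1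
    simp only [Subgroup.coe_mul, Subgroup.coe_inv, Units.val_mul]
    rw [← Matrix.mulVec_mulVec, ← Matrix.mulVec_mulVec, ← Matrix.mulVec_mulVec]
    simp only [hdi, Matrix.mulVec_smul, hci, hd, hc, smul_smul]
    have key : ∀ a : F, a = 1 → a • v.1 = v.1 := fun a h => by rw [h, one_smul]
    apply key
    field_simp
  A6 g v n hg hgn := by
    obtain ⟨c, hc⟩ := exists_smul_of_om v.2 (show om (mat(g.1).mulVec v.1) v.1 = 0 from hg)
    have h1 : mat(g.1) ^ (p ^ n) = 1 := by
      have h2 := congrArg (fun t : K₀ => mat(t.1)) hgn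
      simp only [Subgroup.coe_pow, Units.val_pow_eq_pow_val, Subgroup.coe_one, Units.val_one] at h2
      exact h2
    have h2 := gl_pow_smul mat(g.1) hc (p ^ n)
    rw [h1, Matrix.one_mulVec] at h2
    have h3 : c ^ (p ^ n) = 1 := by
      by_contra hne
      apply v.2
      have h4 : (c ^ (p ^ n) - 1) • v.1 = 0 := by rw [sub_smul, one_smul, ← h2, sub_self]
      rcases smul_eq_zero.mp h4 with h5 | h5
      · exact absurd (sub_eq_zero.mp h5) hne
      · exact h5
    have h4 : (c - 1) ^ (p ^ n) = 0 := by rw [sub_pow_char_pow, h3, one_pow, sub_self]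
    have h5 : c = 1 := sub_eq_zero.mp (pow_eq_zero_iff (pow_ne_zero _ (Fact.out : p.Prime).ne_zero) |>.mp h4)
    apply Subtype.ext
    show mat(g.1).mulVec v.1 = v.1
    rw [hc, h5, one_smul]
  A9 x m hx hmx hmxx := by
    obtain ⟨v, hv⟩ := hx
    obtain ⟨v', hv'⟩ := hmx
    obtain ⟨v'', hv''⟩ := hmxx
    have t1 := trace_eq_two_of_fix mat(x.1) (hdet x.1 x.2) v.2 (congrArg Subtype.val hv)
    have d2 : (mat(m.1) * mat(x.1)).det = 1 := by
      rw [Matrix.det_mul, hdet m.1 m.2, hdet x.1 x.2, one_mul]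
    have d3 : (mat(m.1) * mat(x.1) * mat(x.1)).det = 1 := by
      rw [Matrix.det_mul, d2, hdet x.1 x.2, one_mul]
    have t2 := trace_eq_two_of_fix (mat(m.1) * mat(x.1)) d2 v'.2 (by
      have h1 : mat(((m * x : K₀) : GL (Fin 2) F)).mulVec v'.1 = v'.1 := congrArg Subtype.val hv'
      rw [Subgroup.coe_mul, Units.val_mul] at h1
      exact h1)
    have t3 := trace_eq_two_of_fix (mat(m.1) * mat(x.1) * mat(x.1)) d3 v''.2 (by
      have h1 : mat(((m * x * x : K₀) : GL (Fin 2) F)).mulVec v''.1 = v''.1 :=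
        congrArg Subtype.val hv''
      rw [Subgroup.coe_mul, Subgroup.coe_mul, Units.val_mul, Units.val_mul] at h1
      exact h1)
    have t4 := trace_aux mat(x.1) mat(m.1) (hdet x.1 x.2) t1 t2 t3
    obtain ⟨w, hw0, hw⟩ := exists_fix_of_trace mat(m.1) (hdet m.1 m.2) t4
    exact ⟨⟨w, hw0⟩, Subtype.ext hw⟩

end Cfsg.Agent.H31
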