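import Mathlib
import Cfsg.Agent.H86.GsDefs

set_option autoImplicit false

/-!
# S5665 team project (helper86), piece GS-PROPER (helper31)

A non-trivial symplectic transvection does not normalise `K = F + F J`.
-/

namespace Cfsg.Agent.H31.Gs

open Cfsg Cfsg.Geo Cfsg.Agent.H95 Cfsg.Agent.H86.Gs
open scoped MatrixGroups Matrix

universe u

/-- Non-degeneracy of `sympForm` on the right. -/
lemma gsSympNondeg {m : ℕ} {F : Type*} [Field F] (v : V m F)
    (h : ∀ x : V m F, sympForm m F x v = 0) : v = 0 := by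
  have h1 : Matrix.J (Fin m) F *ᵥ v = 0 := by
    funext i
    have := h (Pi.single i 1)
    unfold sympForm at this
    simpa using this
  have h2 : (Matrix.J (Fin m) F * Matrix.J (Fin m) F) *ᵥ v = 0 := by
    rw [← Matrix.mulVec_mulVec, h1, Matrix.mulVec_zero]
  rw [Matrix.J_squared] at h2
  simpa [Matrix.neg_mulVec] using h2

theorem gsProper : StProper.{u} := by
  intro m F _ J δ C hm K hK v hv hT
  have hT' : ∀ k : Mat m F, k ∈ K ↔
      ((sympTransv v 1 : GL (Fin m ⊕ Fin m) F) : Mat m F) * k *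
        (((sympTransv v 1)⁻¹ : GL (Fin m ⊕ Fin m) F) : Mat m F) ∈ K := hT
  have hJK : J ∈ K := (hK J).mpr ⟨0, 1, by simp⟩
  obtain ⟨a, b, hab⟩ := (hK _).mp ((hT' J).mp hJK)
  have h2 : ((sympTransv v 1 : GL (Fin m ⊕ Fin m) F) : Mat m F) * J
      = (a • (1 : Mat m F) + b • J) * ((sympTransv v 1 : GL (Fin m ⊕ Fin m) F) : Mat m F) := by
    rw [← hab, mul_assoc, ← Units.val_mul, inv_mul_cancel, Units.val_one, mul_one]
  have key : ∀ x : V m F, J *ᵥ x + sympForm m F (J *ᵥ x) v • v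
      = a • x + (a * sympForm m F x v) • v + b • (J *ᵥ x)
        + (b * sympForm m F x v) • (J *ᵥ v) := by
    intro x
    have h3 : (((sympTransv v 1 : GL (Fin m ⊕ Fin m) F) : Mat m F) * J) *ᵥ x
        = ((a • (1 : Mat m F) + b • J) * ((sympTransv v 1 : GL (Fin m ⊕ Fin m) F) : Mat m F)) *ᵥ x := by
      rw [h2]
    rw [← Matrix.mulVec_mulVec, ← Matrix.mulVec_mulVec, sympTransv_mulVec, sympTransv_mulVec,
      Matrix.add_mulVec, Matrix.smul_mulVec, Matrix.smul_mulVec, Matrix.one_mulVec,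
      Matrix.mulVec_add, Matrix.mulVec_smul, one_mul, one_mul] at h3
    rw [h3]
    module
  obtain ⟨s, hs⟩ : ∃ s, s = sympForm m F (J *ᵥ v) v := ⟨_, rfl⟩
  -- x = v
  have e1 : (a - s) • v + (b - 1) • (J *ᵥ v) = 0 := by
    have h := key v
    rw [sympForm_self, ← hs] at h
    have e : (a - s) • v + (b - 1) • (J *ᵥ v)
        = (a • v + (a * 0) • v + b • (J *ᵥ v) + (b * 0) • (J *ᵥ v)) - (J *ᵥ v + s • v) := by
      module
    rw [e, ← h, sub_self]
  obtain ⟨ha, hb⟩ := C.indep hv e1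
  have ha' : a = s := sub_eq_zero.mp ha
  have hb' : b = 1 := sub_eq_zero.mp hb
  -- x = J v
  have e2 : (s * s) • v + (2 * s) • (J *ᵥ v) = 0 := by
    have h := key (J *ᵥ v)
    have hJJ : J *ᵥ (J *ᵥ v) = -(δ • v) := C.sq v
    rw [hJJ, ← hs, ha', hb'] at h
    have h0 : sympForm m F (-(δ • v)) v = 0 := by
      rw [show -(δ • v) = (-δ) • v by rw [neg_smul], sympForm_smul_left, sympForm_self, mul_zero]
    rw [h0] at h
    have e : (s * s) • v + (2 * s) • (J *ᵥ v)
        = (s • (J *ᵥ v) + (s * s) • v + (1 : F) • -(δ • v) + (1 * s) • (J *ᵥ v))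
          - (-(δ • v) + (0 : F) • v) := by
      module
    rw [e, ← h, sub_self]
  obtain ⟨_, h2s⟩ := C.indep hv e2
  have hs0 : s = 0 := by
    rcases mul_eq_zero.mp h2s with h | h
    · exact absurd h C.two
    · exact h
  have ha0 : a = 0 := by rw [ha', hs0]
  -- general x
  apply hv
  apply gsSympNondeg
  intro x
  have h := key x
  rw [ha0, hb'] at h
  have e3 : sympForm m F (J *ᵥ x) v • v + (- sympForm m F x v) • (J *ᵥ v) = 0 := by
    have e : sympForm m F (J *ᵥ x) v • v + (- sympForm m F x v) • (J *ᵥ v)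
        = (J *ᵥ x + sympForm m F (J *ᵥ x) v • v)
          - ((0 : F) • x + (0 * sympForm m F x v) • v + (1 : F) • (J *ᵥ x)
            + (1 * sympForm m F x v) • (J *ᵥ v)) := by
      module
    rw [e, h, sub_self]
  obtain ⟨_, h4⟩ := C.indep hv e3
  exact neg_eq_zero.mp h4

example : Cfsg.Agent.H86.Gs.StProper.{u} := gsProper

end Cfsg.Agent.H31.Gs
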