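import Mathlib
import Cfsg.Agent.H86.GsDefs

set_option autoImplicit false

/-!
# S5665 team project (helper86), piece GS-SEMI (helper31)

A matrix mapping every good vector `e` into `span {e, J e}` lies in `K = F + F J`.
-/

namespace Cfsg.Agent.H31.Gs

open Cfsg Cfsg.Geo Cfsg.Agent.H95 Cfsg.Agent.H86.Gs
open scoped MatrixGroups Matrix

universe u

section SemiAux

variable {m : ℕ} {F : Type*} [Field F] {J : Mat m F} {δ : F}

lemma semiPsiAdd (C : Ctx J δ) (x y : V m F) (h : sympForm m F y (J *ᵥ x) = 0) :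
    psi J (x + y) = psi J x + psi J y := by
  have h' : sympForm m F x (J *ᵥ y) = 0 := by
    rw [C.skew', sympForm_skew, h]; simp
  unfold psi
  rw [Matrix.mulVec_add]
  simp only [sympForm_add_left, sympForm_add_right]
  rw [h, h']; ring

lemma semiPsiJ (C : Ctx J δ) (x : V m F) : psi J (J *ᵥ x) = δ * psi J x := by
  have h := C.psi_comb 0 1 x
  have e : (0 : F) • x + (1 : F) • (J *ᵥ x) = J *ᵥ x := by module
  rw [e] at h
  rw [h]; ring

lemma semiPsiAddJ (C : Ctx J δ) (x : V m F) : psi J (x + J *ᵥ x) = (1 + δ) * psi J x := by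
  have h := C.psi_comb 1 1 x
  have e : (1 : F) • x + (1 : F) • (J *ᵥ x) = x + J *ᵥ x := by module
  rw [e] at h
  rw [h]; ring

lemma semiPsiSubJ (C : Ctx J δ) (x : V m F) : psi J (x - J *ᵥ x) = (1 + δ) * psi J x := by
  have h := C.psi_comb 1 (-1) x
  have e : (1 : F) • x + (-1 : F) • (J *ᵥ x) = x - J *ᵥ x := by module
  rw [e] at h
  rw [h]; ring

lemma semiNeZero {x : V m F} (hx : psi J x ≠ 0) : x ≠ 0 := by
  intro h
  apply hx
  rw [h]
  unfold psi
  exact sympForm_zero_left _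

/-- The key step: if `B` preserves all good `K`-lines, kills the good vector `x`, and `y` is
good, `K`-orthogonal to `x`, with `x + y` good, then `B` kills `y`. -/
lemma semiKey (C : Ctx J δ) {B : Mat m F}
    (hB : ∀ e : V m F, psi J e ≠ 0 → ∃ a b : F, B *ᵥ e = a • e + b • (J *ᵥ e))
    {x y : V m F} (hx : psi J x ≠ 0) (hBx : B *ᵥ x = 0) (hy : psi J y ≠ 0)
    (hyx : sympForm m F y x = 0) (hyJx : sympForm m F y (J *ᵥ x) = 0)
    (hxy : psi J (x + y) ≠ 0) : B *ᵥ y = 0 := by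
  obtain ⟨a, b, hab⟩ := hB y hy
  obtain ⟨c, d, hcd⟩ := hB (x + y) hxy
  have E : c • (x + y) + d • (J *ᵥ (x + y)) = a • y + b • (J *ᵥ y) := by
    rw [← hcd, ← hab, Matrix.mulVec_add, hBx, zero_add]
  have h1 : sympForm m F (J *ᵥ y) (J *ᵥ x) = 0 := by rw [C.formJJ, hyx, mul_zero]
  have h2 : sympForm m F (J *ᵥ y) x = 0 := by rw [C.skew, hyJx, neg_zero]
  have h3 : sympForm m F (J *ᵥ x) x = - psi J x := by rw [C.skew]; rfl
  have h4 : sympForm m F x (J *ᵥ x) = psi J x := rfl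
  have E1 := congrArg (fun w => sympForm m F w (J *ᵥ x)) E
  simp only [Matrix.mulVec_add, sympForm_add_left, sympForm_smul_left, sympForm_self, h1, h4,
    hyJx] at E1
  have hc : c = 0 := by
    have : c * psi J x = 0 := by linear_combination E1
    exact (mul_eq_zero.mp this).resolve_right hx
  have E2 := congrArg (fun w => sympForm m F w x) E
  simp only [Matrix.mulVec_add, sympForm_add_left, sympForm_smul_left, sympForm_self, h2, h3,
    hyx] at E2
  have hd : d = 0 := by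
    have : d * psi J x = 0 := by linear_combination -E2
    exact (mul_eq_zero.mp this).resolve_right hx
  have E' : a • y + b • (J *ᵥ y) = 0 := by
    rw [← E, hc, hd, zero_smul, zero_smul, add_zero]
  obtain ⟨ha, hb⟩ := C.indep (semiNeZero hy) E'
  rw [hab, ha, hb, zero_smul, zero_smul, add_zero]

end SemiAux

theorem gsSemi (hGood : StGood.{u}) : StSemi.{u} := by
  intro m F _ J δ C hm A hA
  have hδ : (1 : F) + δ ≠ 0 := by
    have := C.irr 1
    simpa using this
  obtain ⟨e₀, -, he₀, -⟩ := hGood J δ C hm 0 0 (sympForm_zero_left _) (sympForm_zero_left _)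
  obtain ⟨a₀, b₀, h₀⟩ := hA e₀ he₀
  refine ⟨a₀, b₀, ?_⟩
  obtain ⟨B, hBdef⟩ : ∃ B : Mat m F, B = A - (a₀ • (1 : Mat m F) + b₀ • J) := ⟨_, rfl⟩
  have hBv : ∀ x : V m F, B *ᵥ x = A *ᵥ x - (a₀ • x + b₀ • (J *ᵥ x)) := by
    intro x
    rw [hBdef, Matrix.sub_mulVec, Matrix.add_mulVec, Matrix.smul_mulVec, Matrix.smul_mulVec,
      Matrix.one_mulVec]
  have hB : ∀ e : V m F, psi J e ≠ 0 → ∃ a b : F, B *ᵥ e = a • e + b • (J *ᵥ e) := by
    intro e he
    obtain ⟨a, b, hab⟩ := hA e he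
    exact ⟨a - a₀, b - b₀, by rw [hBv, hab]; module⟩
  have hBe₀ : B *ᵥ e₀ = 0 := by rw [hBv, h₀, sub_self]
  suffices hB0 : ∀ x : V m F, B *ᵥ x = 0 by
    have hz : B = 0 := H17.matrix_ext_mulVec (fun x => by rw [hB0, Matrix.zero_mulVec])
    rw [hBdef] at hz
    exact sub_eq_zero.mp hz
  -- step 1: good vectors of the `K`-orthogonal complement of `e₀` are killed
  have step1 : ∀ y : V m F, psi J y ≠ 0 → sympForm m F y e₀ = 0 →
      sympForm m F y (J *ᵥ e₀) = 0 → B *ᵥ y = 0 := by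
    intro y hy hy1 hy2
    by_cases hsum : psi J (e₀ + y) = 0
    · have hps : psi J e₀ + psi J y = 0 := by rw [← semiPsiAdd C e₀ y hy2]; exact hsum
      have hJy1 : sympForm m F (J *ᵥ y) e₀ = 0 := by rw [C.skew, hy2, neg_zero]
      have hJy2 : sympForm m F (J *ᵥ y) (J *ᵥ e₀) = 0 := by rw [C.formJJ, hy1, mul_zero]
      have hne : psi J e₀ + (1 + δ) * psi J y ≠ 0 := by
        intro h
        have h' : δ * psi J y = 0 := by linear_combination h - hps
        rcases mul_eq_zero.mp h' with h'' | h''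
        · exact C.delta_ne h''
        · exact hy h''
      have g1 : B *ᵥ (y + J *ᵥ y) = 0 := by
        have q : sympForm m F (y + J *ᵥ y) (J *ᵥ e₀) = 0 := by
          rw [sympForm_add_left, hy2, hJy2, add_zero]
        apply semiKey C hB he₀ hBe₀ (y := y + J *ᵥ y)
        · rw [semiPsiAddJ C]; exact mul_ne_zero hδ hy
        · rw [sympForm_add_left, hy1, hJy1, add_zero]
        · exact q
        · rw [semiPsiAdd C _ _ q, semiPsiAddJ C]; exact hne
      have g2 : B *ᵥ (y - J *ᵥ y) = 0 := by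
        have q : sympForm m F (y - J *ᵥ y) (J *ᵥ e₀) = 0 := by
          rw [sympForm_sub_left, hy2, hJy2, sub_zero]
        apply semiKey C hB he₀ hBe₀ (y := y - J *ᵥ y)
        · rw [semiPsiSubJ C]; exact mul_ne_zero hδ hy
        · rw [sympForm_sub_left, hy1, hJy1, sub_zero]
        · exact q
        · rw [semiPsiAdd C _ _ q, semiPsiSubJ C]; exact hne
      have h2 : (2 : F) • (B *ᵥ y) = 0 := by
        have e : (2 : F) • (B *ᵥ y) = B *ᵥ (y + J *ᵥ y) + B *ᵥ (y - J *ᵥ y) := by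
          rw [← Matrix.mulVec_add, ← Matrix.mulVec_smul]
          congr 1
          module
        rw [e, g1, g2, add_zero]
      exact (smul_eq_zero.mp h2).resolve_left C.two
    · exact semiKey C hB he₀ hBe₀ hy hy1 hy2 hsum
  -- step 2: the whole `K`-orthogonal complement of `e₀` is killed
  have step2 : ∀ y : V m F, sympForm m F y e₀ = 0 → sympForm m F y (J *ᵥ e₀) = 0 →
      B *ᵥ y = 0 := by
    intro y hy1 hy2
    obtain ⟨y₁, y₂, h1, h2, h3, h4, h5, h6, rfl⟩ := hGood J δ C hm e₀ y hy1 hy2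
    rw [Matrix.mulVec_add, step1 y₁ h1 h3 h4, step1 y₂ h2 h5 h6, add_zero]
  -- step 3: `J e₀` is killed
  have step3 : B *ᵥ (J *ᵥ e₀) = 0 := by
    obtain ⟨w, -, hw, -, hw1, hw2, -⟩ :=
      hGood J δ C hm e₀ 0 (sympForm_zero_left _) (sympForm_zero_left _)
    have hex : ∃ w' : V m F, psi J w' ≠ 0 ∧ sympForm m F w' e₀ = 0 ∧
        sympForm m F w' (J *ᵥ e₀) = 0 ∧ psi J w' + δ * psi J e₀ ≠ 0 := by
      by_cases hc : psi J w + δ * psi J e₀ = 0
      · refine ⟨w + J *ᵥ w, ?_, ?_, ?_, ?_⟩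
        · rw [semiPsiAddJ C]; exact mul_ne_zero hδ hw
        · rw [sympForm_add_left, hw1, C.skew, hw2, neg_zero, add_zero]
        · rw [sympForm_add_left, hw2, C.formJJ, hw1, mul_zero, add_zero]
        · rw [semiPsiAddJ C]
          intro h
          have h' : δ * psi J w = 0 := by linear_combination h - hc
          rcases mul_eq_zero.mp h' with h'' | h''
          · exact C.delta_ne h''
          · exact hw h''
      · exact ⟨w, hw, hw1, hw2, hc⟩
    obtain ⟨w', hw', hw'1, hw'2, hne⟩ := hex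
    have hBw' : B *ᵥ w' = 0 := step1 w' hw' hw'1 hw'2
    have q : sympForm m F (J *ᵥ e₀) (J *ᵥ w') = 0 := by
      rw [C.formJJ, sympForm_skew, hw'1, neg_zero, mul_zero]
    apply semiKey C hB hw' hBw' (y := J *ᵥ e₀)
    · rw [semiPsiJ C]; exact mul_ne_zero C.delta_ne he₀
    · rw [sympForm_skew, hw'2, neg_zero]
    · exact q
    · rw [semiPsiAdd C _ _ q, semiPsiJ C]; exact hne
  -- conclusion
  intro x
  have hJe : sympForm m F (J *ᵥ e₀) e₀ = - psi J e₀ := by rw [C.skew]; rfl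
  have hee : sympForm m F e₀ (J *ᵥ e₀) = psi J e₀ := rfl
  obtain ⟨α, hα⟩ : ∃ α : F, α = (psi J e₀)⁻¹ * sympForm m F x (J *ᵥ e₀) := ⟨_, rfl⟩
  obtain ⟨β, hβ⟩ : ∃ β : F, β = -((psi J e₀)⁻¹ * sympForm m F x e₀) := ⟨_, rfl⟩
  have hy1 : sympForm m F (x - (α • e₀ + β • (J *ᵥ e₀))) e₀ = 0 := by
    rw [sympForm_sub_left, sympForm_add_left, sympForm_smul_left, sympForm_smul_left,
      sympForm_self, hJe, hα, hβ]
    field_simp
    ring
  have hy2 : sympForm m F (x - (α • e₀ + β • (J *ᵥ e₀))) (J *ᵥ e₀) = 0 := by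
    rw [sympForm_sub_left, sympForm_add_left, sympForm_smul_left, sympForm_smul_left,
      sympForm_self, hee, hα, hβ]
    field_simp
    ring
  have hx : x = α • e₀ + β • (J *ᵥ e₀) + (x - (α • e₀ + β • (J *ᵥ e₀))) := by abel
  rw [hx, Matrix.mulVec_add, Matrix.mulVec_add, Matrix.mulVec_smul, Matrix.mulVec_smul, hBe₀,
    step3, step2 _ hy1 hy2, smul_zero, smul_zero, add_zero, add_zero]

example (hGood : Cfsg.Agent.H86.Gs.StGood.{u}) : Cfsg.Agent.H86.Gs.StSemi.{u} := gsSemi hGood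

end Cfsg.Agent.H31.Gs
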