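import Cfsg.Agent.S0035
import Cfsg.Agent.H31.CN
import Cfsg.Agent.H31.Cores

/-!
# Odd-order groups acting on a "projective line" (helper31)

An abstract version of the argument that a finite group of odd order of unimodular `2 × 2`
matrices in characteristic `p`, of order divisible by `p`, fixes a line.
-/

set_option autoImplicit false

namespace Cfsg.Agent.H31

open Cfsg
open scoped Pointwise

universe u v

/-- Abstract data: a group acting on "vectors" with a "parallel" relation, satisfying the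
properties of a group of unimodular `2 × 2` matrices in characteristic `p`. -/
structure LineData (K : Type u) [Group K] (V : Type v) (p : ℕ) where
  act : K → V → V
  par : V → V → Prop
  act_one : ∀ v, act 1 v = v
  act_mul : ∀ g h v, act (g * h) v = act g (act h v)
  par_refl : ∀ v, par v v
  par_symm : ∀ v w, par v w → par w v
  par_trans : ∀ u v w, par u v → par v w → par u w
  par_act : ∀ g v w, par v w → par (act g v) (act g w)
  A1 : ∀ g v, act g v = v → g ^ p = 1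
  A2 : ∀ g v w, g ≠ 1 → act g v = v → par (act g w) w → par w v
  A3 : ∀ g, g ^ p = 1 → ∃ v, act g v = v
  A4 : ∀ g v₁ v₂ v₃, g ≠ 1 → par (act g v₁) v₁ → par (act g v₂) v₂ → par (act g v₃) v₃ →
    par v₁ v₂ ∨ par v₁ v₃ ∨ par v₂ v₃
  A5 : ∀ g h v, par (act g v) v → par (act h v) v → act (g * h * g⁻¹ * h⁻¹) v = v
  A6 : ∀ g v (n : ℕ), par (act g v) v → g ^ (p ^ n) = 1 → act g v = v
  A9 : ∀ x m, (∃ v, act x v = v) → (∃ v, act (m * x) v = v) → (∃ v, act (m * x * x) v = v) →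
    ∃ v, act m v = v

namespace LineData

variable {K : Type u} [Group K] {V : Type v} {p : ℕ} (D : LineData K V p)

/-- The stabilizer of the line through `v₀`. -/
def lineStab (v₀ : V) : Subgroup K where
  carrier := {g | D.par (D.act g v₀) v₀}
  one_mem' := by
    show D.par (D.act 1 v₀) v₀
    rw [D.act_one]; exact D.par_refl v₀
  mul_mem' := by
    intro g h hg hh
    show D.par (D.act (g * h) v₀) v₀
    rw [D.act_mul]
    exact D.par_trans _ _ _ (D.par_act g _ _ hh) hg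
  inv_mem' := by
    intro g hg
    show D.par (D.act g⁻¹ v₀) v₀
    have h1 := D.par_act g⁻¹ _ _ hg
    rw [← D.act_mul, inv_mul_cancel, D.act_one] at h1
    exact D.par_symm _ _ h1

theorem mem_lineStab (v₀ : V) (g : K) : g ∈ D.lineStab v₀ ↔ D.par (D.act g v₀) v₀ := Iff.rfl

/-- The stabilizer of the vector `v₀`. -/
def vecStab (v₀ : V) : Subgroup K where
  carrier := {g | D.act g v₀ = v₀}
  one_mem' := D.act_one v₀
  mul_mem' := by
    intro g h hg hh
    show D.act (g * h) v₀ = v₀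
    rw [D.act_mul, show D.act h v₀ = v₀ from hh]
    exact hg
  inv_mem' := by
    intro g hg
    show D.act g⁻¹ v₀ = v₀
    have h1 : D.act g v₀ = v₀ := hg
    have h2 : D.act g⁻¹ (D.act g v₀) = v₀ := by rw [← D.act_mul, inv_mul_cancel, D.act_one]
    rw [h1] at h2
    exact h2

theorem mem_vecStab (v₀ : V) (g : K) : g ∈ D.vecStab v₀ ↔ D.act g v₀ = v₀ := Iff.rfl


theorem exists_invariant_line [Finite K] (D : LineData K V p) [Fact p.Prime]
    (hodd : Odd (Nat.card K)) (hp : p ∣ Nat.card K) :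
    ∃ v₀, (∃ x : K, x ≠ 1 ∧ D.act x v₀ = v₀) ∧ ∀ g : K, D.par (D.act g v₀) v₀ := by
  classical
  have hpp : p.Prime := Fact.out
  have hsq : ∀ g : K, g * g = 1 → g = 1 := by
    intro g hg
    have h1 : orderOf g ∣ 2 := orderOf_dvd_of_pow_eq_one (by rw [sq]; exact hg)
    have h2 : orderOf g ∣ Nat.card K := orderOf_dvd_natCard g
    have h3 : orderOf g ∣ Nat.gcd 2 (Nat.card K) := Nat.dvd_gcd h1 h2
    have h4 : Nat.gcd 2 (Nat.card K) = 1 := Nat.coprime_two_left.mpr hodd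
    rw [h4, Nat.dvd_one] at h3
    exact orderOf_eq_one_iff.mp h3
  have hmem_of_sq : ∀ (N : Subgroup K) (g : K), g * g ∈ N → g ∈ N := by
    intro N g hg
    have hoo : Odd (orderOf g) := Odd.of_dvd_nat hodd (orderOf_dvd_natCard g)
    obtain ⟨j, hj⟩ := hoo
    have h1 : g = (g * g) ^ (j + 1) := by
      rw [← sq, ← pow_mul, show 2 * (j + 1) = orderOf g + 1 by omega, pow_succ,
        pow_orderOf_eq_one, one_mul]
    rw [h1]; exact N.pow_mem hg _
  obtain ⟨S⟩ : Nonempty (Sylow p K) := inferInstance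
  have hS1 : (S : Subgroup K) ≠ ⊥ := S.ne_bot_of_dvd_card hp
  obtain ⟨z, hzS, hz1, hzc⟩ := exists_fixed_in_pgroup hpp (S : Subgroup K) (S : Subgroup K) S.2 S.2
    hS1 (fun a ha b hb => mul_mem (mul_mem ha hb) (inv_mem ha))
  have hpow : ∀ s ∈ (S : Subgroup K), ∃ n : ℕ, orderOf s = p ^ n := by
    intro s hs
    obtain ⟨n, hn⟩ := (IsPGroup.iff_orderOf.mp S.2) ⟨s, hs⟩
    exact ⟨n, by rw [← hn, Subgroup.orderOf_mk]⟩
  obtain ⟨k, hk⟩ := hpow z hzS
  have hk0 : k ≠ 0 := by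
    rintro rfl
    rw [pow_zero, orderOf_eq_one_iff] at hk
    exact hz1 hk
  obtain ⟨x, hx⟩ : ∃ x : K, x = z ^ (p ^ (k - 1)) := ⟨_, rfl⟩
  have hxp : x ^ p = 1 := by
    rw [hx, ← pow_mul, ← pow_succ, Nat.sub_add_cancel (Nat.pos_of_ne_zero hk0), ← hk]
    exact pow_orderOf_eq_one z
  have hx1 : x ≠ 1 := by
    rw [hx]
    apply pow_ne_one_of_lt_orderOf (pow_ne_zero _ hpp.ne_zero)
    rw [hk]
    exact Nat.pow_lt_pow_right hpp.one_lt (by omega)
  have hxS : x ∈ (S : Subgroup K) := by rw [hx]; exact (S : Subgroup K).pow_mem hzS _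
  have hxc : ∀ a ∈ (S : Subgroup K), a * x = x * a := fun a ha => by
    rw [hx]; exact ((show Commute a z from hzc a ha).pow_right _).eq
  obtain ⟨v₀, hxv⟩ := D.A3 x hxp
  have hSv : ∀ s ∈ (S : Subgroup K), D.act s v₀ = v₀ := by
    intro s hs
    have h1 : D.act x (D.act s v₀) = D.act s v₀ := by
      rw [← D.act_mul, ← hxc s hs, D.act_mul, hxv]
    have h2 : D.par v₀ (D.act s v₀) :=
      D.A2 x (D.act s v₀) v₀ hx1 h1 (by rw [hxv]; exact D.par_refl v₀)
    obtain ⟨n, hn⟩ := hpow s hs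
    have hn' : s ^ (p ^ n) = 1 := by rw [← hn]; exact pow_orderOf_eq_one s
    exact D.A6 s v₀ n (D.par_symm _ _ h2) hn'
  have hSeq : D.vecStab v₀ = (S : Subgroup K) := by
    apply S.is_maximal'
    · intro g
      refine ⟨1, ?_⟩
      rw [pow_one]
      exact Subtype.ext (D.A1 g v₀ g.2)
    · exact fun s hs => hSv s hs
  refine ⟨v₀, ⟨x, hx1, hxv⟩, ?_⟩
  by_contra hcon
  push Not at hcon
  have hNtop : D.lineStab v₀ ≠ ⊤ := by
    intro h
    obtain ⟨g, hg⟩ := hcon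
    exact hg ((D.mem_lineStab v₀ g).mp (h ▸ Subgroup.mem_top g))
  have hSN : (S : Subgroup K) ≤ D.lineStab v₀ := fun s hs => by
    rw [D.mem_lineStab, hSv s hs]; exact D.par_refl v₀
  have hNbot : D.lineStab v₀ ≠ ⊥ := by
    intro h
    rw [h] at hSN
    exact hS1 (le_bot_iff.mp hSN)
  have hNS : ∀ y ∈ D.lineStab v₀, ∀ s ∈ (S : Subgroup K), y * s * y⁻¹ ∈ (S : Subgroup K) := by
    intro y hy s hs
    rw [← hSeq, D.mem_vecStab]
    have h1 := D.A5 y s v₀ hy (hSN hs)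
    have h2 : y * s * y⁻¹ = (y * s * y⁻¹ * s⁻¹) * s := by group
    rw [h2, D.act_mul, hSv s hs, h1]
  by_cases hTI : ∀ k : K, k ∉ D.lineStab v₀ → D.lineStab v₀ ⊓ (MulAut.conj k • D.lineStab v₀) = ⊥
  · -- the Frobenius case
    obtain ⟨M, -, hMn, hMN⟩ := Cfsg.Agent.S0035.result (D.lineStab v₀) ⟨hNbot, hNtop, hTI⟩
    have hMN1 : ∀ m, m ∈ M → m ∈ D.lineStab v₀ → m = 1 := by
      intro m h1 h2
      have h3 : m ∈ M ⊓ D.lineStab v₀ := ⟨h1, h2⟩
      rw [hMN.disjoint.eq_bot, Subgroup.mem_bot] at h3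
      exact h3
    have hxx1 : x * x ≠ 1 := fun h => hx1 (hsq x h)
    have hxxv : D.act (x * x) v₀ = v₀ := by rw [D.act_mul, hxv, hxv]
    have key : ∀ y : K, y ≠ 1 → D.act y v₀ = v₀ → ∀ m ∈ M, ∃ v, D.act (m * y) v = v := by
      intro y hy1 hyv m hm
      let f : M → M := fun n =>
        ⟨(n : K)⁻¹ * (y * n * y⁻¹), M.mul_mem (M.inv_mem n.2) (hMn.conj_mem n n.2 y)⟩
      have hf : Function.Injective f := by
        intro n n' h
        have h1 : (n : K)⁻¹ * (y * n * y⁻¹) = (n' : K)⁻¹ * (y * n' * y⁻¹) :=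
          congrArg Subtype.val h
        have h2 : y * ((n' : K) * (n : K)⁻¹) = ((n' : K) * (n : K)⁻¹) * y := by
          have e : (n' : K) * ((n : K)⁻¹ * (y * n * y⁻¹)) * y * (n : K)⁻¹ =
              (n' : K) * ((n' : K)⁻¹ * (y * n' * y⁻¹)) * y * (n : K)⁻¹ := by rw [h1]
          have e1 : (n' : K) * ((n : K)⁻¹ * (y * n * y⁻¹)) * y * (n : K)⁻¹ =
              (n' : K) * (n : K)⁻¹ * y := by group
          have e2 : (n' : K) * ((n' : K)⁻¹ * (y * n' * y⁻¹)) * y * (n : K)⁻¹ =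
              y * ((n' : K) * (n : K)⁻¹) := by group
          rw [e1, e2] at e
          exact e.symm
        have h3 : D.act y (D.act ((n' : K) * (n : K)⁻¹) v₀) = D.act ((n' : K) * (n : K)⁻¹) v₀ := by
          rw [← D.act_mul, h2, D.act_mul, hyv]
        have h4 : D.par v₀ (D.act ((n' : K) * (n : K)⁻¹) v₀) :=
          D.A2 y _ v₀ hy1 h3 (by rw [hyv]; exact D.par_refl v₀)
        have h5 : (n' : K) * (n : K)⁻¹ = 1 :=
          hMN1 _ (M.mul_mem n'.2 (M.inv_mem n.2)) (D.par_symm _ _ h4)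
        ext
        exact (mul_inv_eq_one.mp h5).symm
      obtain ⟨n, hn⟩ := (Finite.injective_iff_surjective.mp hf) ⟨m, hm⟩
      have hn' : (n : K)⁻¹ * (y * n * y⁻¹) = m := congrArg Subtype.val hn
      refine ⟨D.act (n : K)⁻¹ v₀, ?_⟩
      have e : m * y * (n : K)⁻¹ = (n : K)⁻¹ * y := by rw [← hn']; group
      rw [← D.act_mul, e, D.act_mul, hyv]
    have hpM : ¬ p ∣ Nat.card M := by
      intro hdvd
      have h1 := hMN.card_mul_card
      have h2 := card_mul_relIndex_of_le hSN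
      have h3 := (S : Subgroup K).card_mul_index
      have h4 : Nat.card (S : Subgroup K) * (Nat.card M * (S : Subgroup K).relIndex (D.lineStab v₀)) =
          Nat.card (S : Subgroup K) * (S : Subgroup K).index := by
        rw [h3, ← h1, ← h2]; ring
      have h5 := Nat.eq_of_mul_eq_mul_left Nat.card_pos h4
      exact S.not_dvd_index (h5 ▸ Dvd.dvd.mul_right hdvd _)
    have hM1 : ∀ m ∈ M, m = 1 := by
      intro m hm
      obtain ⟨v, hv⟩ := D.A9 x m ⟨v₀, hxv⟩ (key x hx1 hxv m hm) (by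
        obtain ⟨v, hv⟩ := key (x * x) hxx1 hxxv m hm
        exact ⟨v, by rw [mul_assoc]; exact hv⟩)
      have hmp : m ^ p = 1 := D.A1 m v hv
      have h1 : orderOf m ∣ p := orderOf_dvd_of_pow_eq_one hmp
      rcases (Nat.dvd_prime hpp).mp h1 with h | h
      · exact orderOf_eq_one_iff.mp h
      · exact absurd (h ▸ Subgroup.orderOf_dvd_natCard M hm) hpM
    apply hNtop
    have h1 := hMN.sup_eq_top
    have h2 : M = ⊥ := eq_bot_iff.mpr (fun m hm => Subgroup.mem_bot.mpr (hM1 m hm))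
    rw [h2, bot_sup_eq] at h1
    exact h1
  · -- two fixed lines: an element swapping them
    push Not at hTI
    obtain ⟨k, hkN, hne⟩ := hTI
    obtain ⟨g, hg, hg1⟩ : ∃ g ∈ D.lineStab v₀ ⊓ (MulAut.conj k • D.lineStab v₀), g ≠ 1 := by
      by_contra h
      push Not at h
      exact hne (eq_bot_iff.mpr (fun g hg => Subgroup.mem_bot.mpr (h g hg)))
    obtain ⟨hgN, hgk⟩ := Subgroup.mem_inf.mp hg
    rw [Subgroup.mem_pointwise_smul_iff_inv_smul_mem, MulAut.smul_def, MulAut.conj_inv_apply] at hgk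
    obtain ⟨g', hg'⟩ : ∃ g' : K, g' = k⁻¹ * g * k := ⟨_, rfl⟩
    rw [← hg'] at hgk
    have hg'1 : g' ≠ 1 := by
      intro h
      apply hg1
      have e : g = k * g' * k⁻¹ := by rw [hg']; group
      rw [e, h]; group
    obtain ⟨v₁, hv₁⟩ : ∃ v, v = D.act k v₀ := ⟨_, rfl⟩
    obtain ⟨v₂, hv₂⟩ : ∃ v, v = D.act k⁻¹ v₀ := ⟨_, rfl⟩
    have hv₁0 : ¬ D.par v₁ v₀ := by rw [hv₁]; exact hkN
    have hv₂0 : ¬ D.par v₂ v₀ := by
      rw [hv₂]
      intro h
      apply hkN
      have h1 := (D.lineStab v₀).inv_mem ((D.mem_lineStab v₀ k⁻¹).mpr h)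
      rwa [inv_inv] at h1
    have hgv₁ : D.par (D.act g v₁) v₁ := by
      have h1 : D.act g v₁ = D.act k (D.act g' v₀) := by
        rw [hv₁, ← D.act_mul, ← D.act_mul]
        congr 1
        rw [hg']; group
      rw [h1, hv₁]
      exact D.par_act k _ _ hgk
    have hg'v₂ : D.par (D.act g' v₂) v₂ := by
      have h1 : D.act g' v₂ = D.act k⁻¹ (D.act g v₀) := by
        rw [hv₂, ← D.act_mul, ← D.act_mul]
        congr 1
        rw [hg']; group
      rw [h1, hv₂]
      exact D.par_act k⁻¹ _ _ hgN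
    have hcent : ∀ (y : K) (w : V), y ≠ 1 → y ∈ D.lineStab v₀ → D.par (D.act y w) w →
        ¬ D.par w v₀ → ∀ s ∈ (S : Subgroup K), s * y = y * s → s = 1 := by
      intro y w hy1 hyN hyw hw0 s hs hsy
      by_contra hs1
      have h1 : D.par (D.act y (D.act s w)) (D.act s w) := by
        rw [← D.act_mul, ← hsy, D.act_mul]
        exact D.par_act s _ _ hyw
      rcases D.A4 y v₀ w (D.act s w) hy1 hyN hyw h1 with h | h | h
      · exact hw0 (D.par_symm _ _ h)
      · have h2 := D.par_act s⁻¹ _ _ h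
        rw [← D.act_mul s⁻¹ s, inv_mul_cancel, D.act_one, hSv _ (inv_mem hs)] at h2
        exact hw0 (D.par_symm _ _ h2)
      · exact hw0 (D.A2 s v₀ w hs1 (hSv s hs) (D.par_symm _ _ h))
    have hbij : ∀ y : K, y ∈ D.lineStab v₀ → (∀ s ∈ (S : Subgroup K), s * y = y * s → s = 1) →
        ∀ c ∈ (S : Subgroup K), ∃ s ∈ (S : Subgroup K), s * y * s⁻¹ = c * y := by
      intro y hyN hy c hc
      let f : ↥(S : Subgroup K) → ↥(S : Subgroup K) := fun s =>
        ⟨(s : K) * (y * (s : K)⁻¹ * y⁻¹), mul_mem s.2 (hNS y hyN _ (inv_mem s.2))⟩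
      have hf : Function.Injective f := by
        intro s s' h
        have h1 : (s : K) * (y * (s : K)⁻¹ * y⁻¹) = (s' : K) * (y * (s' : K)⁻¹ * y⁻¹) :=
          congrArg Subtype.val h
        have h2 : ((s' : K)⁻¹ * (s : K)) * y = y * ((s' : K)⁻¹ * (s : K)) := by
          have e : (s' : K)⁻¹ * ((s : K) * (y * (s : K)⁻¹ * y⁻¹)) * y * (s : K) =
              (s' : K)⁻¹ * ((s' : K) * (y * (s' : K)⁻¹ * y⁻¹)) * y * (s : K) := by rw [h1]
          have e1 : (s' : K)⁻¹ * ((s : K) * (y * (s : K)⁻¹ * y⁻¹)) * y * (s : K) =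
              (s' : K)⁻¹ * (s : K) * y := by group
          have e2 : (s' : K)⁻¹ * ((s' : K) * (y * (s' : K)⁻¹ * y⁻¹)) * y * (s : K) =
              y * ((s' : K)⁻¹ * (s : K)) := by group
          rw [e1, e2] at e
          exact e
        have h3 := hy _ (mul_mem (inv_mem s'.2) s.2) h2
        ext
        exact (inv_mul_eq_one.mp h3).symm
      obtain ⟨s, hs⟩ := (Finite.injective_iff_surjective.mp hf) ⟨c, hc⟩
      refine ⟨s, s.2, ?_⟩
      have h1 : (s : K) * (y * (s : K)⁻¹ * y⁻¹) = c := congrArg Subtype.val hs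
      rw [← h1]; group
    have hCg := hcent g v₁ hg1 hgN hgv₁ hv₁0
    have hCg' := hcent g' v₂ hg'1 hgk hg'v₂ hv₂0
    have hc : g * g' * g⁻¹ * g'⁻¹ ∈ (S : Subgroup K) := by
      rw [← hSeq, D.mem_vecStab]
      exact D.A5 g g' v₀ hgN hgk
    obtain ⟨x₁, hx₁S, hx₁⟩ := hbij g hgN hCg _ (inv_mem hc)
    have hcomm : (x₁⁻¹ * g') * g = g * (x₁⁻¹ * g') := by
      have e : (g * g' * g⁻¹ * g'⁻¹)⁻¹ * g = g' * g * g'⁻¹ := by group
      rw [e] at hx₁
      calc (x₁⁻¹ * g') * g = x₁⁻¹ * (g' * g * g'⁻¹) * g' := by group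
        _ = x₁⁻¹ * (x₁ * g * x₁⁻¹) * g' := by rw [hx₁]
        _ = g * (x₁⁻¹ * g') := by group
    obtain ⟨x₂, hx₂S, hx₂⟩ := hbij g' hgk hCg' _ (inv_mem hx₁S)
    obtain ⟨g'', hg''⟩ : ∃ g'' : K, g'' = x₂ * g' * x₂⁻¹ := ⟨_, rfl⟩
    have hg''c : g'' * g = g * g'' := by rw [hg'', hx₂]; exact hcomm
    have hg''1 : g'' ≠ 1 := by
      intro h
      apply hg'1
      have e : g' = x₂⁻¹ * g'' * x₂ := by rw [hg'']; group
      rw [e, h]; group
    have hg''N : g'' ∈ D.lineStab v₀ := by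
      rw [hg'']
      exact mul_mem (mul_mem (hSN hx₂S) hgk) (inv_mem (hSN hx₂S))
    have hg''w : D.par (D.act g'' (D.act x₂ v₂)) (D.act x₂ v₂) := by
      have h1 : D.act g'' (D.act x₂ v₂) = D.act x₂ (D.act g' v₂) := by
        rw [← D.act_mul, ← D.act_mul]
        congr 1
        rw [hg'']; group
      rw [h1]
      exact D.par_act x₂ _ _ hg'v₂
    have h1 : D.par (D.act g (D.act g'' v₁)) (D.act g'' v₁) := by
      rw [← D.act_mul, ← hg''c, D.act_mul]
      exact D.par_act g'' _ _ hgv₁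
    have hg''v₁ : D.par (D.act g'' v₁) v₁ := by
      rcases D.A4 g v₀ v₁ (D.act g'' v₁) hg1 hgN hgv₁ h1 with h | h | h
      · exact absurd (D.par_symm _ _ h) hv₁0
      · exfalso
        have h2 := D.par_act g''⁻¹ _ _ h
        rw [← D.act_mul g''⁻¹ g'', inv_mul_cancel, D.act_one] at h2
        have h3 : D.par (D.act g''⁻¹ v₀) v₀ := (D.lineStab v₀).inv_mem hg''N
        exact hv₁0 (D.par_symm _ _ (D.par_trans _ _ _ (D.par_symm _ _ h3) h2))
      · exact D.par_symm _ _ h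
    have hx₂v : D.par (D.act x₂ v₂) v₁ := by
      rcases D.A4 g'' v₀ v₁ (D.act x₂ v₂) hg''1 hg''N hg''v₁ hg''w with h | h | h
      · exact absurd (D.par_symm _ _ h) hv₁0
      · exfalso
        have h2 := D.par_act x₂⁻¹ _ _ h
        rw [← D.act_mul x₂⁻¹ x₂, inv_mul_cancel, D.act_one, hSv _ (inv_mem hx₂S)] at h2
        exact hv₂0 (D.par_symm _ _ h2)
      · exact D.par_symm _ _ h
    have hk'1 : D.act (x₂ * k⁻¹) v₁ = v₀ := by
      rw [hv₁, ← D.act_mul, mul_assoc, inv_mul_cancel, mul_one, hSv x₂ hx₂S]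
    have hk'0 : D.par (D.act (x₂ * k⁻¹) v₀) v₁ := by
      rw [D.act_mul, ← hv₂]; exact hx₂v
    have hk'sq : (x₂ * k⁻¹) * (x₂ * k⁻¹) ∈ D.lineStab v₀ := by
      rw [D.mem_lineStab, D.act_mul]
      have h2 := D.par_act (x₂ * k⁻¹) _ _ hk'0
      rw [hk'1] at h2
      exact h2
    have hk'N : x₂ * k⁻¹ ∈ D.lineStab v₀ := hmem_of_sq _ _ hk'sq
    exact hv₁0 (D.par_trans _ _ _ (D.par_symm _ _ hk'0) hk'N)

end LineData

end Cfsg.Agent.H31
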