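import Mathlib
import Cfsg.Agent.H90.NSDefs
import Cfsg.Agent.H87.NormalSub
import Cfsg.Agent.H87.Syl
import Cfsg.Agent.H86.FusExt
import Cfsg.Agent.H86.FusAlperin
import Cfsg.Agent.H86.FusSat
import Cfsg.Agent.H86.FusGroup
import Cfsg.Agent.H86.FusNormal
import Cfsg.Agent.H40.Resid

set_option autoImplicit false
set_option maxHeartbeats 400000

/-!
Piece A10 of the team project S5121: every map of `F_T(H)` is a map of `E`
(Alperin's fusion theorem for `F_T(H)` and the key lemma).
-/

namespace Cfsg.Agent.H31.NS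

open Cfsg Cfsg.FusionSystem Cfsg.Agent.H86 Cfsg.Agent.H87 Cfsg.Agent.H90.NS

universe u

/-- `T = S ∩ H` is a Sylow `p`-subgroup of the normal subgroup `H`. -/
theorem isSylIn_of_inf_le {G : Type u} [Group G] [Finite G] (p : ℕ) [Fact p.Prime] (S : Sylow p G)
    (T H : Subgroup G) (hTS : T ≤ S) (hTH : T ≤ H) (hH : H.Normal)
    (hle : (S : Subgroup G) ⊓ H ≤ T) : IsSylIn p T H := by
  have hT : T = (S : Subgroup G) ⊓ H := le_antisymm (le_inf hTS hTH) hle
  have h1 : IsSylIn p (S : Subgroup G) ⊤ := Sylow.isSylIn_of_le S le_top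
  have h2 := h1.inf_of_normal le_top (le_top : H ≤ ⊤) (by rw [Subgroup.normalizer_eq_top])
  rw [hT]
  exact h2

/-- **S5121-A10.** -/
theorem a10 : Cfsg.Agent.H90.NS.A10Stmt.{u} := by
  intro G _ _ p _ S T E hyp hsc hRn hch hrnc hkey hb hHn hSH
  obtain ⟨hG, hTS, hE⟩ := hyp
  obtain ⟨hbset, hbn, hTb⟩ := hb
  have hTH : T ≤ hSub p T E := le_sup_right
  have hsyl : IsSylIn p T (hSub p T E) := isSylIn_of_inf_le p S T _ hTS hTH hHn hSH
  have hEHsat : (fusionSystemOfSubgroup (hSub p T E) T hTH).IsSaturated p :=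
    fusionSystemOfSubgroup_saturated hTH hsyl
  have hTp : IsPGroup p T := S.isPGroup'.to_le hTS
  -- `H ⊆ B₁`
  have hHb : ∀ h ∈ hSub p T E, h ∈ b1 p T E := by
    intro h hh
    have hle : hSub p T E ≤ bSub p T E :=
      sup_le ((Subgroup.closure_le _).2 (fun g hg => Subgroup.subset_closure hg.1)) hTb
    have h2 : h ∈ (bSub p T E : Set G) := hle hh
    rwa [hbset] at h2
  -- `R` is normal in `F_T(H)`
  have hRT : rSub p T ≤ T := inf_le_left
  have hRnEH : (fusionSystemOfSubgroup (hSub p T E) T hTH).IsNormal (rSub p T) := by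
    rw [isNormal_iff]
    refine ⟨hRT, fun P f hf => ?_⟩
    obtain ⟨hPT, hfT, h, hh, hfh⟩ := mor_fusionSystemOfSubgroup_iff.1 hf
    have hRconj : ∀ x ∈ rSub p T, h * x * h⁻¹ ∈ rSub p T := fun x hx => hRn.conj_mem x hx h
    have hmor : Mor (fusionSystemOfSubgroup (hSub p T E) T hTH) (P ⊔ rSub p T)
        (fun x => h * x * h⁻¹) := by
      rw [mor_fusionSystemOfSubgroup_iff]
      refine ⟨sup_le hPT hRT, ?_, h, hh, fun x _ => rfl⟩
      have hle : P ⊔ rSub p T ≤ T.comap (MulAut.conj h).toMonoidHom := by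
        refine sup_le (fun x hx => ?_) (fun x hx => ?_)
        · rw [Subgroup.mem_comap]
          show h * x * h⁻¹ ∈ T
          rw [← hfh x hx]; exact hfT x hx
        · rw [Subgroup.mem_comap]
          exact hRT (hRconj x hx)
      intro x hx
      exact hle hx
    refine ⟨_, hmor, fun x hx => (hfh x hx).symm, ?_⟩
    exact imgS_eq_of_maps (hmor.restrict le_sup_right) hRconj
  intro P₁ f₁ hf₁
  refine alperin hTp hEHsat E ?_ P₁ f₁ hf₁
  intro P hP
  have hPT : P ≤ T := by
    rcases hP with rfl | hess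
    · exact le_rfl
    · exact hess.1.1
  have hRP : rSub p T ≤ P := by
    rcases hP with rfl | hess
    · exact hRT
    · exact le_of_isNormal_of_centric_radical hTp hRnEH hess.1 (radical_of_essential hTp hess)
  have hPfn : (fusionSystemOfSubgroup (hSub p T E) T hTH).IsFullyNormalized P := by
    rcases hP with rfl | hess
    · exact ⟨le_rfl, fun Q _ => Subgroup.card_le_of_le
        (le_inf inf_le_left (inf_le_left.trans Subgroup.le_normalizer))⟩
    · exact hess.2.1
  obtain ⟨-, hPa⟩ := saturated_fullyNormalized hTp hEHsat hPfn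
  obtain ⟨P₀, hP₀⟩ := hPa.2
  have hPS : P ≤ (S : Subgroup G) := hPT.trans hTS
  -- the elements of order prime to `p`
  have hp' : ∀ β : MulAut P, β ∈ (fusionSystemOfSubgroup (hSub p T E) T hTH).autGroup P →
      (orderOf β).Coprime p → β ∈ E.autGroup P := by
    intro β hβ hcop
    have hβm := (mem_autGroup_iff hPT β).1 hβ
    obtain ⟨-, hβT, h, hh, hβh⟩ := mor_fusionSystemOfSubgroup_iff.1 hβm
    refine hkey P hRP hPT β ?_ hcop ?_
    · rw [mem_autGroup_iff hPS, mor_groupFusionSystem_iff]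
      exact ⟨hPS, fun x hx => hTS (hβT x hx), h, hβh⟩
    · exact ((hHb h hh).2).congr (fun x hx => (hβh x (hRP hx)).symm)
  intro y hy
  obtain ⟨s, hs, m, hm, hysm⟩ := Cfsg.Agent.H40.exists_mul_sylow_pResidual P₀
    (⟨y, hy⟩ : (fusionSystemOfSubgroup (hSub p T E) T hTH).autGroup P)
  have hsE : (s : MulAut P) ∈ E.autGroup P := by
    have h1 : s ∈ (P₀ : Subgroup ((fusionSystemOfSubgroup (hSub p T E) T hTH).autGroup P)) := hs
    rw [hP₀, Subgroup.mem_subgroupOf] at h1
    exact autInducedBy_le_autGroup E hPT h1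
  have hmE : (m : MulAut P) ∈ E.autGroup P := by
    have hle : Cfsg.pResidual p ((fusionSystemOfSubgroup (hSub p T E) T hTH).autGroup P) ≤
        (E.autGroup P).subgroupOf _ := by
      unfold Cfsg.pResidual
      rw [Subgroup.closure_le]
      intro g hg
      rw [SetLike.mem_coe, Subgroup.mem_subgroupOf]
      refine hp' g g.2 ?_
      rw [Subgroup.orderOf_coe]
      exact hg
    exact Subgroup.mem_subgroupOf.1 (hle hm)
  have e : y = (s : MulAut P) * (m : MulAut P) := congrArg Subtype.val hysm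
  rw [e]
  exact (E.autGroup P).mul_mem hsE hmE

end Cfsg.Agent.H31.NS
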