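import Mathlib
import Cfsg.Agent.H74.W2PDefs

set_option autoImplicit false

/-!
# S0720-DET (helper74's team project): an irreducible constituent of the permutation module of a
primitive group of degree `2p`, other than the trivial one, has dimension at least 3 (helper31)
-/

namespace Cfsg.Agent.H31.W2P

open Cfsg.Agent.H74.W2P Equiv MulAction

open scoped commutatorElement

variable {Ω : Type*} [Fintype Ω] [DecidableEq Ω]

/-- a nontrivial normal subgroup of a primitive group is transitive -/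
theorem isPretransitive_of_normal_ne_bot {G : Subgroup (Perm Ω)} (hprim : IsPreprimitive G Ω)
    (N : Subgroup G) [N.Normal] (hN : N ≠ ⊥) : IsPretransitive N Ω := by
  haveI := hprim
  have hfix : fixedPoints N Ω ≠ Set.univ := by
    intro h
    apply hN
    rw [Subgroup.eq_bot_iff_forall]
    intro n hn
    apply Subtype.ext
    apply Equiv.Perm.ext
    intro ω
    have h1 : ω ∈ fixedPoints N Ω := by rw [h]; trivial
    have h2 := h1 ⟨n, hn⟩
    exact h2
  exact IsQuasiPreprimitive.isPretransitive_of_normal hfix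

/-- the order of a nontrivial normal subgroup of a primitive group of degree `2p` is divisible
by `2p` -/
theorem two_mul_dvd_card_of_normal {G : Subgroup (Perm Ω)} {p : ℕ} {x : Perm Ω} (hyp : Hyp G p x)
    (N : Subgroup G) [N.Normal] (hN : N ≠ ⊥) : 2 * p ∣ Nat.card N := by
  haveI := isPretransitive_of_normal_ne_bot hyp.hprim N hN
  have hpos : 0 < Fintype.card Ω := by
    rw [hyp.hcard]
    have := hyp.hp.pos
    omega
  obtain ⟨ω⟩ : Nonempty Ω := Fintype.card_pos_iff.1 hpos
  have h1 := MulAction.index_stabilizer_of_transitive (G := N) (x := ω)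
  have h2 := Subgroup.index_dvd_card (stabilizer N ω)
  rw [h1, Nat.card_eq_fintype_card, hyp.hcard] at h2
  exact h2

/-- a primitive group of degree `2p` is not abelian -/
theorem not_comm_of_hyp {G : Subgroup (Perm Ω)} {p : ℕ} {x : Perm Ω} (hyp : Hyp G p x)
    (hcomm : ∀ g h : G, g * h = h * g) : False := by
  obtain ⟨xG, hxG⟩ : ∃ xG : G, xG = ⟨x, hyp.hxG⟩ := ⟨_, rfl⟩
  have hord : orderOf xG = p := by
    rw [← hyp.hxord, hxG]
    exact Subgroup.orderOf_mk x hyp.hxG
  haveI : (Subgroup.zpowers xG).Normal :=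
    ⟨fun n hn g => by rw [hcomm g n, mul_inv_cancel_right]; exact hn⟩
  have hN : Subgroup.zpowers xG ≠ ⊥ := by
    intro h
    have h1 : xG = 1 := by rw [← Subgroup.zpowers_eq_bot]; exact h
    rw [h1, orderOf_one] at hord
    exact hyp.hp.one_lt.ne hord
  have h2 := two_mul_dvd_card_of_normal hyp (Subgroup.zpowers xG) hN
  rw [Nat.card_zpowers, hord] at h2
  have h3 := Nat.le_of_dvd hyp.hp.pos h2
  have h4 := hyp.hp.pos
  omega

/-- a primitive group of degree `2p` has no central involution -/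
theorem not_central_of_orderOf_two {G : Subgroup (Perm Ω)} {p : ℕ} {x : Perm Ω} (hyp : Hyp G p x)
    (u : G) (hu : orderOf u = 2) (hc : ∀ g : G, g * u = u * g) : False := by
  haveI : (Subgroup.zpowers u).Normal :=
    ⟨fun n hn g => by
      obtain ⟨k, rfl⟩ := hn
      have h1 : Commute g u := hc g
      have h2 : g * u ^ k * g⁻¹ = u ^ k := by
        rw [(h1.zpow_right k).eq, mul_inv_cancel_right]
      rw [h2]
      exact ⟨k, rfl⟩⟩
  have hN : Subgroup.zpowers u ≠ ⊥ := by
    intro h
    have h1 : u = 1 := by rw [← Subgroup.zpowers_eq_bot]; exact h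
    rw [h1, orderOf_one] at hu
    omega
  have h2 := two_mul_dvd_card_of_normal hyp (Subgroup.zpowers u) hN
  rw [Nat.card_zpowers, hu] at h2
  have h3 := Nat.le_of_dvd two_pos h2
  have h4 := hyp.hp.one_lt
  omega

/-- the representation of `G` on an invariant subspace `W`: `g ↦ (f ↦ f ∘ g⁻¹)` -/
noncomputable def rhoW {G : Subgroup (Perm Ω)} {W : Submodule ℂ (Ω → ℂ)} (hinv : Inv G W) :
    G →* Module.End ℂ W where
  toFun g :=
    { toFun := fun f => ⟨fun ω => (f : Ω → ℂ) ((g : Perm Ω)⁻¹ ω),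
        hinv (g : Perm Ω)⁻¹ (G.inv_mem g.2) f.1 f.2⟩
      map_add' := fun _ _ => rfl
      map_smul' := fun _ _ => rfl }
  map_one' := by
    apply LinearMap.ext
    intro f
    apply Subtype.ext
    funext ω
    simp
  map_mul' := by
    intro g h
    apply LinearMap.ext
    intro f
    apply Subtype.ext
    funext ω
    simp [mul_inv_rev, Perm.mul_apply]

theorem rhoW_apply {G : Subgroup (Perm Ω)} {W : Submodule ℂ (Ω → ℂ)} (hinv : Inv G W)
    (g : G) (f : W) (ω : Ω) :
    ((rhoW hinv g f : W) : Ω → ℂ) ω = (f : Ω → ℂ) ((g : Perm Ω)⁻¹ ω) := rfl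

/-- `G` acts faithfully on a nonzero invariant subspace of functions of sum `0` -/
theorem rhoW_injective {G : Subgroup (Perm Ω)} {p : ℕ} {x : Perm Ω} (hyp : Hyp G p x)
    {W : Submodule ℂ (Ω → ℂ)} (hinv : Inv G W) (hW : W ≠ ⊥)
    (hsum : ∀ f ∈ W, ∑ ω, f ω = 0) : Function.Injective (rhoW hinv) := by
  rw [← MonoidHom.ker_eq_bot_iff]
  by_contra hK
  haveI := isPretransitive_of_normal_ne_bot hyp.hprim (rhoW hinv).ker hK
  apply hW
  rw [Submodule.eq_bot_iff]
  intro f hf
  have hconst : ∀ ω ω' : Ω, f ω' = f ω := by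
    intro ω ω'
    obtain ⟨k, hk⟩ := exists_smul_eq (rhoW hinv).ker ω' ω
    have hk1 : rhoW hinv (k : G) = 1 := MonoidHom.mem_ker.1 k.2
    have h1 := rhoW_apply hinv (k : G) ⟨f, hf⟩ ω
    rw [hk1] at h1
    have h2 : (((k : G) : Perm Ω))⁻¹ ω = ω' := by
      rw [Perm.inv_eq_iff_eq]
      exact hk.symm
    rw [h2] at h1
    exact h1.symm
  funext ω
  have h3 := hsum f hf
  have h4 : ∑ ω' : Ω, f ω' = (Fintype.card Ω : ℂ) * f ω := by
    rw [Finset.sum_congr rfl (fun ω' _ => hconst ω ω')]
    simp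
  rw [h4, hyp.hcard] at h3
  have h5 : ((2 * p : ℕ) : ℂ) ≠ 0 := by
    have := hyp.hp.pos
    exact_mod_cast (by omega : 2 * p ≠ 0)
  exact (mul_eq_zero.1 h3).resolve_left h5

/-- a complex `2 × 2` matrix of determinant `1` and square `1` is a scalar matrix -/
theorem scalar_of_det_one_of_sq_one (M : Matrix (Fin 2) (Fin 2) ℂ) (hdet : M.det = 1)
    (hsq : M * M = 1) : ∃ c : ℂ, M = c • (1 : Matrix (Fin 2) (Fin 2) ℂ) := by
  have h00 := congrFun (congrFun hsq 0) 0
  have h01 := congrFun (congrFun hsq 0) 1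
  have h10 := congrFun (congrFun hsq 1) 0
  have h11 := congrFun (congrFun hsq 1) 1
  simp only [Matrix.mul_apply, Fin.sum_univ_two, Matrix.one_apply_eq] at h00 h11
  simp only [Matrix.mul_apply, Fin.sum_univ_two, ne_eq, zero_ne_one, one_ne_zero,
    not_false_eq_true, Matrix.one_apply_ne] at h01 h10
  rw [Matrix.det_fin_two] at hdet
  have hs : M 0 0 + M 1 1 ≠ 0 := by
    intro h
    have hd : M 1 1 = - M 0 0 := by linear_combination h
    rw [hd] at hdet
    have h2 : (2 : ℂ) = 0 := by linear_combination -h00 - hdet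
    norm_num at h2
  have hb : M 0 1 = 0 := by
    have h2 : M 0 1 * (M 0 0 + M 1 1) = 0 := by linear_combination h01
    exact (mul_eq_zero.1 h2).resolve_right hs
  have hc : M 1 0 = 0 := by
    have h2 : M 1 0 * (M 0 0 + M 1 1) = 0 := by linear_combination h10
    exact (mul_eq_zero.1 h2).resolve_right hs
  have had : M 1 1 = M 0 0 := by
    rw [hb, hc] at hdet
    rw [hb] at h00
    have h1 : M 0 0 * (M 0 0 - M 1 1) = 0 := by linear_combination h00 - hdet
    have ha : M 0 0 ≠ 0 := by
      intro h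
      rw [h] at h00
      simp at h00
    exact (sub_eq_zero.1 ((mul_eq_zero.1 h1).resolve_left ha)).symm
  refine ⟨M 0 0, ?_⟩
  ext i j
  fin_cases i <;> fin_cases j <;> simp [hb, hc, had]

theorem three_le_finrank {G : Subgroup (Perm Ω)} {p : ℕ} {x : Perm Ω} (hyp : Hyp G p x)
    (W : Submodule ℂ (Ω → ℂ)) (hinv : Inv G W) (hirr : Irr G W)
    (hsum : ∀ f ∈ W, ∑ ω, f ω = 0) : 3 ≤ Module.finrank ℂ W := by
  by_contra hlt
  push_neg at hlt
  have hinj := rhoW_injective hyp hinv hirr.1 hsum
  have hpos : 0 < Module.finrank ℂ W := by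
    rw [Module.finrank_pos_iff]
    exact (Submodule.nontrivial_iff_ne_bot).2 hirr.1
  have h12 : Module.finrank ℂ W = 1 ∨ Module.finrank ℂ W = 2 := by omega
  rcases h12 with h1 | h2
  · apply not_comm_of_hyp hyp
    intro g h
    apply hinj
    rw [map_mul, map_mul]
    obtain ⟨v, hv0, hv⟩ := finrank_eq_one_iff'.1 h1
    have hscal : ∀ T : Module.End ℂ W, ∃ c : ℂ, T = c • (1 : Module.End ℂ W) := by
      intro T
      obtain ⟨c, hc⟩ := hv (T v)
      refine ⟨c, ?_⟩
      apply LinearMap.ext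
      intro w
      obtain ⟨d, rfl⟩ := hv w
      rw [map_smul, ← hc]
      simp [smul_smul, mul_comm]
    obtain ⟨c, hc⟩ := hscal (rhoW hinv g)
    obtain ⟨d, hd⟩ := hscal (rhoW hinv h)
    rw [hc, hd, smul_mul_smul_comm, smul_mul_smul_comm, mul_comm c d]
  · have hG' : commutator G ≠ ⊥ := by
      intro hbot
      apply not_comm_of_hyp hyp
      intro g h
      have h3 : ⁅g, h⁆ ∈ commutator G :=
        Subgroup.commutator_mem_commutator (Subgroup.mem_top g) (Subgroup.mem_top h)
      rw [hbot, Subgroup.mem_bot, commutatorElement_eq_one_iff_mul_comm] at h3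
      exact h3
    have hdvd := two_mul_dvd_card_of_normal hyp (commutator G) hG'
    have h2dvd : 2 ∣ Nat.card (commutator G) := (Dvd.intro _ rfl).trans hdvd
    haveI : Fact (Nat.Prime 2) := ⟨Nat.prime_two⟩
    obtain ⟨u', hu'⟩ := exists_prime_orderOf_dvd_card' 2 h2dvd
    obtain ⟨u, hudef⟩ : ∃ u : G, u = (u' : G) := ⟨_, rfl⟩
    have hu : orderOf u = 2 := by
      rw [← hu', hudef]
      exact Subgroup.orderOf_coe u'
    have humem : u ∈ commutator G := by
      rw [hudef]
      exact u'.2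
    have hdu : (LinearMap.det.comp (rhoW hinv)).toHomUnits u = 1 :=
      MonoidHom.mem_ker.1 (Abelianization.commutator_subset_ker _ humem)
    have hdet : LinearMap.det (rhoW hinv u) = 1 := by
      have h3 := congrArg Units.val hdu
      simpa [MonoidHom.coe_toHomUnits] using h3
    have hsq : rhoW hinv u * rhoW hinv u = 1 := by
      rw [← map_mul, ← pow_two, ← hu, pow_orderOf_eq_one, map_one]
    obtain ⟨b⟩ : Nonempty (Module.Basis (Fin 2) ℂ W) := ⟨Module.finBasisOfFinrankEq ℂ W h2⟩
    have hMdet : (LinearMap.toMatrix b b (rhoW hinv u)).det = 1 := by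
      rw [LinearMap.det_toMatrix]
      exact hdet
    have hMsq : LinearMap.toMatrix b b (rhoW hinv u) * LinearMap.toMatrix b b (rhoW hinv u) = 1 := by
      rw [← LinearMap.toMatrix_mul, hsq, LinearMap.toMatrix_one]
    obtain ⟨c, hc⟩ := scalar_of_det_one_of_sq_one _ hMdet hMsq
    have hρu : rhoW hinv u = c • (1 : Module.End ℂ W) := by
      apply (LinearMap.toMatrix b b).injective
      rw [map_smul, LinearMap.toMatrix_one]
      exact hc
    apply not_central_of_orderOf_two hyp u hu
    intro g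
    apply hinj
    rw [map_mul, map_mul, hρu]
    simp

example {G : Subgroup (Perm Ω)} {p : ℕ} {x : Perm Ω} (hyp : Hyp G p x)
    (W : Submodule ℂ (Ω → ℂ)) (hinv : Inv G W) (hirr : Irr G W)
    (hsum : ∀ f ∈ W, ∑ ω, f ω = 0) : 3 ≤ Module.finrank ℂ W :=
  three_le_finrank hyp W hinv hirr hsum

end Cfsg.Agent.H31.W2P
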