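import Mathlib
import Cfsg.Agent.H74.W2PDefs

set_option autoImplicit false

/-!
# S0720-WD (helper74's team project): basic facts on `WData` (helper31)
-/

namespace Cfsg.Agent.H31.W2P

open Cfsg.Agent.H74.W2P Equiv MulAction

variable {Ω : Type*} [Fintype Ω] [DecidableEq Ω]

/-- pullback by `x` as a linear endomorphism of the functions on `Ω` -/
noncomputable def tauEnd (x : Perm Ω) : Module.End ℂ (Ω → ℂ) where
  toFun f := fun ω => f (x ω)
  map_add' _ _ := rfl
  map_smul' _ _ := rfl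

theorem Vh_eq_eigenspace (x : Perm Ω) (p : ℕ) (h : ZMod p) :
    Vh x p h = (tauEnd x).eigenspace (zeta p ^ h.val) := by
  ext f
  rw [Module.End.mem_eigenspace_iff]
  constructor
  · intro hf
    funext ω
    exact hf ω
  · intro hf ω
    exact congrFun hf ω

theorem zeta_isPrimitiveRoot {p : ℕ} (hp : p.Prime) : IsPrimitiveRoot (zeta p) p :=
  Complex.isPrimitiveRoot_exp p hp.ne_zero

theorem zeta_pow_val_injective {p : ℕ} (hp : p.Prime) :
    Function.Injective (fun h : ZMod p => zeta p ^ h.val) := by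
  haveI : NeZero p := ⟨hp.ne_zero⟩
  intro h h' hh
  exact ZMod.val_injective p ((zeta_isPrimitiveRoot hp).pow_inj (ZMod.val_lt h) (ZMod.val_lt h') hh)

theorem Vh_iSupIndep (x : Perm Ω) {p : ℕ} (hp : p.Prime) :
    iSupIndep (fun h : ZMod p => Vh x p h) := by
  have h1 := (Module.End.eigenspaces_iSupIndep (tauEnd x)).comp (zeta_pow_val_injective hp)
  convert h1 using 1
  funext h
  exact Vh_eq_eigenspace x p h

theorem finrank_biSup_of_iSupIndep {ι : Type*} [DecidableEq ι] {V : Type*} [AddCommGroup V]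
    [Module ℂ V] [FiniteDimensional ℂ V] (N : ι → Submodule ℂ V) (hN : iSupIndep N)
    (s : Finset ι) :
    Module.finrank ℂ ↥(⨆ h ∈ s, N h) = ∑ h ∈ s, Module.finrank ℂ (N h) := by
  induction s using Finset.induction_on with
  | empty => simp
  | insert a s ha ih =>
    rw [Finset.iSup_insert, Finset.sum_insert ha, ← ih]
    have hdisj : N a ⊓ (⨆ h ∈ s, N h) = ⊥ := by
      have h1 := hN a
      rw [disjoint_iff] at h1
      apply le_antisymm _ bot_le
      rw [← h1]
      apply inf_le_inf_left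
      apply iSup₂_le
      intro j hj
      have hja : j ≠ a := by rintro rfl; exact ha hj
      exact le_iSup₂ (f := fun j (_ : j ≠ a) => N j) j hja
    have h2 := Submodule.finrank_sup_add_finrank_inf_eq (N a) (⨆ h ∈ s, N h)
    rw [hdisj] at h2
    simpa using h2

theorem sum_eq_zero_of_mem_Vh (x : Perm Ω) {p : ℕ} (hp : p.Prime) {h : ZMod p} (h0 : h ≠ 0)
    {f : Ω → ℂ} (hf : f ∈ Vh x p h) : ∑ ω, f ω = 0 := by
  haveI : NeZero p := ⟨hp.ne_zero⟩
  have e1 : ∑ ω, f ω = zeta p ^ h.val * ∑ ω, f ω := by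
    calc ∑ ω, f ω = ∑ ω, f (x ω) := (Equiv.sum_comp x f).symm
      _ = ∑ ω, zeta p ^ h.val * f ω := Finset.sum_congr rfl (fun ω _ => hf ω)
      _ = _ := by rw [Finset.mul_sum]
  have hne : zeta p ^ h.val ≠ 1 := by
    apply (zeta_isPrimitiveRoot hp).pow_ne_one_of_pos_of_lt _ (ZMod.val_lt h)
    intro hv
    exact h0 ((ZMod.val_eq_zero h).1 hv)
  have h3 : (1 - zeta p ^ h.val) * ∑ ω, f ω = 0 := by linear_combination e1
  rcases mul_eq_zero.1 h3 with h' | h'
  · exact absurd (sub_eq_zero.1 h').symm hne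
  · exact h'

theorem wdata_facts {G : Subgroup (Perm Ω)} {p : ℕ} {x : Perm Ω} (hyp : Hyp G p x) {a₀ : Ω}
    {W : Submodule ℂ (Ω → ℂ)} {Λ : Finset (ZMod p)} (hW : WData G p x a₀ W Λ) :
    Module.finrank ℂ W = Λ.card ∧ (∀ h : ZMod p, h ∉ Λ → W ⊓ Vh x p h = ⊥) ∧
      ∀ f ∈ W, ∑ ω, f ω = 0 := by
  have hp := hyp.hp
  have hind := Vh_iSupIndep x hp
  have hindN : iSupIndep (fun h : ZMod p => W ⊓ Vh x p h) :=
    hind.mono (fun h => inf_le_right)
  have hWle : W ≤ ⨆ h ∈ Λ, W ⊓ Vh x p h := le_of_eq hW.sup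
  refine ⟨?_, ?_, ?_⟩
  · have h1 := finrank_biSup_of_iSupIndep (fun h : ZMod p => W ⊓ Vh x p h) hindN Λ
    have h2 : Module.finrank ℂ W = Module.finrank ℂ ↥(⨆ h ∈ Λ, W ⊓ Vh x p h) :=
      congrArg (fun S : Submodule ℂ (Ω → ℂ) => Module.finrank ℂ S) hW.sup
    rw [h2, h1, Finset.sum_congr rfl hW.eig]
    simp
  · intro h hh
    have hle : W ≤ ⨆ (h') (_ : h' ≠ h), Vh x p h' := by
      refine hWle.trans ?_
      apply iSup₂_le
      intro j hj
      have hjh : j ≠ h := by rintro rfl; exact hh hj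
      exact inf_le_right.trans (le_iSup₂ (f := fun j (_ : j ≠ h) => Vh x p j) j hjh)
    have h1 := hind h
    rw [disjoint_iff] at h1
    apply le_antisymm _ bot_le
    rw [← h1]
    exact le_inf inf_le_right (inf_le_left.trans hle)
  · let S : (Ω → ℂ) →ₗ[ℂ] ℂ := ∑ ω, LinearMap.proj ω
    have hS : ∀ f, S f = ∑ ω, f ω := by
      intro f
      simp [S]
    have hker : W ≤ LinearMap.ker S := by
      refine hWle.trans ?_
      apply iSup₂_le
      intro h hh f hf
      rw [LinearMap.mem_ker, hS]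
      have h0 : h ≠ 0 := by rintro rfl; exact hW.zero_not_mem hh
      exact sum_eq_zero_of_mem_Vh x hp h0 hf.2
    intro f hf
    have h1 := hker hf
    rwa [LinearMap.mem_ker, hS] at h1

example {G : Subgroup (Perm Ω)} {p : ℕ} {x : Perm Ω} (hyp : Hyp G p x) {a₀ : Ω}
    {W : Submodule ℂ (Ω → ℂ)} {Λ : Finset (ZMod p)} (hW : WData G p x a₀ W Λ) :
    Module.finrank ℂ W = Λ.card ∧ (∀ h : ZMod p, h ∉ Λ → W ⊓ Vh x p h = ⊥) ∧
      ∀ f ∈ W, ∑ ω, f ω = 0 := wdata_facts hyp hW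

end Cfsg.Agent.H31.W2P
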